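import Cfsg.Agent.Lib.Leech.Basic

/-! Norms of lattice vectors: evenness, minimum, congruent short vectors. -/
set_option autoImplicit false
set_option linter.all false

namespace CfsgLib.Leech

open Cfsg CfsgLib.Golay

/-- an even lattice vector written with parameter `0` -/
theorem rep_zero {x : GolayPt → ℤ} {m : ℤ} {u : GolayPt → ℤ} (h : IsRep x m u) (hm : (2 : ℤ) ∣ m) :
    ∃ v, IsRep x 0 v := by
  obtain ⟨k, rfl⟩ := hm
  obtain ⟨h1, h2, h3⟩ := h
  refine ⟨fun i => u i + k, fun i => by rw [h1 i]; ring, ?_, ?_⟩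
  · by_cases hk : (2 : ℤ) ∣ k
    · rw [show odds (fun i => u i + k) = odds u by ext i; simp only [mem_odds]; omega]
      exact h2
    · rw [show odds (fun i => u i + k) = (odds u)ᶜ by
        ext i; simp only [Finset.mem_compl, mem_odds]; omega]
      exact isW_compl h2
  · simp only [Finset.sum_add_distrib, Finset.sum_const, Finset.card_univ, card_pt,
      nsmul_eq_mul, Nat.cast_ofNat]
    omega

theorem sum_sq_mod_four (u : GolayPt → ℤ) : (4 : ℤ) ∣ (∑ i, u i ^ 2) - (odds u).card := by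
  have e : ((odds u).card : ℤ) = ∑ i, if i ∈ odds u then (1 : ℤ) else 0 := by
    rw [Finset.sum_boole]
    simp
  rw [e, ← Finset.sum_sub_distrib]
  refine Finset.dvd_sum fun i _ => ?_
  by_cases h : i ∈ odds u
  · rw [if_pos h]
    rw [mem_odds] at h
    obtain ⟨k, hk⟩ : ∃ k, u i = 2 * k + 1 := ⟨u i / 2, by omega⟩
    exact ⟨k * k + k, by rw [hk]; ring⟩
  · rw [if_neg h]
    rw [mem_odds, not_not] at h
    obtain ⟨k, hk⟩ := h
    exact ⟨k * k, by rw [hk]; ring⟩

theorem sqNorm_rep {x : GolayPt → ℤ} {m : ℤ} {u : GolayPt → ℤ} (h : ∀ i, x i = m + 2 * u i) :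
    sqNorm x = 24 * m ^ 2 + 4 * m * (∑ i, u i) + 4 * ∑ i, u i ^ 2 := by
  have e : ∀ i, x i ^ 2 = m ^ 2 + 4 * m * u i + 4 * u i ^ 2 := fun i => by rw [h i]; ring
  simp only [sqNorm, e, Finset.sum_add_distrib, ← Finset.mul_sum, Finset.sum_const,
    Finset.card_univ, card_pt, nsmul_eq_mul, Nat.cast_ofNat]

theorem sixteen_dvd {x : GolayPt → ℤ} (hx : x ∈ leechLattice) : (16 : ℤ) ∣ sqNorm x := by
  obtain ⟨m, u, h1, h2, h3⟩ := mem_leechLattice.1 hx
  rw [sqNorm_rep h1]
  obtain ⟨k, hk⟩ := h3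
  obtain ⟨q, hq⟩ := sum_sq_mod_four u
  obtain ⟨c, hc⟩ := isW_four_dvd h2
  rw [show ∑ i, u i = 2 * m + 4 * k by omega,
    show ∑ i, u i ^ 2 = 4 * (c : ℤ) + 4 * q by rw [hc] at hq; push_cast at hq; omega]
  exact ⟨2 * m ^ 2 + m * k + c + q, by ring⟩

theorem sqNorm_nonneg (x : GolayPt → ℤ) : 0 ≤ sqNorm x :=
  Finset.sum_nonneg fun i _ => sq_nonneg _

theorem sqNorm_eq_zero {x : GolayPt → ℤ} (h : sqNorm x = 0) : x = 0 := by
  funext i
  have := (Finset.sum_eq_zero_iff_of_nonneg fun j _ => sq_nonneg (x j)).1 h i (Finset.mem_univ i)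
  simpa using this

theorem sqNorm_ge_32 {x : GolayPt → ℤ} (hx : x ∈ leechLattice) (h0 : x ≠ 0) : 32 ≤ sqNorm x := by
  have h16 := sixteen_dvd hx
  have hpos : sqNorm x ≠ 0 := fun h => h0 (sqNorm_eq_zero h)
  have hnn := sqNorm_nonneg x
  by_contra hcon
  have h16' : sqNorm x = 16 := by omega
  obtain ⟨m, u, hrep⟩ := mem_leechLattice.1 hx
  by_cases hm : (2 : ℤ) ∣ m
  · obtain ⟨v, h1, h2, h3⟩ := rep_zero hrep hm
    rw [sqNorm_rep h1] at h16'
    have h4 : ∑ i, v i ^ 2 = 4 := by linarith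
    rcases isW_card h2 with h | h | h | h | h
    · rw [Finset.card_eq_zero] at h
      obtain ⟨w, hw⟩ : ∃ w : GolayPt → ℤ, ∀ i, v i = 2 * w i := by
        refine ⟨fun i => v i / 2, fun i => ?_⟩
        have : i ∉ odds v := by rw [h]; exact Finset.notMem_empty i
        rw [mem_odds, not_not] at this
        show v i = 2 * (v i / 2)
        omega
      simp only [hw, mul_pow, ← Finset.mul_sum] at h4 h3
      have hdvd : (2 : ℤ) ∣ ∑ i, (w i ^ 2 - w i) := Finset.dvd_sum fun i _ => by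
        rw [show w i ^ 2 - w i = (w i - 1) * (w i - 1 + 1) by ring]
        exact Int.two_dvd_mul_add_one _
      rw [Finset.sum_sub_distrib] at hdvd
      omega
    all_goals
      have hle : ((odds v).card : ℤ) ≤ ∑ i, v i ^ 2 := by
        rw [Finset.card_eq_sum_ones]
        push_cast
        refine le_trans (Finset.sum_le_sum fun i hi => ?_)
          (Finset.sum_le_sum_of_subset_of_nonneg (Finset.subset_univ _) fun i _ _ => sq_nonneg _)
        rw [mem_odds] at hi
        have : v i ≠ 0 := by omega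
        have := sq_pos_of_ne_zero this
        omega
      omega
  · obtain ⟨h1, -, -⟩ := hrep
    have : ∀ i, 1 ≤ x i ^ 2 := fun i => by
      have : x i ≠ 0 := by have := h1 i; omega
      have := sq_pos_of_ne_zero this
      omega
    have h24 := Finset.sum_le_sum (s := (Finset.univ : Finset GolayPt)) fun i _ => this i
    simp only [Finset.sum_const, Finset.card_univ, card_pt, nsmul_eq_mul, mul_one] at h24
    change _ ≤ sqNorm x at h24
    omega

theorem sqNorm_sub (x y : GolayPt → ℤ) : sqNorm (x - y) = sqNorm x + sqNorm y - 2 * dotInt x y := by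
  simp only [sqNorm, dotInt, Finset.mul_sum, ← Finset.sum_add_distrib, ← Finset.sum_sub_distrib]
  exact Finset.sum_congr rfl fun i _ => by simp only [Pi.sub_apply]; ring

theorem sqNorm_add (x y : GolayPt → ℤ) : sqNorm (x + y) = sqNorm x + sqNorm y + 2 * dotInt x y := by
  simp only [sqNorm, dotInt, Finset.mul_sum, ← Finset.sum_add_distrib]
  exact Finset.sum_congr rfl fun i _ => by simp only [Pi.add_apply]; ring

theorem sqNorm_two_smul (x : GolayPt → ℤ) : sqNorm (2 • x) = 4 * sqNorm x := by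
  simp only [sqNorm, Finset.mul_sum]
  exact Finset.sum_congr rfl fun i _ => by simp only [Pi.smul_apply, nsmul_eq_mul]; push_cast; ring

theorem eight_dvd_dot {x y : GolayPt → ℤ} (hx : x ∈ leechLattice) (hy : y ∈ leechLattice) :
    (8 : ℤ) ∣ dotInt x y := by
  have h1 := sixteen_dvd hx
  have h2 := sixteen_dvd hy
  have h3 := sixteen_dvd (add_mem hx hy)
  rw [sqNorm_add] at h3
  omega

/-- short congruent vectors are opposite, or both of norm 64 and orthogonal -/
theorem cong_short {x y : GolayPt → ℤ} (hy : y ∈ leechLattice)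
    (hxy : x ≠ y) (hxn : sqNorm x ≤ 64) (hyn : sqNorm y ≤ 64)
    (hc : ∃ z ∈ leechLattice, x - y = 2 • z) :
    x = -y ∨ (sqNorm x = 64 ∧ sqNorm y = 64 ∧ dotInt x y = 0) := by
  obtain ⟨z, hz, e⟩ := hc
  by_cases hxy' : x = -y
  · exact Or.inl hxy'
  refine Or.inr ?_
  have e2 : x + y = 2 • (z + y) := by rw [smul_add, ← e]; abel
  have hz0 : z ≠ 0 := fun h => hxy (by rw [h, smul_zero, sub_eq_zero] at e; exact e)
  have hzy : z + y ≠ 0 := fun h => hxy' (by
    rw [h, smul_zero] at e2; exact eq_neg_of_add_eq_zero_left e2)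
  have k1 := sqNorm_ge_32 hz hz0
  have k2 := sqNorm_ge_32 (add_mem hz hy) hzy
  have f1 := sqNorm_sub x y
  have f2 := sqNorm_add x y
  rw [e, sqNorm_two_smul] at f1
  rw [e2, sqNorm_two_smul] at f2
  omega

end CfsgLib.Leech
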