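import Cfsg.Agent.Lib.Leech.Gen
import Cfsg.Agent.Lib.Leech.Norms
import Cfsg.Agent.Lib.Golay.Kinds
import Cfsg.Prelude.Def_SporadicCombinatorics

/-! Automorphisms of the lattice: code permutations, code sign changes, and the map `xi` of a sextet. -/
set_option autoImplicit false
set_option linter.all false
set_option maxRecDepth 10000

namespace CfsgLib.Leech

open Cfsg CfsgLib.Golay
open scoped symmDiff

/-- a map of integer vectors inducing an automorphism of the lattice, with inverse `f'` -/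
structure AutoData (f f' : (GolayPt → ℤ) → (GolayPt → ℤ)) : Prop where
  mem : ∀ x ∈ leechLattice, f x ∈ leechLattice
  mem' : ∀ x ∈ leechLattice, f' x ∈ leechLattice
  left : ∀ x ∈ leechLattice, f' (f x) = x
  right : ∀ x ∈ leechLattice, f (f' x) = x
  add : ∀ x ∈ leechLattice, ∀ y ∈ leechLattice, f (x + y) = f x + f y
  norm : ∀ x ∈ leechLattice, sqNorm (f x) = sqNorm x

/-- the automorphism of such a map -/
def mkAuto {f f' : (GolayPt → ℤ) → (GolayPt → ℤ)} (h : AutoData f f') : Co0 :=
  ⟨{ toFun := fun v => ⟨f v, h.mem v v.2⟩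
     invFun := fun v => ⟨f' v, h.mem' v v.2⟩
     left_inv := fun v => Subtype.ext (h.left v v.2)
     right_inv := fun v => Subtype.ext (h.right v v.2) },
   fun v w => Subtype.ext (h.add v v.2 w w.2), fun v => h.norm v v.2⟩

theorem coe_mkAuto {f f' : (GolayPt → ℤ) → (GolayPt → ℤ)} (h : AutoData f f') (v : leechLattice) :
    ((mkAuto h • v : leechLattice) : GolayPt → ℤ) = f v := rfl

/-- moving coordinates by a permutation -/
def permMap (σ : Equiv.Perm GolayPt) (x : GolayPt → ℤ) : GolayPt → ℤ := fun i => x (σ.symm i)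

theorem permMap_data {σ : Equiv.Perm GolayPt} (hσ : σ ∈ M24) : AutoData (permMap σ) (permMap σ⁻¹) where
  mem x hx := perm_mem (inv_mem hσ) hx
  mem' x hx := perm_mem (inv_mem (inv_mem hσ)) hx
  left x _ := funext fun i => congrArg x (σ.symm_apply_apply i)
  right x _ := funext fun i => congrArg x (σ.apply_symm_apply i)
  add x _ y _ := rfl
  norm x _ := Equiv.sum_comp σ.symm fun i => x i ^ 2

theorem flipOn_data {c : Finset GolayPt} (hc : IsW c) : AutoData (flipOn c) (flipOn c) where
  mem x hx := flipOn_mem hc hx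
  mem' x hx := flipOn_mem hc hx
  left x _ := flipOn_flipOn c x
  right x _ := flipOn_flipOn c x
  add x _ y _ := flipOn_add c x y
  norm x _ := sqNorm_flipOn c x

/-- the number of the tetrad of a point in the standard sextet -/
def tetOf (i : GolayPt) : ℕ := sex0.findIdx fun m => m.testBit (idx i)

/-- twice the matrix of `xi` -/
def xiMat : Matrix GolayPt GolayPt ℤ := Matrix.of fun i j =>
  (if tetOf i = 0 then -1 else 1) *
    ((if tetOf i = tetOf j then 1 else 0) - if i = j then 2 else 0)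

theorem xiMat_sq : ∀ i k, (∑ j, xiMat i j * xiMat j k) = if i = k then 4 else 0 := by
  decide +kernel

theorem xiMat_symm (i j : GolayPt) : xiMat i j = xiMat j i := by
  by_cases h : tetOf i = tetOf j
  · simp [xiMat, h, eq_comm]
  · have : i ≠ j := fun e => h (by rw [e])
    simp [xiMat, h, Ne.symm h, this, this.symm]

/-- twice `xi` -/
def xi2 (x : GolayPt → ℤ) : GolayPt → ℤ := fun i => ∑ j, xiMat i j * x j

/-- the extra automorphism -/
def xi (x : GolayPt → ℤ) : GolayPt → ℤ := fun i => xi2 x i / 2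

theorem xi2_xi2 (x : GolayPt → ℤ) : xi2 (xi2 x) = fun i => 4 * x i := by
  funext i
  simp only [xi2, Finset.mul_sum]
  rw [Finset.sum_comm]
  simp only [← mul_assoc, ← Finset.sum_mul, xiMat_sq, ite_mul, zero_mul, Finset.sum_ite_eq,
    Finset.mem_univ, if_true]

theorem xi2_add (x y : GolayPt → ℤ) : xi2 (x + y) = xi2 x + xi2 y := by
  funext i
  simp only [xi2, Pi.add_apply, mul_add, Finset.sum_add_distrib]

/-- twice `xi` as an additive map -/
def xi2Hom : (GolayPt → ℤ) →+ (GolayPt → ℤ) where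
  toFun := xi2
  map_zero' := by funext i; simp [xi2]
  map_add' := xi2_add

theorem sqNorm_xi2 (x : GolayPt → ℤ) : sqNorm (xi2 x) = 4 * sqNorm x := by
  have h := congrFun (xi2_xi2 x)
  have e : sqNorm (xi2 x) = ∑ i, x i * xi2 (xi2 x) i := by
    simp only [sqNorm, sq]
    conv_lhs => arg 2; ext i; rw [show xi2 x i * xi2 x i = (∑ j, xiMat i j * x j) * xi2 x i from rfl,
      Finset.sum_mul]
    rw [Finset.sum_comm]
    refine Finset.sum_congr rfl fun j _ => ?_
    rw [show xi2 (xi2 x) j = ∑ i, xiMat j i * xi2 x i from rfl, Finset.mul_sum]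
    exact Finset.sum_congr rfl fun i _ => by rw [xiMat_symm j i]; ring
  rw [e]
  simp only [h, sqNorm, Finset.mul_sum]
  exact Finset.sum_congr rfl fun i _ => by ring

/-- decidable membership in the lattice -/
def MemB (x : GolayPt → ℤ) : Prop :=
  (∀ i, x i % 2 = x none % 2) ∧ ((∑ i, x i) - 4 * (x none % 2)) % 8 = 0 ∧
    inCode (toMask (Finset.univ.filter fun i => x i % 4 = (x none % 2 + 2))) = true

instance (x : GolayPt → ℤ) : Decidable (MemB x) := by unfold MemB; infer_instance

theorem mem_of_memB {x : GolayPt → ℤ} (h : MemB x) : x ∈ leechLattice := by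
  obtain ⟨h1, h2, h3⟩ := h
  refine rep_mem (m := x none % 2) (u := fun i => (x i - x none % 2) / 2) ⟨fun i => ?_, ?_, ?_⟩
  · have := h1 i
    show x i = _ + 2 * ((x i - x none % 2) / 2)
    omega
  · have e : odds (fun i => (x i - x none % 2) / 2) =
        Finset.univ.filter fun i => x i % 4 = (x none % 2 + 2) := by
      ext i
      rw [mem_odds, Finset.mem_filter]
      simp only [Finset.mem_univ, true_and]
      have := h1 i
      constructor <;> intro h <;> omega
    rw [e, isW_iff]
    exact h3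
  · have e : ∀ i, x i = x none % 2 + 2 * ((x i - x none % 2) / 2) := fun i => by
      have := h1 i; omega
    have := sum_rep (u := fun i => (x i - x none % 2) / 2) e
    show (4 : ℤ) ∣ (∑ i, (x i - x none % 2) / 2) - 2 * (x none % 2)
    omega

/-- `xi` maps a vector into the lattice -/
def XiOk (x : GolayPt → ℤ) : Prop := (∀ i, xi2 x i % 2 = 0) ∧ MemB (xi x)

instance (x : GolayPt → ℤ) : Decidable (XiOk x) := by unfold XiOk; infer_instance

theorem xi_check : XiOk omegaVec ∧ (∀ g ∈ gens, XiOk fun i => 2 * ind g i) ∧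
    (∀ i : GolayPt, XiOk fun k => (if k = i then 4 else 0) - if k = none then 4 else 0) ∧
    XiOk fun k : GolayPt => if k = none then 8 else 0 := by
  refine ⟨?_, ?_, ?_, ?_⟩ <;> decide +kernel

/-- the vectors sent by `xi` into the lattice -/
def xiDom : AddSubgroup (GolayPt → ℤ) := (leechLattice.map ((2 : ℕ) • AddMonoidHom.id _)).comap xi2Hom

theorem mem_xiDom {x : GolayPt → ℤ} : x ∈ xiDom ↔ ∃ y ∈ leechLattice, 2 • y = xi2 x := Iff.rfl

theorem xiDom_of_ok {x : GolayPt → ℤ} (h : XiOk x) : x ∈ xiDom := by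
  refine mem_xiDom.2 ⟨xi x, mem_of_memB h.2, funext fun i => ?_⟩
  simp only [Pi.smul_apply, xi, nsmul_eq_mul]
  have := h.1 i
  push_cast
  omega

theorem leech_le_of_gens {K : AddSubgroup (GolayPt → ℤ)} (hω : omegaVec ∈ K)
    (hg : ∀ g ∈ gens, (fun i => 2 * ind g i) ∈ K)
    (h4 : ∀ i : GolayPt, (fun k => (if k = i then 4 else 0) - if k = none then 4 else 0) ∈ K)
    (h8 : (fun k : GolayPt => if k = none then (8 : ℤ) else 0) ∈ K) : leechLattice ≤ K := by
  have span : ∀ l : List ℕ, (∀ g ∈ l, g ∈ gens) → ∀ m ∈ spanList l,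
      ∃ w : GolayPt → ℤ, odds w = toSet m ∧ (fun i => 2 * w i) ∈ K ∧ (4 : ℤ) ∣ ∑ i, w i := by
    intro l
    induction l with
    | nil =>
      intro _ m hm
      simp only [spanList, List.mem_singleton] at hm
      subst hm
      refine ⟨0, by rw [toSet_zero]; ext i; simp [mem_odds], ?_, by simp⟩
      rw [show (fun i => 2 * (0 : GolayPt → ℤ) i) = 0 by funext i; simp]
      exact K.zero_mem
    | cons g l ih =>
      intro hl m hm
      simp only [spanList, List.mem_flatMap, List.mem_cons, List.not_mem_nil, or_false] at hm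
      obtain ⟨x, hx, rfl | rfl⟩ := hm
      · exact ih (fun y hy => hl y (List.mem_cons_of_mem _ hy)) m hx
      · obtain ⟨w, h1, h2, h3⟩ := ih (fun y hy => hl y (List.mem_cons_of_mem _ hy)) x hx
        refine ⟨ind g + w, by rw [odds_add, h1, odds_ind, toSet_xor], ?_, ?_⟩
        · have e : (fun i => 2 * (ind g + w) i) = (fun i => 2 * ind g i) + fun i => 2 * w i := by
            funext i; simp only [Pi.add_apply]; ring
          rw [e]
          exact K.add_mem (hg g (hl g List.mem_cons_self)) h2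
        · simp only [Pi.add_apply, Finset.sum_add_distrib]
          exact dvd_add (two_ind_mem (hl g List.mem_cons_self)).2 h3
  intro x hx
  obtain ⟨m, u, h1, h2, h3⟩ := mem_leechLattice.1 hx
  obtain ⟨u', hu'⟩ : ∃ u' : GolayPt → ℤ, ∀ i, u' i = u i - m * if i = none then -2 else 0 :=
    ⟨_, fun _ => rfl⟩
  have hodds : odds u' = odds u := by
    ext i
    rw [mem_odds, mem_odds, hu' i]
    split_ifs <;> omega
  have hsum : (4 : ℤ) ∣ ∑ i, u' i := by
    simp only [hu', Finset.sum_sub_distrib, ← Finset.mul_sum, Finset.sum_ite_eq', Finset.mem_univ,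
      if_true]
    omega
  obtain ⟨mm, hmm, hset⟩ : ∃ mm ∈ spanList gens, toSet mm = odds u' := by
    rw [hodds]
    exact ⟨_, mem_codeList.2 ((isW_iff _).1 h2), toSet_toMask _⟩
  obtain ⟨w, w1, w2, w3⟩ := span gens (fun g hg => hg) mm hmm
  obtain ⟨v, hv⟩ : ∃ v : GolayPt → ℤ, ∀ i, u' i = w i + 2 * v i := by
    refine ⟨fun i => (u' i - w i) / 2, fun i => ?_⟩
    have h : i ∈ odds u' ↔ i ∈ odds w := by rw [w1, hset]
    rw [mem_odds, mem_odds] at h
    show u' i = w i + 2 * ((u' i - w i) / 2)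
    omega
  obtain ⟨k, hk⟩ : (2 : ℤ) ∣ ∑ i, v i := by
    simp only [hv, Finset.sum_add_distrib, ← Finset.mul_sum] at hsum
    omega
  have := K.add_mem (K.add_mem (K.add_mem (K.zsmul_mem hω m) w2)
    (AddSubgroup.sum_mem K (t := Finset.univ) fun i _ => K.zsmul_mem (h4 i) (v i))) (K.zsmul_mem h8 k)
  convert this using 1
  funext t
  have := hu' t
  rw [hv t] at this
  simp only [Pi.add_apply, Pi.smul_apply, Finset.sum_apply, omegaVec, smul_eq_mul, h1 t, mul_sub,
    mul_ite, mul_zero, Finset.sum_sub_distrib, Finset.sum_ite_eq, Finset.mem_univ, if_true]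
  by_cases ht : t = none
  · simp only [ht, if_true, ← Finset.sum_mul, hk] at this ⊢; linarith
  · simp only [ht, if_false, Finset.sum_const_zero] at this ⊢; linarith

theorem leech_le_xiDom : leechLattice ≤ xiDom := by
  obtain ⟨c1, c2, c3, c4⟩ := xi_check
  exact leech_le_of_gens (xiDom_of_ok c1) (fun g hg => xiDom_of_ok (c2 g hg))
    (fun i => xiDom_of_ok (c3 i)) (xiDom_of_ok c4)

theorem xi_spec {x : GolayPt → ℤ} (hx : x ∈ leechLattice) :
    xi x ∈ leechLattice ∧ ∀ i, xi2 x i = 2 * xi x i := by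
  obtain ⟨y, hy, e⟩ := mem_xiDom.1 (leech_le_xiDom hx)
  have : xi x = y := funext fun i => by
    have := congrFun e i
    simp only [Pi.smul_apply, nsmul_eq_mul] at this
    show xi2 x i / 2 = y i
    rw [← this]
    push_cast
    omega
  subst this
  exact ⟨hy, fun i => by
    have := congrFun e i
    simp only [Pi.smul_apply, nsmul_eq_mul] at this
    push_cast at this
    linarith⟩

theorem xi_xi {x : GolayPt → ℤ} (hx : x ∈ leechLattice) : xi (xi x) = x := by
  obtain ⟨h1, h2⟩ := xi_spec hx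
  funext i
  have h3 : xi2 (xi2 x) i = 2 * xi2 (xi x) i := by
    rw [show xi2 x = xi x + xi x from funext fun k => by rw [h2 k, Pi.add_apply]; ring, xi2_add,
      Pi.add_apply]
    ring
  rw [congrFun (xi2_xi2 x) i, (xi_spec h1).2 i] at h3
  linarith

theorem xi_data : AutoData xi xi where
  mem x hx := (xi_spec hx).1
  mem' x hx := (xi_spec hx).1
  left x hx := xi_xi hx
  right x hx := xi_xi hx
  add x hx y hy := funext fun i => by
    have h1 := (xi_spec (add_mem hx hy)).2 i
    rw [xi2_add, Pi.add_apply, (xi_spec hx).2 i, (xi_spec hy).2 i] at h1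
    rw [Pi.add_apply]
    linarith
  norm x hx := by
    have h := sqNorm_xi2 x
    rw [show xi2 x = 2 • xi x from funext fun i => by
      rw [(xi_spec hx).2 i]; simp, sqNorm_two_smul] at h
    linarith

/-- some automorphism carries `x` to `y` -/
def Equi (x y : GolayPt → ℤ) : Prop :=
  ∃ (g : Co0) (hx : x ∈ leechLattice), ((g • (⟨x, hx⟩ : leechLattice) : leechLattice) : GolayPt → ℤ) = y

theorem Equi.mem {x y : GolayPt → ℤ} (h : Equi x y) : y ∈ leechLattice := by
  obtain ⟨g, hx, rfl⟩ := h
  exact (g • (⟨x, hx⟩ : leechLattice)).2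

theorem Equi.symm {x y : GolayPt → ℤ} (h : Equi x y) : Equi y x := by
  obtain ⟨g, hx, rfl⟩ := h
  exact ⟨g⁻¹, (g • (⟨x, hx⟩ : leechLattice)).2, by rw [Subtype.coe_eta, inv_smul_smul]⟩

theorem Equi.trans {x y z : GolayPt → ℤ} (h : Equi x y) (h' : Equi y z) : Equi x z := by
  obtain ⟨g, hx, rfl⟩ := h
  obtain ⟨g', hy, rfl⟩ := h'
  exact ⟨g' * g, hx, by rw [mul_smul]⟩

theorem equi_refl {x : GolayPt → ℤ} (hx : x ∈ leechLattice) : Equi x x :=
  ⟨1, hx, by rw [one_smul]⟩

theorem equi_of_data {f f' : (GolayPt → ℤ) → (GolayPt → ℤ)} (h : AutoData f f') {x : GolayPt → ℤ}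
    (hx : x ∈ leechLattice) : Equi x (f x) := ⟨mkAuto h, hx, rfl⟩

theorem equi_flip {c : Finset GolayPt} (hc : IsW c) {x : GolayPt → ℤ} (hx : x ∈ leechLattice) :
    Equi x (flipOn c x) := equi_of_data (flipOn_data hc) hx

theorem equi_perm {σ : Equiv.Perm GolayPt} (hσ : σ ∈ M24) {x : GolayPt → ℤ} (hx : x ∈ leechLattice) :
    Equi x (permMap σ x) := equi_of_data (permMap_data hσ) hx

theorem equi_xi {x : GolayPt → ℤ} (hx : x ∈ leechLattice) : Equi x (xi x) := equi_of_data xi_data hx

theorem co0_norm (g : Co0) (v : leechLattice) :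
    sqNorm ((g • v : leechLattice) : GolayPt → ℤ) = sqNorm (v : GolayPt → ℤ) := g.2.2 v

theorem co0_add (g : Co0) (v w : leechLattice) : g • (v + w) = g • v + g • w := g.2.1 v w

end CfsgLib.Leech
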