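import Cfsg.Agent.Lib.Golay.Octads
import Cfsg.Prelude.Def_SporadicCombinatorics

/-! The set `leechSet` in the form `m + 2 u` with `u mod 2` a code word and `∑ u ≡ 2m (mod 4)`;
it is an additive subgroup, stable under code permutations and code sign changes. -/
set_option autoImplicit false
set_option linter.all false

namespace CfsgLib.Leech

open Cfsg CfsgLib.Golay
open scoped Pointwise symmDiff

/-- `s` is the support of a code word -/
def IsW (s : Finset GolayPt) : Prop := s ∈ supports (golayCode : Set (GolayPt → ZMod 2))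

theorem isW_iff (s : Finset GolayPt) : IsW s ↔ inCode (toMask s) = true := mem_supports_iff s

theorem isW_symmDiff {s t : Finset GolayPt} (hs : IsW s) (ht : IsW t) : IsW (s ∆ t) := by
  rw [isW_iff] at *
  rw [toMask_symmDiff]
  exact inCode_xor hs ht

theorem isW_univ : IsW Finset.univ := by
  rw [isW_iff]; decide +kernel

theorem isW_empty : IsW ∅ := by
  rw [isW_iff]; decide +kernel

theorem isW_compl {s : Finset GolayPt} (hs : IsW s) : IsW sᶜ := by
  have := isW_symmDiff hs isW_univ
  rwa [show Finset.univ = (⊤ : Finset GolayPt) from rfl, symmDiff_top] at this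

theorem isW_card {s : Finset GolayPt} (hs : IsW s) :
    s.card = 0 ∨ s.card = 8 ∨ s.card = 12 ∨ s.card = 16 ∨ s.card = 24 := by
  rw [isW_iff] at hs
  rw [← toSet_toMask s, card_toSet]
  exact pc_cases hs

theorem isW_four_dvd {s : Finset GolayPt} (hs : IsW s) : 4 ∣ s.card := by
  rcases isW_card hs with h | h | h | h | h <;> rw [h] <;> decide

theorem isW_inter_even {s t : Finset GolayPt} (hs : IsW s) (ht : IsW t) : 2 ∣ (s ∩ t).card := by
  have h1 := isW_four_dvd hs
  have h2 := isW_four_dvd ht
  have h3 := isW_four_dvd (isW_symmDiff hs ht)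
  have h4 : (s ∆ t).card + 2 * (s ∩ t).card = s.card + t.card := by
    rw [show s ∆ t = (s \ t) ∪ (t \ s) from rfl,
      Finset.card_union_of_disjoint disjoint_sdiff_sdiff]
    have e1 := Finset.card_sdiff_add_card_inter s t
    have e2 := Finset.card_sdiff_add_card_inter t s
    rw [Finset.inter_comm t s] at e2
    omega
  omega

/-- the positions where `u` is odd -/
def odds (u : GolayPt → ℤ) : Finset GolayPt := Finset.univ.filter fun i => ¬ (2 : ℤ) ∣ u i

theorem mem_odds {u : GolayPt → ℤ} {i : GolayPt} : i ∈ odds u ↔ ¬ (2 : ℤ) ∣ u i := by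
  simp [odds]

theorem odds_add (u v : GolayPt → ℤ) : odds (u + v) = odds u ∆ odds v := by
  ext i
  simp only [Finset.mem_symmDiff, mem_odds, Pi.add_apply]
  omega

theorem odds_neg (u : GolayPt → ℤ) : odds (-u) = odds u := by
  ext i
  simp only [mem_odds, Pi.neg_apply]
  omega

/-- `x = m + 2 u` is a Leech vector -/
def IsRep (x : GolayPt → ℤ) (m : ℤ) (u : GolayPt → ℤ) : Prop :=
  (∀ i, x i = m + 2 * u i) ∧ IsW (odds u) ∧ (4 : ℤ) ∣ (∑ i, u i) - 2 * m

theorem card_pt : Fintype.card GolayPt = 24 := rfl

theorem sum_rep {x : GolayPt → ℤ} {m : ℤ} {u : GolayPt → ℤ} (h : ∀ i, x i = m + 2 * u i) :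
    ∑ i, x i = 24 * m + 2 * ∑ i, u i := by
  simp only [h, Finset.sum_add_distrib, Finset.sum_const, Finset.card_univ, card_pt,
    ← Finset.mul_sum, nsmul_eq_mul, Nat.cast_ofNat]

theorem mem_leechSet_iff {x : GolayPt → ℤ} : x ∈ leechSet ↔ ∃ m u, IsRep x m u := by
  constructor
  · rintro ⟨m, hpar, hsum, hres⟩
    obtain ⟨u, hu⟩ : ∃ u : GolayPt → ℤ, ∀ i, x i = m + 2 * u i := by
      refine ⟨fun i => (x i - m) / 2, fun i => ?_⟩
      have := hpar i
      unfold Int.ModEq at this
      show x i = m + 2 * ((x i - m) / 2)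
      omega
    refine ⟨m, u, hu, ?_, ?_⟩
    · have e : odds u = Finset.univ.filter fun i => x i ≡ m + 2 [ZMOD 4] := by
        ext i
        rw [mem_odds, Finset.mem_filter]
        simp only [Finset.mem_univ, true_and, Int.ModEq, hu i]
        constructor <;> intro h <;> omega
      rw [e]
      exact hres (m + 2)
    · rw [sum_rep hu] at hsum
      unfold Int.ModEq at hsum
      omega
  · rintro ⟨m, u, hu, hW, hs⟩
    refine ⟨m, fun i => ?_, ?_, fun k => ?_⟩
    · unfold Int.ModEq
      rw [hu i]
      omega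
    · rw [sum_rep hu]
      unfold Int.ModEq
      omega
    · have key : ∀ i, (x i ≡ k [ZMOD 4]) ↔
          (4 ∣ k - m ∧ (2 : ℤ) ∣ u i) ∨ (4 ∣ k - m - 2 ∧ ¬ (2 : ℤ) ∣ u i) := by
        intro i
        unfold Int.ModEq
        rw [hu i]
        omega
      by_cases h0 : (4 : ℤ) ∣ k - m
      · have e : (Finset.univ.filter fun i => x i ≡ k [ZMOD 4]) = (odds u)ᶜ := by
          ext i
          simp only [Finset.mem_filter, Finset.mem_univ, true_and, Finset.mem_compl, mem_odds, key]
          omega
        rw [e]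
        exact isW_compl hW
      · by_cases h2 : (4 : ℤ) ∣ k - m - 2
        · have e : (Finset.univ.filter fun i => x i ≡ k [ZMOD 4]) = odds u := by
            ext i
            simp only [Finset.mem_filter, Finset.mem_univ, true_and, mem_odds, key]
            omega
          rw [e]
          exact hW
        · have e : (Finset.univ.filter fun i => x i ≡ k [ZMOD 4]) = ∅ := by
            apply Finset.filter_false_of_mem
            intro i _ hi
            rw [key] at hi
            omega
          rw [e]
          exact isW_empty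

/-- `leechSet` as an additive subgroup -/
def leechGrp : AddSubgroup (GolayPt → ℤ) where
  carrier := leechSet
  zero_mem' := mem_leechSet_iff.2 ⟨0, 0, fun i => by simp, by
    rw [show odds 0 = ∅ by ext i; simp [mem_odds]]
    exact isW_empty, by simp⟩
  add_mem' := by
    intro x y hx hy
    obtain ⟨m, u, h1, h2, h3⟩ := mem_leechSet_iff.1 hx
    obtain ⟨n, v, g1, g2, g3⟩ := mem_leechSet_iff.1 hy
    refine mem_leechSet_iff.2 ⟨m + n, u + v, fun i => ?_, ?_, ?_⟩
    · simp only [Pi.add_apply, h1 i, g1 i]; ring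
    · rw [odds_add]; exact isW_symmDiff h2 g2
    · simp only [Pi.add_apply, Finset.sum_add_distrib]; omega
  neg_mem' := by
    intro x hx
    obtain ⟨m, u, h1, h2, h3⟩ := mem_leechSet_iff.1 hx
    refine mem_leechSet_iff.2 ⟨-m, -u, fun i => ?_, ?_, ?_⟩
    · simp only [Pi.neg_apply, h1 i]; ring
    · rw [odds_neg]; exact h2
    · simp only [Pi.neg_apply, Finset.sum_neg_distrib]; omega

theorem leechLattice_eq : leechLattice = leechGrp :=
  AddSubgroup.closure_eq leechGrp

theorem mem_leechLattice {x : GolayPt → ℤ} : x ∈ leechLattice ↔ ∃ m u, IsRep x m u := by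
  rw [leechLattice_eq]
  exact mem_leechSet_iff

theorem mem_lattice_iff_set {x : GolayPt → ℤ} : x ∈ leechLattice ↔ x ∈ leechSet := by
  rw [leechLattice_eq]; rfl

/-- permutations of the code stabilise the supports -/
theorem isW_smul {σ : Equiv.Perm GolayPt} (hσ : σ ∈ M24) {s : Finset GolayPt} (hs : IsW s) :
    IsW (σ • s) := by
  have h := MulAction.mem_stabilizer_iff.1 hσ
  unfold IsW
  rw [← h]
  exact Set.smul_mem_smul_set hs

theorem perm_mem {σ : Equiv.Perm GolayPt} (hσ : σ ∈ M24) {x : GolayPt → ℤ}
    (hx : x ∈ leechLattice) : (fun i => x (σ i)) ∈ leechLattice := by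
  obtain ⟨m, u, h1, h2, h3⟩ := mem_leechLattice.1 hx
  refine mem_leechLattice.2 ⟨m, fun i => u (σ i), fun i => h1 (σ i), ?_, ?_⟩
  · have e : odds (fun i => u (σ i)) = σ⁻¹ • odds u := by
      ext i
      rw [Finset.mem_inv_smul_finset_iff, mem_odds, mem_odds, Equiv.Perm.smul_def]
    rw [e]
    exact isW_smul (Subgroup.inv_mem _ hσ) h2
  · rw [Equiv.sum_comp σ u]
    exact h3

/-- sign change on the positions of `c` -/
def flipOn (c : Finset GolayPt) (x : GolayPt → ℤ) : GolayPt → ℤ :=
  fun i => if i ∈ c then -x i else x i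

theorem flipOn_flipOn (c : Finset GolayPt) (x : GolayPt → ℤ) : flipOn c (flipOn c x) = x := by
  funext i
  simp only [flipOn]
  split_ifs <;> simp

theorem flipOn_add (c : Finset GolayPt) (x y : GolayPt → ℤ) :
    flipOn c (x + y) = flipOn c x + flipOn c y := by
  funext i
  simp only [flipOn, Pi.add_apply]
  split_ifs <;> ring

theorem sqNorm_flipOn (c : Finset GolayPt) (x : GolayPt → ℤ) :
    sqNorm (flipOn c x) = sqNorm x := by
  refine Finset.sum_congr rfl fun i _ => ?_
  simp only [flipOn]
  split_ifs <;> ring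

theorem flipOn_mem {c : Finset GolayPt} (hc : IsW c) {x : GolayPt → ℤ} (hx : x ∈ leechLattice) :
    flipOn c x ∈ leechLattice := by
  obtain ⟨m, u, h1, h2, h3⟩ := mem_leechLattice.1 hx
  refine mem_leechLattice.2 ⟨m, fun i => if i ∈ c then -u i - m else u i, fun i => ?_, ?_, ?_⟩
  · simp only [flipOn, h1 i]
    split_ifs <;> ring
  · by_cases hm : (2 : ℤ) ∣ m
    · have e : odds (fun i => if i ∈ c then -u i - m else u i) = odds u := by
        ext i
        simp only [mem_odds]
        split_ifs <;> omega
      rw [e]; exact h2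
    · have e : odds (fun i => if i ∈ c then -u i - m else u i) = odds u ∆ c := by
        ext i
        simp only [mem_odds, Finset.mem_symmDiff]
        split_ifs with h <;> simp [h] <;> omega
      rw [e]; exact isW_symmDiff h2 hc
  · have hcard : (4 : ℤ) ∣ (c.card : ℤ) := Int.natCast_dvd_natCast.2 (isW_four_dvd hc)
    have heven : (2 : ℤ) ∣ ∑ i ∈ c, u i := by
      have h4 : (2 : ℤ) ∣ ((c ∩ odds u).card : ℤ) :=
        Int.natCast_dvd_natCast.2 (isW_inter_even hc h2)
      have h5 : (2 : ℤ) ∣ ∑ i ∈ c, (u i - if i ∈ odds u then 1 else 0) := by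
        refine Finset.dvd_sum fun i _ => ?_
        split_ifs with h <;> rw [mem_odds] at h <;> omega
      rw [Finset.sum_sub_distrib, ← Finset.sum_filter, Finset.filter_mem_eq_inter, Finset.sum_const,
        nsmul_eq_mul, mul_one] at h5
      omega
    have e : (∑ i, if i ∈ c then -u i - m else u i) =
        (∑ i, u i) - 2 * (∑ i ∈ c, u i) - (c.card : ℤ) * m := by
      have e1 : ∀ i, (if i ∈ c then -u i - m else u i) =
          u i - if i ∈ c then 2 * u i + m else 0 := fun i => by split_ifs <;> ring
      simp only [e1, Finset.sum_sub_distrib, Finset.sum_ite_mem, Finset.univ_inter,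
        Finset.sum_add_distrib, ← Finset.mul_sum, Finset.sum_const, nsmul_eq_mul]
      ring
    rw [e]
    obtain ⟨k, hk⟩ := hcard
    rw [hk, mul_assoc]
    generalize k * m = q
    omega

end CfsgLib.Leech
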