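import Mathlib

/-! A table computing the number of integer functions with prescribed value lists, total weight
and total residue. -/
set_option autoImplicit false
set_option linter.all false
set_option maxRecDepth 10000

namespace CfsgLib.Census

/-- one step of the table: `T.getD (n * M + r) 0` counts weight `n`, residue `r` -/
def step (w : ℤ → ℕ) (M K : ℕ) (V : List ℤ) (T : List ℕ) : List ℕ :=
  (List.range K).map fun k => (V.map fun v =>
    if w v ≤ k / M then T.getD ((k / M - w v) * M + (((k % M : ℕ) : ℤ) - v).natMod M) 0 else 0).sum

/-- the table of a list of value lists -/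
def tab (w : ℤ → ℕ) (M K : ℕ) : List (List ℤ) → List ℕ
  | [] => (List.range K).map fun k => if k = 0 then 1 else 0
  | V :: L => step w M K V (tab w M K L)

variable {ι : Type*} [Fintype ι] [DecidableEq ι]

/-- the functions with values in the lists on `s`, zero elsewhere -/
def fns (V : ι → List ℤ) (s : Finset ι) : Finset (ι → ℤ) :=
  Fintype.piFinset fun i => if i ∈ s then (V i).toFinset else {0}

theorem mem_fns {V : ι → List ℤ} {s : Finset ι} {f : ι → ℤ} :
    f ∈ fns V s ↔ (∀ i ∈ s, f i ∈ V i) ∧ ∀ i, i ∉ s → f i = 0 := by
  rw [fns, Fintype.mem_piFinset]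
  constructor
  · intro h
    exact ⟨fun i hi => by have := h i; rw [if_pos hi] at this; simpa using this,
      fun i hi => by have := h i; rw [if_neg hi] at this; simpa using this⟩
  · rintro ⟨h1, h2⟩ i
    by_cases hi : i ∈ s
    · rw [if_pos hi]; simpa using h1 i hi
    · rw [if_neg hi]; simpa using h2 i hi

/-- functions of prescribed weight and residue -/
def sel (w : ℤ → ℕ) (M : ℕ) (V : ι → List ℤ) (s : Finset ι) (n r : ℕ) : Finset (ι → ℤ) :=
  (fns V s).filter fun f => (∑ i ∈ s, w (f i)) = n ∧ (∑ i ∈ s, f i).natMod M = r

theorem natMod_sub {M : ℕ} (hM : 0 < M) (a v : ℤ) {r : ℕ} (hr : r < M) :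
    a.natMod M = ((r : ℤ) - v).natMod M ↔ (v + a).natMod M = r := by
  have hM' : (M : ℤ) ≠ 0 := by omega
  unfold Int.natMod
  rw [← Int.ofNat_inj, Int.toNat_of_nonneg (Int.emod_nonneg _ hM'),
    Int.toNat_of_nonneg (Int.emod_nonneg _ hM'), ← Int.ofNat_inj (m := ((v + a) % M).toNat),
    Int.toNat_of_nonneg (Int.emod_nonneg _ hM')]
  conv_rhs => rw [← Int.emod_eq_of_lt (Int.natCast_nonneg r) (Int.ofNat_lt.2 hr)]
  rw [Int.emod_eq_emod_iff_emod_sub_eq_zero, Int.emod_eq_emod_iff_emod_sub_eq_zero]
  rw [show a - ((r : ℤ) - v) = v + a - r by ring]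

theorem card_sel (w : ℤ → ℕ) {M N : ℕ} (hM : 0 < M) (V : ι → List ℤ) (hV : ∀ i, (V i).Nodup) :
    ∀ l : List ι, l.Nodup → ∀ n r, r < M → n < N →
      (sel w M V l.toFinset n r).card = (tab w M (N * M) (l.map V)).getD (n * M + r) 0
  | [], _, n, r, hr, hn => by
    have hK : n * M + r < N * M := by
      have := Nat.mul_le_mul_right M (show n + 1 ≤ N by omega)
      rw [Nat.succ_mul] at this
      omega
    have e : sel w M V ([] : List ι).toFinset n r =
        if n = 0 ∧ r = 0 then {fun _ => 0} else ∅ := by
      ext f
      rw [sel, Finset.mem_filter, mem_fns]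
      simp only [List.toFinset_nil, Finset.sum_empty,
        Finset.notMem_empty, false_imp_iff, implies_true, true_and, not_false_iff, forall_const]
      have hz : Int.natMod 0 M = 0 := by simp [Int.natMod]
      rw [hz]
      by_cases h : n = 0 ∧ r = 0
      · obtain ⟨rfl, rfl⟩ := h
        simp [funext_iff]
      · simp only [h, if_false, Finset.notMem_empty, iff_false]
        rintro ⟨-, rfl, rfl⟩
        exact h ⟨rfl, rfl⟩
    simp only [e, List.map_nil, tab]
    rw [List.getD_eq_getElem _ _ (by simpa using hK), List.getElem_map, List.getElem_range]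
    by_cases h : n = 0 ∧ r = 0
    · obtain ⟨rfl, rfl⟩ := h
      simp
    · rw [if_neg h, Finset.card_empty, if_neg]
      intro h0
      rcases Nat.eq_zero_or_pos n with h' | h'
      · subst h'; exact h ⟨rfl, by omega⟩
      · have := Nat.le_mul_of_pos_left M h'; omega
  | a :: l, hnd, n, r, hr, hn => by
    have hK : n * M + r < N * M := by
      have := Nat.mul_le_mul_right M (show n + 1 ≤ N by omega)
      rw [Nat.succ_mul] at this
      omega
    rw [List.nodup_cons] at hnd
    have ha : a ∉ l.toFinset := by simpa using hnd.1
    have hdiv : (n * M + r) / M = n := by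
      rw [Nat.mul_comm, Nat.mul_add_div hM, Nat.div_eq_of_lt hr, Nat.add_zero]
    have hmod : (n * M + r) % M = r := by
      rw [Nat.mul_comm, Nat.mul_add_mod, Nat.mod_eq_of_lt hr]
    simp only [List.map_cons, tab, step]
    rw [List.getD_eq_getElem _ _ (by simpa using hK), List.getElem_map, List.getElem_range, hdiv,
      hmod]
    have hsplit : sel w M V (a :: l).toFinset n r =
        (V a).toFinset.biUnion fun v => if w v ≤ n then
          (sel w M V l.toFinset (n - w v) (((r : ℤ) - v).natMod M)).image
            fun g => Function.update g a v else ∅ := by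
      ext f
      simp only [Finset.mem_biUnion, List.mem_toFinset, sel, Finset.mem_filter]
      rw [List.toFinset_cons, Finset.sum_insert ha, Finset.sum_insert ha]
      constructor
      · rintro ⟨hf, h1, h2⟩
        rw [mem_fns] at hf
        refine ⟨f a, hf.1 a (Finset.mem_insert_self _ _), ?_⟩
        rw [if_pos (by omega), Finset.mem_image]
        refine ⟨Function.update f a 0, Finset.mem_filter.2 ⟨mem_fns.2 ⟨fun i hi => ?_, fun i hi => ?_⟩,
          ?_, ?_⟩, by simp⟩
        · rw [Function.update_of_ne (ne_of_mem_of_not_mem hi ha)]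
          exact hf.1 i (Finset.mem_insert_of_mem hi)
        · by_cases hia : i = a
          · subst hia; simp
          · rw [Function.update_of_ne hia]
            exact hf.2 i (by simp only [Finset.mem_insert, not_or]; exact ⟨hia, hi⟩)
        · rw [Finset.sum_congr rfl fun i hi => by rw [Function.update_of_ne (ne_of_mem_of_not_mem hi ha)]]
          omega
        · rw [Finset.sum_congr rfl fun i hi => Function.update_of_ne (ne_of_mem_of_not_mem hi ha) _ _,
            natMod_sub hM _ _ hr]
          exact h2
      · rintro ⟨v, hv, hf⟩
        by_cases hw : w v ≤ n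
        · rw [if_pos hw, Finset.mem_image] at hf
          obtain ⟨g, hg, rfl⟩ := hf
          rw [Finset.mem_filter, mem_fns] at hg
          obtain ⟨⟨hg1, hg2⟩, h1, h2⟩ := hg
          have e : ∀ i ∈ l.toFinset, Function.update g a v i = g i := fun i hi =>
            Function.update_of_ne (ne_of_mem_of_not_mem hi ha) _ _
          rw [Finset.sum_congr rfl fun i hi => by rw [e i hi], Finset.sum_congr rfl e,
            Function.update_self]
          refine ⟨mem_fns.2 ⟨fun i hi => ?_, fun i hi => ?_⟩, by omega, (natMod_sub hM _ _ hr).1 h2⟩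
          · rcases Finset.mem_insert.1 hi with rfl | hi
            · simpa using hv
            · rw [e i hi]; exact hg1 i hi
          · rw [Finset.mem_insert, not_or] at hi
            rw [Function.update_of_ne hi.1]; exact hg2 i hi.2
        · rw [if_neg hw] at hf; simp at hf
    rw [hsplit, Finset.card_biUnion, List.sum_toFinset _ (hV a)]
    · congr 1
      refine List.map_congr_left fun v _ => ?_
      by_cases hw : w v ≤ n
      · rw [if_pos hw, if_pos hw, Finset.card_image_of_injOn]
        · refine card_sel w hM V hV l hnd.2 _ _ ?_ ?_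
          · have hM' : (M : ℤ) ≠ 0 := by omega
            have := Int.emod_lt_of_pos ((r : ℤ) - v) (by omega : (0 : ℤ) < M)
            have := Int.emod_nonneg ((r : ℤ) - v) hM'
            unfold Int.natMod
            omega
          · omega
        · intro g hg g' hg' h
          funext i
          by_cases hi : i = a
          · subst hi
            rw [(mem_fns.1 (Finset.mem_filter.1 hg).1).2 _ ha,
              (mem_fns.1 (Finset.mem_filter.1 hg').1).2 _ ha]
          · have := congrFun h i
            simpa [Function.update_of_ne hi] using this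
      · rw [if_neg hw, if_neg hw, Finset.card_empty]
    · intro v _ v' _ hne
      rw [Function.onFun, Finset.disjoint_left]
      intro f hf hf'
      apply hne
      split_ifs at hf hf' <;> try simp at hf hf'
      obtain ⟨g, -, rfl⟩ := hf
      obtain ⟨g', -, e⟩ := hf'
      have := congrFun e a
      simpa using this.symm

end CfsgLib.Census
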