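import Cfsg.Agent.Lib.Leech.Counts
import Cfsg.Agent.Lib.Leech.Norms

/-! Numbers of short lattice vectors with two prescribed coordinates. -/
set_option autoImplicit false
set_option linter.all false
set_option maxRecDepth 20000

namespace CfsgLib.Leech

open Cfsg CfsgLib.Golay CfsgLib.Census

/-- restrict a value list at one coordinate -/
def only (p : ℤ) (L : List ℤ) : List ℤ := L.filter fun v => decide (v = p)

/-- value lists with two prescribed coordinates -/
def twoV (a b : GolayPt) (s : Finset GolayPt) (p q : ℤ) (A B : List ℤ) (i : GolayPt) : List ℤ :=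
  if i = a then only p (if i ∈ s then A else B)
  else if i = b then only q (if i ∈ s then A else B)
  else if i ∈ s then A else B

/-- the lists in table order -/
def twoL' (ba bb : Bool) (c : ℕ) (p q : ℤ) (A B : List ℤ) : List (List ℤ) :=
  only p (if ba then A else B) :: only q (if bb then A else B) ::
    (List.replicate (c - (if ba then 1 else 0) - (if bb then 1 else 0)) A ++
      List.replicate (22 - (c - (if ba then 1 else 0) - (if bb then 1 else 0))) B)

theorem twoV_nodup {a b : GolayPt} {s : Finset GolayPt} {p q : ℤ} {A B : List ℤ} (hA : A.Nodup)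
    (hB : B.Nodup) (i : GolayPt) : (twoV a b s p q A B i).Nodup := by
  unfold twoV only
  split_ifs <;> first | exact hA | exact hB | exact hA.filter _ | exact hB.filter _

theorem card_twoV {a b : GolayPt} (hab : a ≠ b) (s : Finset GolayPt) (p q : ℤ) {A B : List ℤ}
    (hA : A.Nodup) (hB : B.Nodup) (w : ℤ → ℕ) {M N : ℕ} (hM : 0 < M) {n r : ℕ} (hr : r < M)
    (hn : n < N) :
    (sel w M (twoV a b s p q A B) Finset.univ n r).card =
      (tab w M (N * M) (twoL' (decide (a ∈ s)) (decide (b ∈ s)) s.card p q A B)).getD (n * M + r) 0 := by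
  classical
  obtain ⟨l1, hl1⟩ : ∃ l1, l1 = ((s.erase a).erase b).toList := ⟨_, rfl⟩
  obtain ⟨l2, hl2⟩ : ∃ l2, l2 = ((sᶜ.erase a).erase b).toList := ⟨_, rfl⟩
  have m1 : ∀ i, i ∈ l1 ↔ i ≠ b ∧ i ≠ a ∧ i ∈ s := fun i => by simp [hl1]
  have m2 : ∀ i, i ∈ l2 ↔ i ≠ b ∧ i ≠ a ∧ i ∉ s := fun i => by simp [hl2]
  obtain ⟨l, hl⟩ : ∃ l, l = a :: b :: (l1 ++ l2) := ⟨_, rfl⟩
  have hnd : l.Nodup := by
    rw [hl, List.nodup_cons, List.nodup_cons, List.nodup_append]
    refine ⟨?_, ?_, hl1 ▸ Finset.nodup_toList _, hl2 ▸ Finset.nodup_toList _, ?_⟩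
    · simp [m1, m2, hab]
    · simp [m1, m2]
    · intro x hx y hy e
      rw [m1] at hx
      rw [m2] at hy
      exact hy.2.2 (e ▸ hx.2.2)
  have hlu : l.toFinset = Finset.univ := by
    ext i
    simp only [hl, List.mem_toFinset, List.mem_cons, List.mem_append, m1, m2, Finset.mem_univ, iff_true]
    tauto
  have hlen : l.length = 24 := by
    rw [← List.toFinset_card_of_nodup hnd, hlu, Finset.card_univ, card_pt]
  have len1 : l1.length = s.card - (if decide (a ∈ s) then 1 else 0) - (if decide (b ∈ s) then 1 else 0) := by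
    rw [hl1, Finset.length_toList]
    by_cases ha : a ∈ s <;> by_cases hb : b ∈ s <;>
      simp [Finset.card_erase_eq_ite, ha, hb, hab, hab.symm]
  have len2 : l2.length = 22 - l1.length := by
    rw [hl] at hlen
    simp only [List.length_cons, List.length_append] at hlen
    omega
  have hm : l.map (twoV a b s p q A B) = twoL' (decide (a ∈ s)) (decide (b ∈ s)) s.card p q A B := by
    rw [hl, twoL', List.map_cons, List.map_cons, List.map_append]
    congr 1
    · simp [twoV]
    congr 1
    · simp [twoV, hab.symm]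
    congr 1
    · rw [List.eq_replicate_iff]
      refine ⟨by rw [List.length_map, len1], fun y hy => ?_⟩
      obtain ⟨i, hi, rfl⟩ := List.mem_map.1 hy
      rw [m1] at hi
      simp [twoV, hi.1, hi.2.1, hi.2.2]
    · rw [List.eq_replicate_iff]
      refine ⟨by rw [List.length_map, len2, len1], fun y hy => ?_⟩
      obtain ⟨i, hi, rfl⟩ := List.mem_map.1 hy
      rw [m2] at hi
      simp [twoV, hi.1, hi.2.1, hi.2.2]
  rw [← hlu, ← hm]
  exact card_sel w hM _ (twoV_nodup hA hB) l hnd n r hr hn

/-- the possible (weight, membership, membership) classes of words -/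
def keys : List (ℕ × Bool × Bool) :=
  [(0, false, false), (8, false, false), (8, false, true), (8, true, false), (8, true, true),
    (12, false, false), (12, false, true), (12, true, false), (12, true, true),
    (16, false, false), (16, false, true), (16, true, false), (16, true, true), (24, true, true)]

/-- their numbers -/
def keyNum : List ℕ := [1, 330, 176, 176, 77, 616, 672, 672, 616, 77, 176, 176, 330, 1]

/-- the class of a word -/
def keyOf (m : ℕ) : ℕ × Bool × Bool := (pc m, m.testBit 23, m.testBit 0)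

theorem key_counts : (codeList.all fun m => keys.contains (keyOf m)) = true ∧
    keys.map (fun k => (codeList.filter fun m => decide (keyOf m = k)).length) = keyNum := by
  constructor <;> decide +kernel

theorem sum_by_key {κ : Type*} [DecidableEq κ] (K : List κ) (hK : K.Nodup) (f : κ → ℕ) (g : ℕ → κ) :
    ∀ l : List ℕ, (∀ m ∈ l, g m ∈ K) →
      (l.map fun m => f (g m)).sum = (K.map fun k => (l.filter fun m => decide (g m = k)).length * f k).sum
  | [], _ => by simp
  | a :: t, h => by
    have ih := sum_by_key K hK f g t fun m hm => h m (List.mem_cons_of_mem _ hm)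
    have e : ∀ k, ((a :: t).filter fun m => decide (g m = k)).length * f k =
        (if k = g a then f k else 0) + (t.filter fun m => decide (g m = k)).length * f k := fun k => by
      by_cases hk : k = g a
      · subst hk; simp [List.filter_cons]; ring
      · simp [List.filter_cons, hk, Ne.symm hk]
    simp only [e, List.sum_map_add, List.map_cons, List.sum_cons, ih]
    congr 1
    rw [← List.sum_toFinset _ hK, Finset.sum_ite_eq' K.toFinset (g a) f,
      if_pos (List.mem_toFinset.2 (h a List.mem_cons_self))]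

theorem zip_map_count {κ : Type*} (g : κ → ℕ) (h : κ → ℕ) : ∀ K : List κ,
    (K.zip (K.map g)).map (fun e => e.2 * h e.1) = K.map fun k => g k * h k
  | [] => rfl
  | a :: K => by simp [zip_map_count g h K]

theorem sum_words_key (f : ℕ → Bool → Bool → ℕ) :
    ∑ s ∈ words, f s.card (decide (none ∈ s)) (decide (pt 0 ∈ s)) =
      ((keys.zip keyNum).map fun e => e.2 * f e.1.1 e.1.2.1 e.1.2.2).sum := by
  rw [words, Finset.sum_image (fun a ha b hb e => toSet_inj
      (lt_of_inCode (mem_codeList.1 (List.mem_toFinset.1 ha)))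
      (lt_of_inCode (mem_codeList.1 (List.mem_toFinset.1 hb))) e),
    List.sum_toFinset _ codeList_nodup]
  have e : ∀ m : ℕ, f (toSet m).card (decide (none ∈ toSet m)) (decide (pt 0 ∈ toSet m)) =
      (fun k : ℕ × Bool × Bool => f k.1 k.2.1 k.2.2) (keyOf m) := fun m => by
    have h0 : idx (pt 0) = 0 := by decide
    have hn : idx none = 23 := rfl
    simp only [keyOf, card_toSet, mem_toSet, h0, hn, Bool.decide_eq_true]
  simp only [e]
  refine (sum_by_key keys (by decide) (fun k : ℕ × Bool × Bool => f k.1 k.2.1 k.2.2) keyOf codeList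
    fun m hm => by simpa using List.all_eq_true.1 key_counts.1 m hm).trans ?_
  rw [← key_counts.2, zip_map_count _ (fun k : ℕ × Bool × Bool => f k.1 k.2.1 k.2.2)]

/-- the number of even vectors with halved coordinates `p`, `q` -/
def evenTwo (n : ℕ) (p q : ℤ) : ℕ :=
  ((keys.zip keyNum).map fun e => e.2 *
    (tab wEven 4 ((n + 1) * 4) (twoL' e.1.2.1 e.1.2.2 e.1.1 p q allA allB)).getD (n * 4 + 0) 0).sum

/-- the number of odd vectors with coordinates `p`, `q` -/
def oddTwo (k : ℕ) (p q : ℤ) : ℕ :=
  ((keys.zip keyNum).map fun e => e.2 *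
    (tab wOdd 8 ((k + 1) * 8) (twoL' false false 0 (if e.1.2.1 then -p else p)
      (if e.1.2.2 then -q else q) [] allO)).getD (k * 8 + 4) 0).sum

theorem bounded_two (N : ℤ) (hN : N ≤ 64) (P : (GolayPt → ℤ) → Prop) :
    {x : GolayPt → ℤ | x ∈ normSet N ∧ P x}.Finite :=
  bounded_finite fun x hx => hx.1.2.le.trans hN

theorem ncard_evenTwo {n : ℕ} (hn : n ≤ 16) (p q : ℤ) :
    {x : GolayPt → ℤ | x ∈ normSet (4 * n) ∧ x none = 2 * p ∧ x (pt 0) = 2 * q}.ncard =
      evenTwo n p q := by
  classical
  have hab : (none : GolayPt) ≠ pt 0 := by decide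
  obtain ⟨S, hS⟩ : ∃ S, S = fun s : Finset GolayPt =>
      sel wEven 4 (twoV none (pt 0) s p q allA allB) Finset.univ n 0 := ⟨_, rfl⟩
  have hmemS : ∀ s u, u ∈ S s ↔ (∀ i, u i ∈ twoV none (pt 0) s p q allA allB i) ∧
      (∑ i, wEven (u i)) = n ∧ (∑ i, u i).natMod (4 : ℕ) = 0 := fun s u => by
    simp only [hS, sel, Finset.mem_filter, mem_fns]
    simp
  have hAo : ∀ a ∈ allA, ¬ (2 : ℤ) ∣ a := by decide
  have hBe : ∀ b ∈ allB, (2 : ℤ) ∣ b := by decide
  have hsub : ∀ s u i, u ∈ S s → u i ∈ if i ∈ s then allA else allB := fun s u i hu => by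
    have := ((hmemS s u).1 hu).1 i
    unfold twoV only at this
    split_ifs at this ⊢ <;> first | exact (List.mem_filter.1 this).1 | exact this
  have hodds : ∀ s, ∀ u ∈ S s, odds u = s := by
    intro s u hu
    ext i
    have := hsub s u i hu
    by_cases hi : i ∈ s
    · rw [if_pos hi] at this
      simp [mem_odds, hi, hAo _ this]
    · rw [if_neg hi] at this
      simp [mem_odds, hi, hBe _ this]
  have e : {x : GolayPt → ℤ | x ∈ normSet (4 * n) ∧ x none = 2 * p ∧ x (pt 0) = 2 * q} =
      ↑((words.biUnion S).image fun u i => 2 * u i) := by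
    ext x
    simp only [Finset.coe_image, Set.mem_image, Finset.coe_biUnion, Set.mem_iUnion, Finset.mem_coe,
      Set.mem_setOf_eq]
    constructor
    · rintro ⟨⟨hx, hN⟩, hxa, hxb⟩
      obtain ⟨u, ⟨h1, h2, h3⟩, hval, hw⟩ :=
        even_mem_evenSet hx (by rw [hxa]; exact dvd_mul_right _ _) hn hN
      refine ⟨u, ⟨odds u, mem_words.2 h2, (hmemS _ _).2 ⟨fun i => ?_, hw,
        natMod_four.2 (by simpa using h3)⟩⟩, funext fun i => by rw [h1 i, zero_add]⟩
      have := hval i
      unfold twoV only
      by_cases hia : i = none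
      · subst hia
        rw [if_pos rfl, List.mem_filter]
        exact ⟨this, by have := h1 none; simp; omega⟩
      · rw [if_neg hia]
        by_cases hib : i = pt 0
        · subst hib
          rw [if_pos rfl, List.mem_filter]
          exact ⟨this, by have := h1 (pt 0); simp; omega⟩
        · rw [if_neg hib]; exact this
    · rintro ⟨u, ⟨s, hs, hu⟩, rfl⟩
      have ho := hodds s u hu
      obtain ⟨hv, hw, hr⟩ := (hmemS s u).1 hu
      have hmem : (fun i => 2 * u i) ∈ evenSet allA allB n :=
        ⟨u, ⟨fun i => by simp, ho ▸ mem_words.1 hs, by simpa using natMod_four.1 hr⟩,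
          fun i => ho ▸ hsub s u i hu, hw⟩
      refine ⟨⟨(evenSet_sub hmem).1, (evenSet_sub hmem).2.1⟩, ?_, ?_⟩
      · have := hv none
        simp only [twoV, if_pos, only, List.mem_filter, decide_eq_true_eq] at this
        simp [this.2]
      · have := hv (pt 0)
        simp only [twoV, hab.symm, if_false, if_pos, only, List.mem_filter, decide_eq_true_eq] at this
        simp [this.2]
  rw [e, Set.ncard_coe_finset, Finset.card_image_of_injective _ (fun u v h => funext fun i => by
    have := congrFun h i; omega), Finset.card_biUnion]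
  · have hc : ∀ s, (S s).card = (tab wEven 4 ((n + 1) * 4)
        (twoL' (decide (none ∈ s)) (decide (pt 0 ∈ s)) s.card p q allA allB)).getD (n * 4 + 0) 0 :=
      fun s => by
        rw [hS]
        exact card_twoV hab s p q (A := allA) (B := allB) (by decide) (by decide) wEven
          (M := 4) (N := n + 1) (by norm_num) (r := 0) (by norm_num) (Nat.lt_succ_self n)
    simp only [hc]
    exact sum_words_key fun c ba bb =>
      (tab wEven 4 ((n + 1) * 4) (twoL' ba bb c p q allA allB)).getD (n * 4 + 0) 0
  · intro s _ t _ hne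
    rw [Function.onFun, Finset.disjoint_left]
    exact fun u hu hu' => hne ((hodds s u hu).symm.trans (hodds t u hu'))

theorem ncard_oddTwo {k : ℕ} (hk : k ≤ 5) {p q : ℤ} (hp : ¬ (2 : ℤ) ∣ p) :
    {x : GolayPt → ℤ | x ∈ normSet (24 + 8 * k) ∧ x none = p ∧ x (pt 0) = q}.ncard =
      oddTwo k p q := by
  classical
  have hab : (none : GolayPt) ≠ pt 0 := by decide
  obtain ⟨Y, hY⟩ : ∃ Y, Y = fun c : Finset GolayPt => sel wOdd 8 (twoV none (pt 0) ∅
      (if none ∈ c then -p else p) (if pt 0 ∈ c then -q else q) [] allO) Finset.univ k 4 := ⟨_, rfl⟩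
  have hYmem : ∀ c y, y ∈ Y c ↔ ((∀ i, y i ∈ allO) ∧ y none = (if none ∈ c then -p else p) ∧
      y (pt 0) = (if pt 0 ∈ c then -q else q)) ∧ ∑ i, wOdd (y i) = k ∧
      (∑ i, y i).natMod (8 : ℕ) = 4 := fun c y => by
    simp only [hY, sel, Finset.mem_filter, mem_fns]
    refine and_congr_left' ?_
    simp only [Finset.mem_univ, not_true_eq_false, IsEmpty.forall_iff, implies_true, and_true, forall_const,
      twoV, only, Finset.notMem_empty, if_false]
    constructor
    · intro h
      have h1 := h none
      have h2 := h (pt 0)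
      simp only [if_pos, hab.symm, if_false, List.mem_filter, decide_eq_true_eq] at h1 h2
      refine ⟨fun i => ?_, h1.2, h2.2⟩
      have h3 := h i
      split_ifs at h3 <;> first | exact (List.mem_filter.1 h3).1 | exact h3
    · rintro ⟨h, h1, h2⟩ i
      by_cases hia : i = none
      · subst hia; rw [if_pos rfl, List.mem_filter]; exact ⟨h _, by simpa using h1⟩
      · rw [if_neg hia]
        by_cases hib : i = pt 0
        · subst hib; rw [if_pos rfl, List.mem_filter]; exact ⟨h _, by simpa using h2⟩
        · rw [if_neg hib]; exact h i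
  have hw : ∀ a : ℤ, wOdd (-a) = wOdd a := fun a => by simp [wOdd]
  have e : {x : GolayPt → ℤ | x ∈ normSet (24 + 8 * k) ∧ x none = p ∧ x (pt 0) = q} =
      ↑(words.biUnion fun c => (Y c).image (flipOn c)) := by
    ext x
    simp only [Finset.coe_biUnion, Finset.coe_image, Set.mem_iUnion, Set.mem_image, Finset.mem_coe,
      Set.mem_setOf_eq]
    constructor
    · rintro ⟨⟨hx, hN⟩, hxa, hxb⟩
      obtain ⟨-, hval, hwn⟩ := odd_mem_oddSet hx (by rw [hxa]; exact hp) hk hN
      obtain ⟨c, hc⟩ : ∃ c : Finset GolayPt, c = Finset.univ.filter fun i => x i % 4 = 3 := ⟨_, rfl⟩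
      have hcW : IsW c := by
        obtain ⟨_, -, -, hres⟩ := mem_lattice_iff_set.1 hx
        rw [hc]
        exact hres 3
      have hyA : ∀ i, flipOn c x i ∈ allO := fun i => by
        obtain ⟨a, ha, h⟩ := hval i
        have := allO_mod a ha
        simp only [flipOn, hc, Finset.mem_filter, Finset.mem_univ, true_and]
        rcases h with h | h
        · rw [if_neg (by omega)]; exact h ▸ ha
        · rw [if_pos (by omega), h, neg_neg]; exact ha
      refine ⟨c, mem_words.2 hcW, flipOn c x, (hYmem _ _).2 ⟨⟨hyA, ?_, ?_⟩, ?_, ?_⟩,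
        flipOn_flipOn c x⟩
      · simp only [flipOn, hxa]
      · simp only [flipOn, hxb]
      · rw [← hwn]
        refine Finset.sum_congr rfl fun i _ => ?_
        simp only [flipOn]
        split_ifs <;> simp [hw]
      · obtain ⟨m, u, h1, h2, h3⟩ := mem_leechLattice.1 (flipOn_mem hcW hx)
        have h0 := allO_mod _ (hyA none)
        rw [h1 none] at h0
        rw [sum_rep h1]
        unfold Int.natMod
        omega
    · rintro ⟨c, hc, y, hy, rfl⟩
      obtain ⟨⟨hyA, hya, hyb⟩, hyn, hys⟩ := (hYmem c y).1 hy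
      have hm : flipOn c y ∈ oddSet allO k := by
        refine ⟨flipOn_mem (mem_words.1 hc) (mem_of_pos (fun i => allO_mod _ (hyA i)) hys),
          fun i => ⟨y i, hyA i, ?_⟩, ?_⟩
        · simp only [flipOn]; split_ifs <;> simp
        · rw [← hyn]
          refine Finset.sum_congr rfl fun i _ => ?_
          simp only [flipOn]
          split_ifs <;> simp [hw]
      obtain ⟨m1, m2, -⟩ := oddSet_sub allO_mod hm
      refine ⟨⟨m1, m2⟩, ?_, ?_⟩
      · simp only [flipOn, hya]; split_ifs <;> simp
      · simp only [flipOn, hyb]; split_ifs <;> simp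
  rw [e, Set.ncard_coe_finset, Finset.card_biUnion]
  · have hc : ∀ c, ((Y c).image (flipOn c)).card = (tab wOdd 8 ((k + 1) * 8)
        (twoL' (decide ((none : GolayPt) ∈ (∅ : Finset GolayPt))) (decide (pt 0 ∈ (∅ : Finset GolayPt)))
          (∅ : Finset GolayPt).card (if none ∈ c then -p else p) (if pt 0 ∈ c then -q else q) [] allO)).getD
          (k * 8 + 4) 0 := fun c => by
      rw [Finset.card_image_of_injective _ (Function.Involutive.injective (flipOn_flipOn c)), hY]
      exact card_twoV hab ∅ _ _ (A := []) (B := allO) (by decide) (by decide) wOdd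
        (M := 8) (N := k + 1) (by norm_num) (r := 4) (by norm_num) (Nat.lt_succ_self k)
    simp only [hc, Finset.card_empty, Finset.notMem_empty, decide_false]
    have := sum_words_key fun _ ba bb => (tab wOdd 8 ((k + 1) * 8) (twoL' false false 0
      (if ba then -p else p) (if bb then -q else q) [] allO)).getD (k * 8 + 4) 0
    simp only [decide_eq_true_eq] at this
    exact this
  · intro c _ c' _ hne
    rw [Function.onFun, Finset.disjoint_left]
    intro x hx hx'
    rw [Finset.mem_image] at hx hx'
    obtain ⟨y, hy, rfl⟩ := hx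
    obtain ⟨y', hy', he⟩ := hx'
    apply hne
    ext i
    have := congrFun he i
    have := allO_mod _ (((hYmem c y).1 hy).1.1 i)
    have := allO_mod _ (((hYmem c' y').1 hy').1.1 i)
    simp only [flipOn] at *
    by_cases hi : i ∈ c <;> by_cases hi' : i ∈ c' <;> simp [hi, hi'] at * <;> omega

/-- the possible values of two coordinates with sum `t` -/
def splits (N : ℕ) (t : ℤ) : List ℤ :=
  ((List.range 17).map fun j : ℕ => (j : ℤ) - 8).filter fun p => decide (p ^ 2 + (t - p) ^ 2 ≤ N)

/-- the number of vectors with two coordinates of sum `t` -/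
def sumTwo (n k : ℕ) (t : ℤ) : ℕ :=
  ((splits (4 * n) t).map fun p =>
    if p % 2 = 0 then evenTwo n (p / 2) ((t - p) / 2) else oddTwo k p (t - p)).sum

theorem ncard_sumTwo {n k : ℕ} (hn : n ≤ 16) (hk : k ≤ 5) (h : 4 * (n : ℤ) = 24 + 8 * k) {t : ℤ}
    (ht : (2 : ℤ) ∣ t) :
    {x : GolayPt → ℤ | x ∈ normSet (4 * n) ∧ x none + x (pt 0) = t}.ncard = sumTwo n k t := by
  classical
  obtain ⟨R, hR⟩ : ∃ R, R = splits (4 * n) t := ⟨_, rfl⟩
  have hRn : R.Nodup := by
    rw [hR, splits]
    exact ((List.nodup_range (n := 17)).map (f := fun j : ℕ => (j : ℤ) - 8)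
      (fun a b (e : (a : ℤ) - 8 = (b : ℤ) - 8) => by omega)).filter _
  obtain ⟨F, hF⟩ : ∃ F, F = fun p : ℤ =>
      (bounded_two (4 * n) (by omega) fun x => x none = p ∧ x (pt 0) = t - p).toFinset := ⟨_, rfl⟩
  have hFm : ∀ p x, x ∈ F p ↔ x ∈ normSet (4 * n) ∧ x none = p ∧ x (pt 0) = t - p := fun p x => by
    rw [hF, Set.Finite.mem_toFinset]; rfl
  have e : {x : GolayPt → ℤ | x ∈ normSet (4 * n) ∧ x none + x (pt 0) = t} =
      ↑(R.toFinset.biUnion F) := by
    ext x
    simp only [Finset.coe_biUnion, Set.mem_iUnion, Finset.mem_coe, List.mem_toFinset, Set.mem_setOf_eq,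
      hFm]
    constructor
    · rintro ⟨hx, hs⟩
      refine ⟨x none, ?_, hx, rfl, by omega⟩
      have h2 : x none ^ 2 + x (pt 0) ^ 2 ≤ 4 * (n : ℤ) := by
        have := hx.2
        rw [sqNorm, ← Finset.sum_sdiff (Finset.subset_univ {none, pt 0}),
          Finset.sum_pair (by decide : (none : GolayPt) ≠ pt 0)] at this
        have : 0 ≤ ∑ i ∈ (Finset.univ \ {none, pt 0}), x i ^ 2 :=
          Finset.sum_nonneg fun i _ => sq_nonneg _
        omega
      have hb : x none ^ 2 ≤ 64 := by have := sq_nonneg (x (pt 0)); omega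
      have hlo : -8 ≤ x none ∧ x none ≤ 8 := ⟨by nlinarith, by nlinarith⟩
      rw [hR, splits, List.mem_filter, List.mem_map]
      refine ⟨⟨(x none + 8).toNat, List.mem_range.2 (by omega), by omega⟩, ?_⟩
      rw [decide_eq_true_eq, show t - x none = x (pt 0) by omega]
      exact_mod_cast h2
    · rintro ⟨p, -, hx, h1, h2⟩
      exact ⟨hx, by omega⟩
  rw [e, Set.ncard_coe_finset, Finset.card_biUnion, List.sum_toFinset _ hRn, hR, sumTwo]
  · congr 1
    refine List.map_congr_left fun p _ => ?_
    rw [hF]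
    simp only
    rw [← Set.ncard_coe_finset, Set.Finite.coe_toFinset]
    split_ifs with hp
    · rw [← ncard_evenTwo hn]
      rw [show 2 * (p / 2) = p by omega, show 2 * ((t - p) / 2) = t - p by omega]
    · rw [← ncard_oddTwo (q := t - p) hk (show ¬ (2 : ℤ) ∣ p by omega), ← h]
  · intro p _ p' _ hne
    rw [Function.onFun, Finset.disjoint_left]
    intro x hx hx'
    rw [hFm] at hx hx'
    exact hne (hx.2.1.symm.trans hx'.2.1)

theorem census_values : sumTwo 8 1 (-4) = 4600 ∧ sumTwo 8 1 (-2) = 47104 ∧ sumTwo 8 1 0 = 93150 ∧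
    sumTwo 12 3 (-4) = 953856 := by
  refine ⟨?_, ?_, ?_, ?_⟩ <;> decide +kernel

end CfsgLib.Leech
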