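import Cfsg.Agent.Lib.Leech.Pairs
import Cfsg.Agent.Lib.Leech.CensusTwo

/-! Numbers of short vectors with a given inner product with a short vector. -/
set_option autoImplicit false
set_option linter.all false
set_option maxRecDepth 20000

namespace CfsgLib.Leech

open Cfsg CfsgLib.Golay

/-- short vectors with a prescribed inner product -/
def dotSet (N : ℤ) (v : GolayPt → ℤ) (d : ℤ) : Set (GolayPt → ℤ) :=
  {x | x ∈ normSet N ∧ dotInt v x = d}

theorem ncard_subtype (N : ℤ) (v : GolayPt → ℤ) (d : ℤ) :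
    {x : leechLattice | sqNorm (x : GolayPt → ℤ) = N ∧ dotInt v (x : GolayPt → ℤ) = d}.ncard =
      (dotSet N v d).ncard := by
  rw [← Set.ncard_image_of_injective _ Subtype.val_injective]
  congr 1
  ext x
  constructor
  · rintro ⟨y, ⟨h1, h2⟩, rfl⟩; exact ⟨⟨y.2, h1⟩, h2⟩
  · rintro ⟨⟨h0, h1⟩, h2⟩; exact ⟨⟨x, h0⟩, ⟨h1, h2⟩, rfl⟩

theorem dotSet_smul (g : Co0) (v : leechLattice) (N d : ℤ) :
    (dotSet N ((g • v : leechLattice) : GolayPt → ℤ) d).ncard =
      (dotSet N (v : GolayPt → ℤ) d).ncard := by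
  rw [← ncard_subtype, ← ncard_subtype, ← Set.ncard_image_of_injective (f := fun x => g • x)
    {x : leechLattice | sqNorm (x : GolayPt → ℤ) = N ∧ dotInt (v : GolayPt → ℤ) (x : GolayPt → ℤ) = d}
    (MulAction.injective g)]
  congr 1
  ext x
  constructor
  · rintro ⟨h1, h2⟩
    refine ⟨g⁻¹ • x, ⟨by rw [co0_norm, h1], ?_⟩, smul_inv_smul g x⟩
    rw [← co0_dot g, smul_inv_smul, h2]
  · rintro ⟨y, ⟨h1, h2⟩, rfl⟩
    exact ⟨by rw [co0_norm, h1], by rw [co0_dot, h2]⟩

theorem dot_census {v : GolayPt → ℤ} (hv : v ∈ leechLattice) (hvn : sqNorm v = 32) {n k : ℕ}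
    (hn : n ≤ 16) (hk : k ≤ 5) (h : 4 * (n : ℤ) = 24 + 8 * k) {t : ℤ} (ht : (2 : ℤ) ∣ t) :
    (dotSet (4 * n) v (4 * t)).ncard = sumTwo n k t := by
  have hab : (none : GolayPt) ≠ pt 0 := by decide
  obtain ⟨g, hg⟩ := to_pair hab (v := ⟨v, hv⟩) hvn
  rw [← dotSet_smul g ⟨v, hv⟩, hg, ← ncard_sumTwo hn hk h ht]
  congr 1
  ext x
  refine and_congr_right fun _ => ?_
  rw [dot_comm, dot_two hab]
  constructor <;> intro e <;> linarith

theorem census_32 {v : GolayPt → ℤ} (hv : v ∈ leechLattice) (hvn : sqNorm v = 32) :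
    (dotSet 32 v (-16)).ncard = 4600 ∧ (dotSet 32 v (-8)).ncard = 47104 ∧
      (dotSet 32 v 0).ncard = 93150 ∧ (dotSet 48 v (-16)).ncard = 953856 := by
  obtain ⟨c1, c2, c3, c4⟩ := census_values
  refine ⟨?_, ?_, ?_, ?_⟩
  · exact (dot_census hv hvn (n := 8) (k := 1) (t := -4) (by norm_num) (by norm_num) rfl (by norm_num)).trans c1
  · exact (dot_census hv hvn (n := 8) (k := 1) (t := -2) (by norm_num) (by norm_num) rfl (by norm_num)).trans c2
  · exact (dot_census hv hvn (n := 8) (k := 1) (t := 0) (by norm_num) (by norm_num) rfl (by norm_num)).trans c3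
  · exact (dot_census hv hvn (n := 12) (k := 3) (t := -4) (by norm_num) (by norm_num) rfl (by norm_num)).trans c4

theorem dot_census_48 {u : leechLattice} (hu : sqNorm (u : GolayPt → ℤ) = 48) {d : ℤ} {c : ℕ}
    (hc : ∀ v ∈ normSet 32, (dotSet 48 v d).ncard = c) :
    16773120 * (dotSet 32 (u : GolayPt → ℤ) d).ncard = 196560 * c := by
  classical
  obtain ⟨s, hs⟩ : ∃ s, s = (normSet_finite (show (32 : ℤ) ≤ 64 by norm_num)).toFinset := ⟨_, rfl⟩
  obtain ⟨t, ht⟩ : ∃ t, t = (normSet_finite (show (48 : ℤ) ≤ 64 by norm_num)).toFinset := ⟨_, rfl⟩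
  have hs' : ∀ x, x ∈ s ↔ x ∈ normSet 32 := fun x => by rw [hs, Set.Finite.mem_toFinset]
  have ht' : ∀ x, x ∈ t ↔ x ∈ normSet 48 := fun x => by rw [ht, Set.Finite.mem_toFinset]
  have key := Finset.sum_card_bipartiteAbove_eq_sum_card_bipartiteBelow
    (fun x y : GolayPt → ℤ => dotInt x y = d) (s := s) (t := t)
  rw [Finset.sum_congr (s₁ := s) rfl (g := fun _ => c) fun x hx => ?_,
    Finset.sum_congr (s₁ := t) rfl (g := fun _ => (dotSet 32 (u : GolayPt → ℤ) d).ncard) fun y hy => ?_,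
    Finset.sum_const, Finset.sum_const, smul_eq_mul, smul_eq_mul] at key
  · have e1 : s.card = 196560 := by
      rw [hs, ← Set.ncard_coe_finset, Set.Finite.coe_toFinset, count_32]
    have e2 : t.card = 16773120 := by
      rw [ht, ← Set.ncard_coe_finset, Set.Finite.coe_toFinset, count_48]
    rw [e1, e2] at key
    exact key.symm
  · rw [ht'] at hy
    obtain ⟨g, hg⟩ := to_co0 (w := ⟨y, hy.1⟩) ((equi_three u.2 hu).trans (equi_three hy.1 hy.2).symm)
    rw [← dotSet_smul g u, hg, ← Set.ncard_coe_finset]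
    congr 1
    ext x
    simp only [Finset.mem_coe, Finset.mem_bipartiteBelow, hs', dotSet, Set.mem_setOf_eq, dot_comm x y]
  · rw [hs'] at hx
    rw [← hc x hx, ← Set.ncard_coe_finset]
    congr 1
    ext y
    simp only [Finset.mem_coe, Finset.mem_bipartiteAbove, ht', dotSet, Set.mem_setOf_eq]

theorem census_552 {u : leechLattice} (hu : sqNorm (u : GolayPt → ℤ) = 48) :
    (dotSet 32 (u : GolayPt → ℤ) 24).ncard = 552 := by
  have key := dot_census_48 hu (d := 24) (c := 47104) fun v hv => by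
    rw [← (census_32 hv.1 hv.2).2.1,
      ← Set.ncard_image_of_injective (dotSet 32 v (-8)) (add_right_injective v)]
    congr 1
    ext y
    constructor
    · rintro ⟨⟨hy, hn⟩, hd⟩
      refine ⟨y - v, ⟨⟨sub_mem hy hv.1, ?_⟩, ?_⟩, add_sub_cancel _ _⟩
      · rw [sqNorm_sub, dot_comm y v, hn, hd, hv.2]; norm_num
      · have e : dotInt v (y - v) = dotInt v y - dotInt v v := by
          simp [dotInt, mul_sub, Finset.sum_sub_distrib]
        rw [e, hd, dot_self, hv.2]; norm_num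
    · rintro ⟨w, ⟨⟨hw, hn⟩, hd⟩, rfl⟩
      refine ⟨⟨add_mem hv.1 hw, ?_⟩, ?_⟩
      · rw [sqNorm_add, hv.2, hn, hd]; norm_num
      · have e : dotInt v (v + w) = dotInt v v + dotInt v w := by
          simp [dotInt, mul_add, Finset.sum_add_distrib]
        rw [e, dot_self, hd, hv.2]; norm_num
  omega

end CfsgLib.Leech
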