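import Cfsg.Agent.Lib.Leech.Basic

/-! The minimal vectors generate the lattice. -/
set_option autoImplicit false
set_option linter.all false

namespace CfsgLib.Leech

open Cfsg CfsgLib.Golay
open scoped symmDiff

/-- lattice vectors with sum of squares 32 -/
def minVecs : Set (GolayPt → ℤ) := {x | x ∈ leechLattice ∧ sqNorm x = 32}

/-- the subgroup they generate -/
def minGrp : AddSubgroup (GolayPt → ℤ) := AddSubgroup.closure minVecs

theorem rep_mem {x : GolayPt → ℤ} {m : ℤ} {u : GolayPt → ℤ} (h : IsRep x m u) :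
    x ∈ leechLattice := mem_leechLattice.2 ⟨m, u, h⟩

/-- the vector with `-3` at the extra point and `1` elsewhere -/
def omegaVec : GolayPt → ℤ := fun i => if i = none then -3 else 1

theorem omegaVec_mem : omegaVec ∈ minVecs := by
  refine ⟨rep_mem (m := 1) (u := fun i => if i = none then -2 else 0) ⟨?_, ?_, ?_⟩, by decide⟩
  · decide
  · rw [show odds (fun i : GolayPt => if i = none then (-2 : ℤ) else 0) = ∅ by decide]
    exact isW_empty
  · decide

theorem four_pair_mem {i j : GolayPt} (hij : i ≠ j) {a b : ℤ} (ha : a = 4 ∨ a = -4)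
    (hb : b = 4 ∨ b = -4) : Pi.single i a + Pi.single j b ∈ minVecs := by
  constructor
  · refine rep_mem (m := 0) (u := Pi.single i (a / 2) + Pi.single j (b / 2)) ⟨fun k => ?_, ?_, ?_⟩
    · simp only [Pi.add_apply, Pi.single_apply]
      rcases ha with rfl | rfl <;> rcases hb with rfl | rfl <;> split_ifs <;> norm_num
    · have e : odds (Pi.single i (a / 2) + Pi.single j (b / 2)) = ∅ := by
        ext k
        simp only [mem_odds, Pi.add_apply, Pi.single_apply, Finset.notMem_empty, iff_false,
          not_not]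
        rcases ha with rfl | rfl <;> rcases hb with rfl | rfl <;> split_ifs <;> norm_num
      rw [e]; exact isW_empty
    · simp only [Pi.add_apply, Finset.sum_add_distrib, Finset.sum_pi_single', Finset.mem_univ,
        if_true]
      rcases ha with rfl | rfl <;> rcases hb with rfl | rfl <;> norm_num
  · unfold sqNorm
    rw [← Finset.sum_subset (Finset.subset_univ {i, j}) (fun k _ hk => by
      simp only [Finset.mem_insert, Finset.mem_singleton, not_or] at hk
      simp [Pi.single_apply, hk.1, hk.2]), Finset.sum_pair hij]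
    simp only [Pi.add_apply, Pi.single_eq_same, Pi.single_eq_of_ne hij, Pi.single_eq_of_ne hij.symm]
    rcases ha with rfl | rfl <;> rcases hb with rfl | rfl <;> norm_num

/-- the indicator of a mask as an integer vector -/
def ind (m : ℕ) : GolayPt → ℤ := fun i => if m.testBit (idx i) then 1 else 0

theorem odds_ind (m : ℕ) : odds (ind m) = toSet m := by
  ext i
  rw [mem_odds, mem_toSet, ind]
  split_ifs with h <;> simp [h]

theorem gens_ok : gens.all (fun g => inCode g && (pc g == 8)) = true := by decide +kernel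

theorem two_ind_mem {g : ℕ} (hg : g ∈ gens) :
    (fun i => 2 * ind g i) ∈ minVecs ∧ (4 : ℤ) ∣ ∑ i, ind g i := by
  have h := List.all_eq_true.1 gens_ok g hg
  simp only [Bool.and_eq_true, beq_iff_eq] at h
  have hsum : ∑ i, ind g i = 8 := by
    have : ∑ i, ind g i = ((toSet g).card : ℤ) := by
      simp only [ind, Finset.sum_boole]
      rfl
    rw [this, card_toSet, h.2]
    rfl
  refine ⟨⟨rep_mem (m := 0) (u := ind g) ⟨fun i => by simp, ?_, by rw [hsum]; norm_num⟩, ?_⟩,
    by rw [hsum]; norm_num⟩
  · rw [odds_ind, isW_iff, toMask_toSet (lt_of_inCode h.1)]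
    exact h.1
  · have e : ∀ i, (2 * ind g i) ^ 2 = 4 * ind g i := fun i => by
      unfold ind; split_ifs <;> norm_num
    simp only [sqNorm, e, ← Finset.mul_sum, hsum]
    norm_num

theorem span_word : ∀ l : List ℕ, (∀ g ∈ l, g ∈ gens) → ∀ m ∈ spanList l,
    ∃ w : GolayPt → ℤ, odds w = toSet m ∧ (fun i => 2 * w i) ∈ minGrp ∧ (4 : ℤ) ∣ ∑ i, w i
  | [], _, m, hm => by
    simp only [spanList, List.mem_singleton] at hm
    subst hm
    refine ⟨0, ?_, ?_, by simp⟩
    · rw [toSet_zero]; ext i; simp [mem_odds]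
    · rw [show (fun i => 2 * (0 : GolayPt → ℤ) i) = 0 by funext i; simp]
      exact minGrp.zero_mem
  | g :: l, hl, m, hm => by
    simp only [spanList, List.mem_flatMap, List.mem_cons, List.not_mem_nil, or_false] at hm
    obtain ⟨x, hx, rfl | rfl⟩ := hm
    · exact span_word l (fun y hy => hl y (List.mem_cons_of_mem _ hy)) m hx
    · obtain ⟨w, h1, h2, h3⟩ := span_word l (fun y hy => hl y (List.mem_cons_of_mem _ hy)) x hx
      obtain ⟨g1, g2⟩ := two_ind_mem (hl g List.mem_cons_self)
      refine ⟨ind g + w, ?_, ?_, ?_⟩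
      · rw [odds_add, h1, odds_ind, toSet_xor]
      · have e : (fun i => 2 * (ind g + w) i) = (fun i => 2 * ind g i) + fun i => 2 * w i := by
          funext i
          simp only [Pi.add_apply]
          ring
        rw [e]
        exact minGrp.add_mem (AddSubgroup.subset_closure g1) h2
      · simp only [Pi.add_apply, Finset.sum_add_distrib]
        exact dvd_add g2 h3

theorem single_four_mem {i j : GolayPt} (hij : i ≠ j) (n : ℤ) :
    Pi.single i (4 * n) - Pi.single j (4 * n) ∈ minGrp ∧ Pi.single i (8 * n) ∈ minGrp := by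
  have h1 : (Pi.single i 4 + Pi.single j (-4) : GolayPt → ℤ) ∈ minGrp :=
    AddSubgroup.subset_closure (four_pair_mem hij (Or.inl rfl) (Or.inr rfl))
  have h2 : (Pi.single i 4 + Pi.single j 4 : GolayPt → ℤ) ∈ minGrp :=
    AddSubgroup.subset_closure (four_pair_mem hij (Or.inl rfl) (Or.inl rfl))
  constructor
  · have := minGrp.zsmul_mem h1 n
    have e : n • (Pi.single i 4 + Pi.single j (-4) : GolayPt → ℤ) =
        Pi.single i (4 * n) - Pi.single j (4 * n) := by
      funext k
      simp only [Pi.smul_apply, Pi.add_apply, Pi.sub_apply, Pi.single_apply, smul_eq_mul]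
      split_ifs <;> ring
    rwa [e] at this
  · have := minGrp.zsmul_mem (minGrp.add_mem h1 h2) n
    have e : n • ((Pi.single i 4 + Pi.single j (-4) : GolayPt → ℤ) +
        (Pi.single i 4 + Pi.single j 4)) = Pi.single i (8 * n) := by
      funext k
      simp only [Pi.smul_apply, Pi.add_apply, Pi.single_apply, smul_eq_mul]
      split_ifs <;> ring
    rwa [e] at this

theorem four_mem {v : GolayPt → ℤ} (hv : (2 : ℤ) ∣ ∑ i, v i) :
    (fun i => 4 * v i) ∈ minGrp := by
  obtain ⟨k, hk⟩ := hv
  have hdiff : ∑ i, (Pi.single i (4 * v i) - Pi.single none (4 * v i) : GolayPt → ℤ) ∈ minGrp := by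
    refine AddSubgroup.sum_mem _ fun i _ => ?_
    by_cases h : i = none
    · rw [h, sub_self]; exact minGrp.zero_mem
    · exact (single_four_mem h (v i)).1
  have h8 := (single_four_mem (i := (none : GolayPt)) (j := some 0) (by decide) k).2
  have := minGrp.add_mem hdiff h8
  convert this using 1
  funext t
  simp only [Pi.add_apply, Finset.sum_apply, Pi.sub_apply, Finset.sum_sub_distrib,
    Pi.single_apply, Finset.sum_ite_eq, Finset.mem_univ, if_true]
  split_ifs with h
  · subst h
    rw [← Finset.mul_sum, hk]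
    ring
  · simp

theorem minGrp_eq : minGrp = leechLattice := by
  refine le_antisymm ((AddSubgroup.closure_le _).2 fun x hx => hx.1) fun x hx => ?_
  obtain ⟨m, u, h1, h2, h3⟩ := mem_leechLattice.1 hx
  obtain ⟨u', hu'⟩ : ∃ u' : GolayPt → ℤ, ∀ i, u' i = u i - m * if i = none then -2 else 0 :=
    ⟨_, fun _ => rfl⟩
  have hodds : odds u' = odds u := by
    ext i
    rw [mem_odds, mem_odds, hu' i]
    split_ifs <;> omega
  have hsum : (4 : ℤ) ∣ ∑ i, u' i := by
    simp only [hu', Finset.sum_sub_distrib, ← Finset.mul_sum, Finset.sum_ite_eq', Finset.mem_univ,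
      if_true]
    omega
  obtain ⟨mm, hmm, hset⟩ : ∃ mm ∈ spanList gens, toSet mm = odds u' := by
    rw [hodds]
    exact ⟨_, mem_codeList.2 ((isW_iff _).1 h2), toSet_toMask _⟩
  obtain ⟨w, w1, w2, w3⟩ := span_word gens (fun g hg => hg) mm hmm
  obtain ⟨v, hv⟩ : ∃ v : GolayPt → ℤ, ∀ i, u' i = w i + 2 * v i := by
    refine ⟨fun i => (u' i - w i) / 2, fun i => ?_⟩
    have h : i ∈ odds u' ↔ i ∈ odds w := by rw [w1, hset]
    rw [mem_odds, mem_odds] at h
    show u' i = w i + 2 * ((u' i - w i) / 2)
    omega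
  have hveven : (2 : ℤ) ∣ ∑ i, v i := by
    simp only [hv, Finset.sum_add_distrib, ← Finset.mul_sum] at hsum
    omega
  have := minGrp.add_mem (minGrp.add_mem (minGrp.zsmul_mem
    (AddSubgroup.subset_closure omegaVec_mem) m) w2) (four_mem hveven)
  convert this using 1
  funext i
  have := hu' i
  rw [hv i] at this
  simp only [Pi.add_apply, Pi.smul_apply, omegaVec, smul_eq_mul, h1 i]
  split_ifs at this ⊢ <;> linarith

end CfsgLib.Leech
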