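import Cfsg.Agent.Lib.Leech.Census
import Cfsg.Agent.Lib.Leech.Norms
import Cfsg.Agent.Lib.Leech.Gen
import Cfsg.Prelude.Def_Spor_Conway

/-! Numbers of lattice vectors of small norm. -/
set_option autoImplicit false
set_option linter.all false
set_option maxRecDepth 10000

namespace CfsgLib.Leech

open Cfsg CfsgLib.Golay CfsgLib.Census

/-- weight of a halved even coordinate -/
def wEven (v : ℤ) : ℕ := v.natAbs ^ 2

/-- weight of an odd coordinate -/
def wOdd (v : ℤ) : ℕ := (v.natAbs ^ 2 - 1) / 8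

/-- the table entry for an even vector on a word of weight `c` -/
def evenTab (A B : List ℤ) (n c : ℕ) : ℕ :=
  (tab wEven 4 (17 * 4) (List.replicate c A ++ List.replicate (24 - c) B)).getD (n * 4 + 0) 0

/-- the table entry for odd vectors -/
def oddTab (A : List ℤ) (n : ℕ) : ℕ :=
  (tab wOdd 8 (6 * 8) (List.replicate 24 A)).getD (n * 8 + 4) 0

/-- the code words as a finset -/
noncomputable def words : Finset (Finset GolayPt) := codeList.toFinset.image toSet

theorem mem_words {s : Finset GolayPt} : s ∈ words ↔ IsW s := by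
  rw [words, Finset.mem_image, isW_iff]
  constructor
  · rintro ⟨m, hm, rfl⟩
    rw [List.mem_toFinset] at hm
    rw [toMask_toSet (lt_of_inCode (mem_codeList.1 hm))]
    exact mem_codeList.1 hm
  · exact fun h => ⟨_, List.mem_toFinset.2 (mem_codeList.2 h), toSet_toMask s⟩

theorem sum_words (f : ℕ → ℕ) : ∑ s ∈ words, f s.card = (codeList.map fun m => f (pc m)).sum := by
  rw [words, Finset.sum_image (fun a ha b hb e => toSet_inj
      (lt_of_inCode (mem_codeList.1 (List.mem_toFinset.1 ha)))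
      (lt_of_inCode (mem_codeList.1 (List.mem_toFinset.1 hb))) e),
    List.sum_toFinset _ codeList_nodup]
  simp only [card_toSet]

theorem word_counts : (codeList.filter fun m => pc m == 0).length = 1 ∧
    (codeList.filter fun m => pc m == 8).length = 759 ∧
    (codeList.filter fun m => pc m == 12).length = 2576 ∧
    (codeList.filter fun m => pc m == 16).length = 759 ∧
    (codeList.filter fun m => pc m == 24).length = 1 := by
  refine ⟨?_, ?_, ?_, ?_, ?_⟩ <;> decide +kernel

theorem sum_by_weight (f : ℕ → ℕ) : (codeList.map fun m => f (pc m)).sum =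
    f 0 + 759 * f 8 + 2576 * f 12 + 759 * f 16 + f 24 := by
  have key : ∀ l : List ℕ, (∀ m ∈ l, pc m = 0 ∨ pc m = 8 ∨ pc m = 12 ∨ pc m = 16 ∨ pc m = 24) →
      (l.map fun m => f (pc m)).sum = (l.filter fun m => pc m == 0).length * f 0 +
        (l.filter fun m => pc m == 8).length * f 8 + (l.filter fun m => pc m == 12).length * f 12 +
        (l.filter fun m => pc m == 16).length * f 16 + (l.filter fun m => pc m == 24).length * f 24 := by
    intro l hl
    induction l with
    | nil => simp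
    | cons a t ih =>
      rw [List.map_cons, List.sum_cons, ih fun m hm => hl m (List.mem_cons_of_mem _ hm)]
      rcases hl a List.mem_cons_self with h | h | h | h | h <;>
        simp [h, List.filter_cons] <;> ring
  obtain ⟨h0, h8, h12, h16, h24⟩ := word_counts
  rw [key _ fun m hm => pc_cases (mem_codeList.1 hm), h0, h8, h12, h16, h24]
  ring

/-- even vectors with coordinate conditions -/
def evenSet (A B : List ℤ) (n : ℕ) : Set (GolayPt → ℤ) :=
  {x | ∃ u, IsRep x 0 u ∧ (∀ i, u i ∈ if i ∈ odds u then A else B) ∧ ∑ i, wEven (u i) = n}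

theorem natMod_four {a : ℤ} : a.natMod (4 : ℕ) = 0 ↔ (4 : ℤ) ∣ a := by
  unfold Int.natMod; omega

theorem ncard_evenSet {A B : List ℤ} (hA : A.Nodup) (hB : B.Nodup)
    (hAo : ∀ a ∈ A, ¬ (2 : ℤ) ∣ a) (hBe : ∀ b ∈ B, (2 : ℤ) ∣ b) {n : ℕ} (hn : n < 17) :
    (evenSet A B n).ncard = evenTab A B n 0 + 759 * evenTab A B n 8 + 2576 * evenTab A B n 12 +
      759 * evenTab A B n 16 + evenTab A B n 24 := by
  classical
  obtain ⟨S, hS⟩ : ∃ S, S = fun s : Finset GolayPt =>
      sel wEven 4 (fun i => if i ∈ s then A else B) Finset.univ n 0 := ⟨_, rfl⟩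
  obtain ⟨D, hD⟩ : ∃ D : (GolayPt → ℤ) → GolayPt → ℤ, D = fun u i => 2 * u i := ⟨_, rfl⟩
  have hDi : Function.Injective D := fun u v h => funext fun i => by
    have := congrFun h i
    simp only [hD] at this
    omega
  have hmemS : ∀ s u, u ∈ S s ↔ ((∀ i ∈ (Finset.univ : Finset GolayPt), u i ∈ if i ∈ s then A else B) ∧
      ∀ i, i ∉ (Finset.univ : Finset GolayPt) → u i = 0) ∧ (∑ i, wEven (u i)) = n ∧
        (∑ i, u i).natMod (4 : ℕ) = 0 := fun s u => by
    rw [hS]
    exact Finset.mem_filter.trans (and_congr_left' mem_fns)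
  have hodds : ∀ s, ∀ u ∈ S s, odds u = s := by
    intro s u hu
    rw [hmemS] at hu
    ext i
    have := hu.1.1 i (Finset.mem_univ i)
    by_cases hi : i ∈ s
    · rw [if_pos hi] at this
      simp [mem_odds, hi, hAo _ this]
    · rw [if_neg hi] at this
      simp [mem_odds, hi, hBe _ this]
  have e : evenSet A B n = ↑((words.biUnion S).image D) := by
    ext x
    simp only [Finset.coe_image, Set.mem_image, Finset.coe_biUnion, Set.mem_iUnion, Finset.mem_coe,
      evenSet, Set.mem_setOf_eq]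
    constructor
    · rintro ⟨u, ⟨h1, h2, h3⟩, hval, hw⟩
      refine ⟨u, ⟨odds u, mem_words.2 h2, ?_⟩, funext fun i => by rw [hD, h1 i, zero_add]⟩
      rw [hmemS]
      exact ⟨⟨fun i _ => hval i, fun i hi => absurd (Finset.mem_univ i) hi⟩, hw,
        natMod_four.2 (by simpa using h3)⟩
    · rintro ⟨u, ⟨s, hs, hu⟩, rfl⟩
      have ho := hodds s u hu
      rw [hmemS] at hu
      refine ⟨u, ⟨fun i => by simp [hD], ho ▸ mem_words.1 hs, by simpa using natMod_four.1 hu.2.2⟩,
        fun i => ?_, hu.2.1⟩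
      rw [ho]
      exact hu.1.1 i (Finset.mem_univ i)
  rw [e, Set.ncard_coe_finset, Finset.card_image_of_injective _ hDi, Finset.card_biUnion]
  · rw [← sum_by_weight, ← sum_words]
    refine Finset.sum_congr rfl fun s _ => ?_
    obtain ⟨l, hl⟩ : ∃ l, l = s.toList ++ sᶜ.toList := ⟨_, rfl⟩
    have hlnd : l.Nodup := by
      rw [hl, List.nodup_append]
      refine ⟨Finset.nodup_toList _, Finset.nodup_toList _, fun a ha b hb h => ?_⟩
      rw [Finset.mem_toList] at ha hb
      subst h
      exact Finset.mem_compl.1 hb ha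
    have hlu : l.toFinset = Finset.univ := by
      ext i
      simp [hl, em]
    have hm : l.map (fun i => if i ∈ s then A else B) =
        List.replicate s.card A ++ List.replicate (24 - s.card) B := by
      rw [hl, List.map_append]
      congr 1
      · rw [List.eq_replicate_iff]
        refine ⟨by simp, fun y hy => ?_⟩
        obtain ⟨i, hi, rfl⟩ := List.mem_map.1 hy
        rw [Finset.mem_toList] at hi
        rw [if_pos hi]
      · rw [List.eq_replicate_iff]
        refine ⟨by simp [Finset.card_compl, card_pt], fun y hy => ?_⟩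
        obtain ⟨i, hi, rfl⟩ := List.mem_map.1 hy
        rw [Finset.mem_toList, Finset.mem_compl] at hi
        rw [if_neg hi]
    rw [hS, evenTab, ← hm]
    show (sel wEven 4 _ Finset.univ n 0).card = _
    rw [← hlu]
    exact card_sel wEven (by norm_num) _ (fun i => by split_ifs <;> assumption) l hlnd n 0
      (by norm_num) hn
  · intro s _ t _ hne
    rw [Function.onFun, Finset.disjoint_left]
    exact fun u hu hu' => hne ((hodds s u hu).symm.trans (hodds t u hu'))

/-- odd vectors with coordinate conditions, stated after the sign normalisation -/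
def oddSet (A : List ℤ) (n : ℕ) : Set (GolayPt → ℤ) :=
  {x | x ∈ leechLattice ∧ (∀ i, ∃ a ∈ A, x i = a ∨ x i = -a) ∧ ∑ i, wOdd (x i) = n}

theorem mem_of_pos {y : GolayPt → ℤ} (h : ∀ i, y i % 4 = 1) (hs : (∑ i, y i).natMod (8 : ℕ) = 4) :
    y ∈ leechLattice := by
  rw [mem_lattice_iff_set]
  refine Cfsg.Spor.mem_leechSet_of_const_mod_four y 1 1 rfl (fun i => ?_) ?_
  · unfold Int.ModEq; rw [h i]; rfl
  · unfold Int.natMod at hs
    unfold Int.ModEq
    omega

theorem ncard_oddSet {A : List ℤ} (hA : A.Nodup) (hA4 : ∀ a ∈ A, a % 4 = 1) {n : ℕ} (hn : n < 6) :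
    (oddSet A n).ncard = 4096 * oddTab A n := by
  classical
  obtain ⟨Y, hY⟩ : ∃ Y, Y = sel wOdd 8 (fun _ : GolayPt => A) Finset.univ n 4 := ⟨_, rfl⟩
  have hYmem : ∀ y, y ∈ Y ↔ (∀ i, y i ∈ A) ∧ ∑ i, wOdd (y i) = n ∧ (∑ i, y i).natMod (8 : ℕ) = 4 := by
    intro y
    rw [hY, sel, Finset.mem_filter, mem_fns]
    simp
  have hw : ∀ a : ℤ, wOdd (-a) = wOdd a := fun a => by simp [wOdd]
  have e : oddSet A n = ↑((words ×ˢ Y).image fun p => flipOn p.1 p.2) := by
    ext x
    simp only [Finset.coe_image, Set.mem_image, Finset.mem_coe, Finset.mem_product, oddSet,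
      Set.mem_setOf_eq]
    constructor
    · rintro ⟨hx, hval, hwn⟩
      obtain ⟨c, hc⟩ : ∃ c : Finset GolayPt, c = Finset.univ.filter fun i => x i % 4 = 3 := ⟨_, rfl⟩
      have hcW : IsW c := by
        obtain ⟨_, -, -, hres⟩ := mem_lattice_iff_set.1 hx
        rw [hc]
        exact hres 3
      have hyA : ∀ i, flipOn c x i ∈ A := fun i => by
        obtain ⟨a, ha, h⟩ := hval i
        have := hA4 a ha
        simp only [flipOn, hc, Finset.mem_filter, Finset.mem_univ, true_and]
        rcases h with h | h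
        · rw [if_neg (by omega)]; exact h ▸ ha
        · rw [if_pos (by omega), h, neg_neg]; exact ha
      refine ⟨(c, flipOn c x), ⟨mem_words.2 hcW, (hYmem _).2 ⟨hyA, ?_, ?_⟩⟩, flipOn_flipOn c x⟩
      · rw [← hwn]
        refine Finset.sum_congr rfl fun i _ => ?_
        simp only [flipOn]
        split_ifs <;> simp [hw]
      · obtain ⟨m, u, h1, h2, h3⟩ := mem_leechLattice.1 (flipOn_mem hcW hx)
        have h0 := hA4 _ (hyA none)
        rw [h1 none] at h0
        rw [sum_rep h1]
        unfold Int.natMod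
        omega
    · rintro ⟨⟨c, y⟩, ⟨hc, hy⟩, rfl⟩
      obtain ⟨hyA, hyn, hys⟩ := (hYmem y).1 hy
      refine ⟨flipOn_mem (mem_words.1 hc) (mem_of_pos (fun i => hA4 _ (hyA i)) hys),
        fun i => ⟨y i, hyA i, ?_⟩, ?_⟩
      · simp only [flipOn]; split_ifs <;> simp
      · rw [← hyn]
        refine Finset.sum_congr rfl fun i _ => ?_
        simp only [flipOn]
        split_ifs <;> simp [hw]
  rw [e, Set.ncard_coe_finset, Finset.card_image_of_injOn, Finset.card_product]
  · have hW : words.card = 4096 := by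
      rw [Finset.card_eq_sum_ones, sum_words (fun _ => 1), sum_by_weight (fun _ => 1)]
    have hYc : Y.card = oddTab A n := by
      rw [hY]
      unfold oddTab
      obtain ⟨l, hl⟩ : ∃ l, l = (Finset.univ : Finset GolayPt).toList := ⟨_, rfl⟩
      have := card_sel wOdd (M := 8) (N := 6) (by norm_num) (fun _ : GolayPt => A) (fun _ => hA) l
        (hl ▸ Finset.nodup_toList _) n 4 (by norm_num) hn
      rw [hl, Finset.toList_toFinset, List.map_const', Finset.length_toList, Finset.card_univ,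
        card_pt] at this
      exact this
    rw [hW, hYc]
  · rintro ⟨c, y⟩ h ⟨c', y'⟩ h' hf
    simp only [Finset.coe_product, Set.mem_prod, Finset.mem_coe] at h h'
    have hy := ((hYmem y).1 h.2).1
    have hy' := ((hYmem y').1 h'.2).1
    have hcc : c = c' := by
      ext i
      have := congrFun hf i
      have := hA4 _ (hy i)
      have := hA4 _ (hy' i)
      simp only [flipOn] at *
      by_cases hi : i ∈ c <;> by_cases hi' : i ∈ c' <;> simp [hi, hi'] at * <;> omega
    subst hcc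
    have := congrArg (flipOn c) hf
    simp only [flipOn_flipOn] at this
    rw [this]

/-- all lattice vectors of sum of squares `N` -/
def normSet (N : ℤ) : Set (GolayPt → ℤ) := {x | x ∈ leechLattice ∧ sqNorm x = N}

/-- odd halved even coordinates -/
def allA : List ℤ := [1, -1, 3, -3]

/-- even halved even coordinates -/
def allB : List ℤ := [0, 2, -2, 4, -4]

/-- odd coordinates, normalised -/
def allO : List ℤ := [1, -3, 5, -7]

theorem sq_eq_natAbs (a : ℤ) : a ^ 2 = ((a.natAbs ^ 2 : ℕ) : ℤ) := by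
  push_cast
  rw [sq_abs]

theorem sum_wEven (u : GolayPt → ℤ) : ((∑ i, wEven (u i) : ℕ) : ℤ) = ∑ i, u i ^ 2 := by
  push_cast [wEven]
  simp [sq_abs]

theorem sq_bound {u : GolayPt → ℤ} {B : ℤ} (h : ∑ i, u i ^ 2 ≤ B) (i : GolayPt) : u i ^ 2 ≤ B :=
  le_trans (Finset.single_le_sum (f := fun j => u j ^ 2) (fun j _ => sq_nonneg _) (Finset.mem_univ i)) h

theorem wOdd_sq {a : ℤ} (h : ¬ (2 : ℤ) ∣ a) : a ^ 2 = 1 + 8 * (wOdd a : ℤ) := by
  obtain ⟨k, hk⟩ : ∃ k : ℕ, a.natAbs = 2 * k + 1 := ⟨a.natAbs / 2, by omega⟩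
  obtain ⟨q, hq⟩ : 2 ∣ k * (k + 1) := (Nat.even_mul_succ_self k).two_dvd
  have e : a.natAbs ^ 2 = 1 + 8 * q := by
    rw [hk, show (2 * k + 1) ^ 2 = 4 * (k * (k + 1)) + 1 by ring, hq]; ring
  rw [sq_eq_natAbs, wOdd, e, show (1 + 8 * q - 1) / 8 = q by omega]
  push_cast
  ring

theorem sum_wOdd {x : GolayPt → ℤ} (h : ∀ i, ¬ (2 : ℤ) ∣ x i) :
    sqNorm x = 24 + 8 * ((∑ i, wOdd (x i) : ℕ) : ℤ) := by
  simp only [sqNorm, fun i => wOdd_sq (h i), Finset.sum_add_distrib, ← Finset.mul_sum,
    Finset.sum_const, Finset.card_univ, card_pt]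
  push_cast
  ring

theorem even_mem_evenSet {x : GolayPt → ℤ} (hx : x ∈ leechLattice) (h2 : (2 : ℤ) ∣ x none) {n : ℕ}
    (hn : n ≤ 16) (hN : sqNorm x = 4 * (n : ℤ)) : x ∈ evenSet allA allB n := by
  obtain ⟨m, v, hrep⟩ := mem_leechLattice.1 hx
  obtain ⟨u, h1, h2', h3⟩ := rep_zero hrep (by have := hrep.1 none; omega)
  rw [sqNorm_rep h1] at hN
  have hs : ∑ i, u i ^ 2 = (n : ℤ) := by linarith
  refine ⟨u, ⟨h1, h2', h3⟩, fun i => ?_, by exact_mod_cast (sum_wEven u).trans hs⟩
  have hb : u i ^ 2 ≤ 16 := le_trans (sq_bound le_rfl i) (by rw [hs]; exact_mod_cast hn)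
  have hlo : -4 ≤ u i ∧ u i ≤ 4 := ⟨by nlinarith, by nlinarith⟩
  by_cases hi : i ∈ odds u
  · rw [if_pos hi]
    rw [mem_odds] at hi
    simp only [allA, List.mem_cons, List.not_mem_nil, or_false]
    omega
  · rw [if_neg hi]
    rw [mem_odds, not_not] at hi
    simp only [allB, List.mem_cons, List.not_mem_nil, or_false]
    omega

theorem odd_mem_oddSet {x : GolayPt → ℤ} (hx : x ∈ leechLattice) (h2 : ¬ (2 : ℤ) ∣ x none) {k : ℕ}
    (hk : k ≤ 5) (hN : sqNorm x = 24 + 8 * (k : ℤ)) : x ∈ oddSet allO k := by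
  obtain ⟨m, v, hrep⟩ := mem_leechLattice.1 hx
  have hodd : ∀ i, ¬ (2 : ℤ) ∣ x i := fun i => by
    have := hrep.1 i; have := hrep.1 none; omega
  have hs := sum_wOdd hodd
  refine ⟨hx, fun i => ?_, by omega⟩
  have hb : x i ^ 2 ≤ 64 := sq_bound (u := x) (by show sqNorm x ≤ 64; omega) i
  have hlo : -8 ≤ x i ∧ x i ≤ 8 := ⟨by nlinarith, by nlinarith⟩
  have := hodd i
  simp only [allO, List.mem_cons, List.not_mem_nil, or_false, exists_eq_or_imp, exists_eq_left]
  omega

theorem evenSet_sub {A B : List ℤ} {n : ℕ} {x : GolayPt → ℤ} (h : x ∈ evenSet A B n) :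
    x ∈ leechLattice ∧ sqNorm x = 4 * (n : ℤ) ∧ (2 : ℤ) ∣ x none := by
  obtain ⟨u, h1, -, hn⟩ := h
  refine ⟨rep_mem h1, ?_, ⟨u none, by rw [h1.1 none, zero_add]⟩⟩
  rw [sqNorm_rep h1.1, ← sum_wEven, hn]
  ring

theorem oddSet_sub {A : List ℤ} (hA : ∀ a ∈ A, a % 4 = 1) {k : ℕ} {x : GolayPt → ℤ}
    (h : x ∈ oddSet A k) : x ∈ leechLattice ∧ sqNorm x = 24 + 8 * (k : ℤ) ∧ ∀ i, ¬ (2 : ℤ) ∣ x i := by
  obtain ⟨hx, hv, hk⟩ := h
  have hodd : ∀ i, ¬ (2 : ℤ) ∣ x i := fun i => by
    obtain ⟨a, ha, e⟩ := hv i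
    have := hA a ha
    omega
  exact ⟨hx, by rw [sum_wOdd hodd, hk], hodd⟩

theorem allO_mod : ∀ a ∈ allO, a % 4 = 1 := by decide

theorem bounded_finite {S : Set (GolayPt → ℤ)} (h : ∀ x ∈ S, sqNorm x ≤ 64) : S.Finite := by
  refine Set.Finite.subset (Set.Finite.pi' (t := fun _ : GolayPt => Set.Icc (-8 : ℤ) 8)
    fun _ => Set.finite_Icc _ _) fun x hx i => ?_
  have hb : x i ^ 2 ≤ 64 := sq_bound (u := x) (h x hx) i
  exact ⟨by nlinarith, by nlinarith⟩

theorem normSet_split {n k : ℕ} (hn : n ≤ 16) (hk : k ≤ 5) (h : 4 * (n : ℤ) = 24 + 8 * k) :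
    (normSet (4 * n)).ncard = (evenSet allA allB n).ncard + (oddSet allO k).ncard := by
  rw [← Set.ncard_union_eq ?_ ?_ ?_]
  · congr 1
    ext x
    constructor
    · rintro ⟨hx, hN⟩
      by_cases h2 : (2 : ℤ) ∣ x none
      · exact Or.inl (even_mem_evenSet hx h2 hn hN)
      · exact Or.inr (odd_mem_oddSet hx h2 hk (hN.trans h))
    · rintro (hx | hx)
      · exact ⟨(evenSet_sub hx).1, (evenSet_sub hx).2.1⟩
      · exact ⟨(oddSet_sub allO_mod hx).1, (oddSet_sub allO_mod hx).2.1.trans h.symm⟩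
  · rw [Set.disjoint_left]
    exact fun x hx hx' => (oddSet_sub allO_mod hx').2.2 none (evenSet_sub hx).2.2
  · exact bounded_finite fun x hx => by rw [(evenSet_sub hx).2.1]; omega
  · exact bounded_finite fun x hx => by rw [(oddSet_sub allO_mod hx).2.1]; omega

theorem tab_values : evenTab allA allB 8 0 + 759 * evenTab allA allB 8 8 + 2576 * evenTab allA allB 8 12 +
      759 * evenTab allA allB 8 16 + evenTab allA allB 8 24 + 4096 * oddTab allO 1 = 196560 ∧
    evenTab allA allB 12 0 + 759 * evenTab allA allB 12 8 + 2576 * evenTab allA allB 12 12 +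
      759 * evenTab allA allB 12 16 + evenTab allA allB 12 24 + 4096 * oddTab allO 3 = 16773120 ∧
    evenTab allA allB 16 0 + 759 * evenTab allA allB 16 8 + 2576 * evenTab allA allB 16 12 +
      759 * evenTab allA allB 16 16 + evenTab allA allB 16 24 + 4096 * oddTab allO 5 = 398034000 := by
  refine ⟨?_, ?_, ?_⟩ <;> decide +kernel

theorem count_32 : (normSet 32).ncard = 196560 := by
  rw [show (32 : ℤ) = 4 * ((8 : ℕ) : ℤ) from rfl, normSet_split (n := 8) (k := 1) (by norm_num)
    (by norm_num) rfl, ncard_evenSet (by decide) (by decide) (by decide) (by decide) (by norm_num),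
    ncard_oddSet (by decide) allO_mod (by norm_num)]
  exact tab_values.1

theorem count_48 : (normSet 48).ncard = 16773120 := by
  rw [show (48 : ℤ) = 4 * ((12 : ℕ) : ℤ) from rfl, normSet_split (n := 12) (k := 3) (by norm_num)
    (by norm_num) rfl, ncard_evenSet (by decide) (by decide) (by decide) (by decide) (by norm_num),
    ncard_oddSet (by decide) allO_mod (by norm_num)]
  exact tab_values.2.1

theorem count_64 : (normSet 64).ncard = 398034000 := by
  rw [show (64 : ℤ) = 4 * ((16 : ℕ) : ℤ) from rfl, normSet_split (n := 16) (k := 5) (by norm_num)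
    (by norm_num) rfl, ncard_evenSet (by decide) (by decide) (by decide) (by decide) (by norm_num),
    ncard_oddSet (by decide) allO_mod (by norm_num)]
  exact tab_values.2.2

end CfsgLib.Leech
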