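import Cfsg.Agent.Lib.Leech.Gen
import Cfsg.Agent.Lib.Leech.Norms
import Cfsg.Agent.S0358

/-! The index of the lattice, and a singular subgroup for the form modulo 2. -/
set_option autoImplicit false
set_option linter.all false

namespace CfsgLib.Leech

open Cfsg CfsgLib.Golay

/-- reduction modulo 2 -/
def red : (GolayPt → ℤ) →+ (GolayPt → ZMod 2) :=
  (Int.castAddHom (ZMod 2)).compLeft GolayPt

theorem support₂_red (u : GolayPt → ℤ) : support₂ (red u) = odds u := by
  ext i
  rw [mem_odds]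
  simp [support₂, red, ZMod.intCast_zmod_eq_zero_iff_dvd]

theorem red_surjective : Function.Surjective red := fun w => by
  refine ⟨fun i => ((w i).val : ℤ), funext fun i => ?_⟩
  simp [red]

theorem isW_iff_mem {w : GolayPt → ZMod 2} : IsW (support₂ w) ↔ w ∈ golayCode :=
  ⟨fun ⟨v, hv, e⟩ => support₂_inj e ▸ hv, fun h => ⟨w, h, rfl⟩⟩

theorem odds_isW_iff {u : GolayPt → ℤ} : IsW (odds u) ↔ red u ∈ golayCode := by
  rw [← support₂_red, isW_iff_mem]

theorem card_code : Nat.card golayCode = 4096 := by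
  rw [Module.natCard_eq_pow_finrank (K := ZMod 2), Cfsg.Agent.S0358.result, Nat.card_zmod]
  rfl

/-- vectors reducing into `C` with sum divisible by 4 -/
def uGrp (C : Submodule (ZMod 2) (GolayPt → ZMod 2)) : AddSubgroup (GolayPt → ℤ) where
  carrier := {u | red u ∈ C ∧ (4 : ℤ) ∣ ∑ i, u i}
  zero_mem' := ⟨by rw [map_zero]; exact C.zero_mem, by simp⟩
  add_mem' := fun {a b} ha hb => ⟨by rw [map_add]; exact C.add_mem ha.1 hb.1, by
    simp only [Pi.add_apply, Finset.sum_add_distrib]; exact dvd_add ha.2 hb.2⟩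
  neg_mem' := fun {a} ha => ⟨by rw [map_neg]; exact C.neg_mem ha.1, by
    simp only [Pi.neg_apply, Finset.sum_neg_distrib]; exact dvd_neg.2 ha.2⟩

theorem even_sum {u : GolayPt → ℤ} (h : red u ∈ golayCode) : (2 : ℤ) ∣ ∑ i, u i := by
  have h4 := isW_four_dvd (odds_isW_iff.2 h)
  have h5 : (2 : ℤ) ∣ ∑ i, (u i - if i ∈ odds u then (1 : ℤ) else 0) := Finset.dvd_sum fun i _ => by
    by_cases h : i ∈ odds u
    · rw [if_pos h]; rw [mem_odds] at h; omega
    · rw [if_neg h]; rw [mem_odds] at h; omega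
  rw [Finset.sum_sub_distrib, Finset.sum_ite_mem, Finset.univ_inter, Finset.sum_const, nsmul_eq_mul,
    mul_one] at h5
  omega

theorem index_uGrp {C : Submodule (ZMod 2) (GolayPt → ZMod 2)} (hC : C ≤ golayCode) :
    (uGrp C).index * Nat.card C = 2 ^ 25 := by
  obtain ⟨U1, hU1⟩ : ∃ U1, U1 = C.toAddSubgroup.comap red := ⟨_, rfl⟩
  have hle : uGrp C ≤ U1 := fun u hu => hU1 ▸ hu.1
  rw [← AddSubgroup.relIndex_mul_index hle]
  have h2 : (uGrp C).relIndex U1 = 2 := by
    rw [AddSubgroup.relIndex, AddSubgroup.index_eq_two_iff]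
    obtain ⟨a, ha⟩ : ∃ a : GolayPt → ℤ, a = Pi.single none 2 := ⟨_, rfl⟩
    have hra : red a = 0 := by
      rw [ha]; funext i
      by_cases hi : i = none
      · subst hi; simp [red]; decide
      · simp [red, hi]
    have haU : a ∈ U1 := by rw [hU1, AddSubgroup.mem_comap, hra]; exact zero_mem _
    refine ⟨⟨a, haU⟩, fun b => ?_⟩
    have hb : red (b : GolayPt → ℤ) ∈ C := by have := b.2; simp only [hU1] at this; exact this
    have hev := even_sum (hC hb)
    have hsum : ∑ i, ((b : GolayPt → ℤ) + a) i = (∑ i, (b : GolayPt → ℤ) i) + 2 := by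
      simp only [ha, Pi.add_apply, Finset.sum_add_distrib, Finset.sum_pi_single', Finset.mem_univ,
        if_true]
    have e1 : b + ⟨a, haU⟩ ∈ (uGrp C).addSubgroupOf U1 ↔ (4 : ℤ) ∣ (∑ i, (b : GolayPt → ℤ) i) + 2 := by
      rw [AddSubgroup.mem_addSubgroupOf]
      show red ((b : GolayPt → ℤ) + a) ∈ C ∧ _ ↔ _
      rw [map_add, hra, add_zero, ← hsum]
      exact ⟨fun h => h.2, fun h => ⟨hb, h⟩⟩
    have e2 : b ∈ (uGrp C).addSubgroupOf U1 ↔ (4 : ℤ) ∣ ∑ i, (b : GolayPt → ℤ) i := by
      rw [AddSubgroup.mem_addSubgroupOf]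
      exact ⟨fun h => h.2, fun h => ⟨hb, h⟩⟩
    by_cases h4 : (4 : ℤ) ∣ ∑ i, (b : GolayPt → ℤ) i
    · exact Or.inr ⟨e2.2 h4, fun h => by have := e1.1 h; omega⟩
    · exact Or.inl ⟨e1.2 (by omega), fun h => h4 (e2.1 h)⟩
  rw [h2, hU1, AddSubgroup.index_comap_of_surjective _ red_surjective, mul_assoc]
  have := C.toAddSubgroup.index_mul_card
  rw [Nat.card_eq_fintype_card (α := GolayPt → ZMod 2), Fintype.card_fun, ZMod.card, card_pt] at this
  rw [show Nat.card C = Nat.card C.toAddSubgroup from rfl, this]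
  rfl

/-- doubling -/
def dbl : (GolayPt → ℤ) →+ (GolayPt → ℤ) where
  toFun u := fun i => 2 * u i
  map_zero' := by funext i; simp
  map_add' u v := by funext i; simp [mul_add]

theorem dbl_injective : Function.Injective dbl := fun u v h => funext fun i => by
  have h' : 2 * u i = 2 * v i := congrFun h i
  omega

theorem index_dbl_range : dbl.range.index = 2 ^ 24 := by
  have e : dbl.range = red.ker := by
    ext x
    rw [AddMonoidHom.mem_range, AddMonoidHom.mem_ker]
    constructor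
    · rintro ⟨u, rfl⟩
      funext i
      simp [red, dbl]
      left
      decide
    · intro h
      refine ⟨fun i => x i / 2, funext fun i => ?_⟩
      have := congrFun h i
      simp [red, ZMod.intCast_zmod_eq_zero_iff_dvd] at this
      show 2 * (x i / 2) = x i
      omega
  rw [e, AddSubgroup.index_ker, AddMonoidHom.range_eq_top.2 red_surjective, AddSubgroup.card_top]
  rw [Nat.card_eq_fintype_card, Fintype.card_fun, ZMod.card, card_pt]

/-- even lattice vectors whose halved reduction lies in `C` -/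
def evenSub (C : Submodule (ZMod 2) (GolayPt → ZMod 2)) : AddSubgroup (GolayPt → ℤ) :=
  (uGrp C).map dbl

theorem index_evenSub {C : Submodule (ZMod 2) (GolayPt → ZMod 2)} (hC : C ≤ golayCode) :
    (evenSub C).index * Nat.card C = 2 ^ 49 := by
  rw [evenSub, AddSubgroup.index_map_of_injective (hf := dbl_injective), index_dbl_range,
    mul_right_comm, index_uGrp hC]
  rfl

theorem evenSub_le {C : Submodule (ZMod 2) (GolayPt → ZMod 2)} (hC : C ≤ golayCode) :
    evenSub C ≤ leechLattice := by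
  rintro _ ⟨u, ⟨h1, h2⟩, rfl⟩
  exact rep_mem (m := 0) (u := u) ⟨fun i => by simp [dbl], odds_isW_iff.2 (hC h1), by simpa using h2⟩

theorem relIndex_evenSub : (evenSub golayCode).relIndex leechLattice = 2 := by
  rw [AddSubgroup.relIndex, AddSubgroup.index_eq_two_iff]
  refine ⟨⟨omegaVec, omegaVec_mem.1⟩, fun b => ?_⟩
  have key : ∀ x : leechLattice,
      x ∈ (evenSub golayCode).addSubgroupOf leechLattice ↔ (2 : ℤ) ∣ (x : GolayPt → ℤ) none := by
    intro x
    rw [AddSubgroup.mem_addSubgroupOf]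
    constructor
    · rintro ⟨u, -, e⟩
      exact ⟨u none, (congrFun e none).symm⟩
    · intro h
      obtain ⟨m, u, hrep⟩ := mem_leechLattice.1 x.2
      obtain ⟨v, h1, h2, h3⟩ := rep_zero hrep (by have := hrep.1 none; omega)
      exact ⟨v, ⟨odds_isW_iff.1 h2, by simpa using h3⟩, funext fun i => by
        show 2 * v i = _
        rw [h1 i, zero_add]⟩
  have e : ((b + ⟨omegaVec, omegaVec_mem.1⟩ : leechLattice) : GolayPt → ℤ) none =
      (b : GolayPt → ℤ) none + -3 := rfl
  by_cases h : (2 : ℤ) ∣ (b : GolayPt → ℤ) none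
  · exact Or.inr ⟨(key b).2 h, fun h' => by have := (key _).1 h'; rw [e] at this; omega⟩
  · exact Or.inl ⟨(key _).2 (by rw [e]; omega), fun h' => h ((key b).1 h')⟩

theorem index_leech : leechLattice.index = 2 ^ 36 := by
  have h := index_evenSub (le_refl golayCode)
  rw [← AddSubgroup.relIndex_mul_index (evenSub_le (le_refl golayCode)), relIndex_evenSub,
    card_code] at h
  generalize leechLattice.index = n at h ⊢
  norm_num at h ⊢
  omega

theorem card_rep : Nat.card (Submodule.span (ZMod 2) {(1 : GolayPt → ZMod 2)}) = 2 := by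
  rw [Module.natCard_eq_pow_finrank (K := ZMod 2), Nat.card_zmod,
    finrank_span_singleton one_ne_zero, pow_one]

theorem singular_sub : ∃ A : AddSubgroup (GolayPt → ℤ), A ≤ leechLattice ∧
    (∀ v ∈ leechLattice, (2 : ℤ) • v ∈ A) ∧ (A.addSubgroupOf leechLattice).index = 2 ^ 12 ∧
    ∀ v ∈ A, (32 : ℤ) ∣ sqNorm v := by
  obtain ⟨R, hR⟩ : ∃ R, R = Submodule.span (ZMod 2) {(1 : GolayPt → ZMod 2)} := ⟨_, rfl⟩
  have hRC : R ≤ golayCode := by
    rw [hR, Submodule.span_le, Set.singleton_subset_iff, SetLike.mem_coe, ← isW_iff_mem]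
    rw [show support₂ (1 : GolayPt → ZMod 2) = Finset.univ by decide]
    exact isW_univ
  refine ⟨evenSub R, evenSub_le hRC, fun v hv => ?_, ?_, ?_⟩
  · obtain ⟨m, u, h1, h2, h3⟩ := mem_leechLattice.1 hv
    refine ⟨v, ⟨?_, ?_⟩, funext fun i => by simp [dbl]⟩
    · rw [hR, Submodule.mem_span_singleton]
      refine ⟨(m : ZMod 2), funext fun i => ?_⟩
      simp [red, h1 i]
      left
      decide
    · rw [sum_rep h1]; omega
  · have h := index_evenSub hRC
    rw [← AddSubgroup.relIndex_mul_index (evenSub_le hRC), index_leech, hR, card_rep] at h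
    rw [← AddSubgroup.relIndex, hR]
    generalize (evenSub _).relIndex leechLattice = n at h ⊢
    norm_num at h ⊢
    omega
  · rintro _ ⟨u, ⟨h1, h2⟩, rfl⟩
    rw [sqNorm_rep (m := 0) (u := u) (fun i => by simp [dbl])]
    rw [hR, Submodule.mem_span_singleton] at h1
    obtain ⟨a, ha⟩ := h1
    have h8 : (8 : ℤ) ∣ ∑ i, u i ^ 2 := by
      obtain ⟨r, hr, hri⟩ : ∃ r : ℤ, (r = 0 ∨ r = 1) ∧ ∀ i, (2 : ℤ) ∣ u i - r := by
        refine ⟨(a.val : ℤ), ?_, fun i => ?_⟩
        · have := ZMod.val_lt a; omega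
        · rw [show (2 : ℤ) = ((2 : ℕ) : ℤ) from rfl, ← ZMod.intCast_zmod_eq_zero_iff_dvd]
          have := congrFun ha i
          simp [red] at this
          simp [← this]
      choose q hq using hri
      have e1 : ∀ i, u i = r + 2 * q i := fun i => by linarith [hq i]
      obtain ⟨t, ht⟩ : (2 : ℤ) ∣ ∑ i, q i := by
        simp only [e1, Finset.sum_add_distrib, ← Finset.mul_sum, Finset.sum_const, Finset.card_univ,
          card_pt, nsmul_eq_mul, Nat.cast_ofNat] at h2
        omega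
      obtain ⟨t', ht'⟩ : (2 : ℤ) ∣ ∑ i, q i ^ 2 := by
        have : (2 : ℤ) ∣ ∑ i, (q i ^ 2 - q i) := Finset.dvd_sum fun i _ => by
          rw [show q i ^ 2 - q i = (q i - 1) * (q i - 1 + 1) by ring]
          exact Int.two_dvd_mul_add_one _
        rw [Finset.sum_sub_distrib] at this
        omega
      rw [show ∑ i, u i ^ 2 = 24 * r ^ 2 + 4 * r * (∑ i, q i) + 4 * ∑ i, q i ^ 2 from
        sqNorm_rep e1, ht, ht']
      exact ⟨3 * r ^ 2 + r * t + t', by ring⟩
    obtain ⟨k, hk⟩ := h8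
    rw [hk]
    exact ⟨k, by ring⟩

end CfsgLib.Leech
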