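import Cfsg.Agent.Lib.Leech.Counts
import Cfsg.Agent.Lib.Leech.Index
import Cfsg.Prelude.Def_SporadicCombinatorics

/-! The crosses: classes modulo 2 of norm-64 vectors have exactly 48 members. -/
set_option autoImplicit false
set_option linter.all false
set_option maxHeartbeats 1000000

namespace CfsgLib.Leech

open Cfsg CfsgLib.Golay

theorem dot_self (x : GolayPt → ℤ) : dotInt x x = sqNorm x :=
  Finset.sum_congr rfl fun i _ => (sq (x i)).symm

theorem sqNorm_neg (x : GolayPt → ℤ) : sqNorm (-x) = sqNorm x :=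
  Finset.sum_congr rfl fun i _ => neg_sq (x i)

/-- twice the lattice -/
def twoL : AddSubgroup (GolayPt → ℤ) := leechLattice.map dbl

theorem twoL_le : twoL ≤ leechLattice := by
  rintro _ ⟨z, hz, rfl⟩
  have : dbl z = 2 • z := funext fun i => by simp [dbl]
  rw [this]
  exact nsmul_mem hz 2

theorem mem_twoL {x : GolayPt → ℤ} : x ∈ twoL ↔ ∃ z ∈ leechLattice, x = 2 • z := by
  have e : ∀ z, dbl z = 2 • z := fun z => funext fun i => by simp [dbl]
  constructor
  · rintro ⟨z, hz, rfl⟩; exact ⟨z, hz, e z⟩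
  · rintro ⟨z, hz, rfl⟩; exact ⟨z, hz, e z⟩

/-- the lattice modulo 2 -/
abbrev ModTwoSpace : Type := ↥leechLattice ⧸ twoL.addSubgroupOf leechLattice

theorem card_quot : Nat.card ModTwoSpace = 2 ^ 24 := by
  show (twoL.addSubgroupOf leechLattice).index = _
  rw [← AddSubgroup.relIndex]
  have h := AddSubgroup.relIndex_mul_index twoL_le
  rw [twoL, AddSubgroup.index_map_of_injective (hf := dbl_injective), index_leech,
    index_dbl_range] at h
  rw [twoL]
  generalize (leechLattice.map dbl).relIndex leechLattice = n at h ⊢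
  norm_num at h ⊢
  omega

instance : Finite ModTwoSpace := Nat.finite_of_card_ne_zero (by rw [card_quot]; norm_num)

open Classical in
/-- the class of an integer vector -/
noncomputable def cls (x : GolayPt → ℤ) : ModTwoSpace :=
  if h : x ∈ leechLattice then QuotientAddGroup.mk ⟨x, h⟩ else 0

theorem cls_eq_iff {x y : GolayPt → ℤ} (hx : x ∈ leechLattice) (hy : y ∈ leechLattice) :
    cls x = cls y ↔ ∃ z ∈ leechLattice, x - y = 2 • z := by
  rw [cls, dif_pos hx, cls, dif_pos hy, QuotientAddGroup.eq_iff_sub_mem,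
    AddSubgroup.mem_addSubgroupOf, mem_twoL]
  rfl

theorem normSet_finite {n : ℤ} (h : n ≤ 64) : (normSet n).Finite :=
  bounded_finite fun x hx => hx.2.le.trans h

theorem cls_neg {x : GolayPt → ℤ} (hx : x ∈ leechLattice) : cls (-x) = cls x :=
  (cls_eq_iff (neg_mem hx) hx).2 ⟨-x, neg_mem hx, by rw [two_smul]; abel⟩

theorem norm_cls {a b : ℤ} (ha : a ≤ 64) (hb : b ≤ 64) {x y : GolayPt → ℤ}
    (hx : x ∈ normSet a) (hy : y ∈ normSet b) (h : cls x = cls y) : a = b := by
  by_cases hxy : x = y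
  · rw [← hx.2, hxy, hy.2]
  rcases cong_short hy.1 hxy (hx.2 ▸ ha) (hy.2 ▸ hb) ((cls_eq_iff hx.1 hy.1).1 h) with e | ⟨e1, e2, -⟩
  · rw [← hx.2, e, sqNorm_neg, hy.2]
  · rw [← hx.2, e1, ← e2, hy.2]

theorem zero_cls {x : GolayPt → ℤ} (hx : x ∈ leechLattice) (h0 : x ≠ 0) (hn : sqNorm x ≤ 64) :
    cls x ≠ cls 0 := by
  intro h
  have hz : sqNorm (0 : GolayPt → ℤ) = 0 := by simp [sqNorm]
  rcases cong_short (leechLattice.zero_mem) h0 hn (by rw [hz]; norm_num)
    ((cls_eq_iff hx leechLattice.zero_mem).1 h) with e | ⟨-, e, -⟩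
  · exact h0 (by rw [e, neg_zero])
  · rw [hz] at e; norm_num at e

theorem bessel {S : Finset (GolayPt → ℤ)} (h64 : ∀ y ∈ S, sqNorm y = 64)
    (hneg : ∀ y ∈ S, -y ∈ S) (horth : ∀ y ∈ S, ∀ y' ∈ S, y' ≠ y → y' ≠ -y → dotInt y y' = 0) :
    S.card ≤ 48 := by
  classical
  obtain ⟨s, hs⟩ : ∃ s : GolayPt → ℤ, ∀ i, s i = ∑ y ∈ S, y i ^ 2 := ⟨_, fun _ => rfl⟩
  have key : ∀ i, s i ≤ 128 := by
    intro i
    obtain ⟨p, hp⟩ : ∃ p : GolayPt → ℤ, ∀ j, p j = ∑ y ∈ S, y i * y j := ⟨_, fun _ => rfl⟩
    have hpn : sqNorm p = 128 * s i := by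
      have ej : ∀ j, p j ^ 2 = ∑ y ∈ S, ∑ y' ∈ S, y i * y' i * (y j * y' j) := fun j => by
        rw [hp, sq, Finset.sum_mul_sum]
        exact Finset.sum_congr rfl fun y _ => Finset.sum_congr rfl fun y' _ => by ring
      have e1 : sqNorm p = ∑ y ∈ S, ∑ y' ∈ S, y i * y' i * dotInt y y' := by
        simp only [sqNorm, ej, dotInt, Finset.mul_sum]
        rw [Finset.sum_comm]
        exact Finset.sum_congr rfl fun y _ => Finset.sum_comm
      rw [e1, hs, Finset.mul_sum]
      refine Finset.sum_congr rfl fun y hy => ?_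
      have hne : y ≠ -y := by
        intro e
        have : y = 0 := funext fun j => by
          have := congrFun e j
          simp only [Pi.neg_apply, Pi.zero_apply] at this ⊢
          omega
        have := h64 y hy
        simp [‹y = 0›, sqNorm] at this
      have hdn : dotInt y (-y) = -64 := by
        rw [← h64 y hy, ← dot_self]
        simp [dotInt]
      rw [← Finset.sum_subset (s₁ := {y, -y}) (by
          intro t ht
          simp only [Finset.mem_insert, Finset.mem_singleton] at ht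
          rcases ht with rfl | rfl
          · exact hy
          · exact hneg _ hy)
        (fun y' hy' hnot => by
          simp only [Finset.mem_insert, Finset.mem_singleton, not_or] at hnot
          rw [horth y hy y' hy' hnot.1 hnot.2, mul_zero]),
        Finset.sum_pair hne, dot_self, h64 y hy, hdn, Pi.neg_apply]
      ring
    have hle : p i ^ 2 ≤ sqNorm p :=
      Finset.single_le_sum (f := fun j => p j ^ 2) (fun j _ => sq_nonneg _) (Finset.mem_univ i)
    have hpi : p i = s i := by rw [hp, hs]; exact Finset.sum_congr rfl fun y _ => by ring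
    rw [hpn, hpi] at hle
    by_contra hlt
    nlinarith
  have htot : ∑ i, s i = 64 * (S.card : ℤ) := by
    simp only [hs]
    have hh : ∀ y ∈ S, ∑ i : GolayPt, y i ^ 2 = (64 : ℤ) := h64
    rw [Finset.sum_comm, Finset.sum_congr rfl hh,
      Finset.sum_const, nsmul_eq_mul, mul_comm]
  have := Finset.sum_le_sum (s := (Finset.univ : Finset GolayPt)) fun i _ => key i
  rw [htot, Finset.sum_const, Finset.card_univ, card_pt, nsmul_eq_mul] at this
  omega

theorem image_pairs {n : ℤ} (hn : n < 64) (hn0 : n ≠ 0) (S : Finset (GolayPt → ℤ))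
    (hS : ∀ x, x ∈ S ↔ x ∈ normSet n) [DecidableEq ModTwoSpace] :
    S.card = 2 * (S.image cls).card := by
  rw [Finset.card_eq_sum_card_image cls S, Finset.sum_congr rfl (fun c hc => show _ = 2 from ?_),
    Finset.sum_const, smul_eq_mul, mul_comm]
  obtain ⟨x, hx, rfl⟩ := Finset.mem_image.1 hc
  have hx' := (hS x).1 hx
  have e : S.filter (fun y => cls y = cls x) = {x, -x} := by
    ext y
    simp only [Finset.mem_filter, Finset.mem_insert, Finset.mem_singleton]
    constructor
    · rintro ⟨hy, he⟩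
      have hy' := (hS y).1 hy
      by_cases hyx : y = x
      · exact Or.inl hyx
      rcases cong_short hx'.1 hyx (by rw [hy'.2]; omega) (by rw [hx'.2]; omega)
        ((cls_eq_iff hy'.1 hx'.1).1 he) with h | ⟨h, -, -⟩
      · exact Or.inr h
      · rw [hy'.2] at h; omega
    · rintro (rfl | rfl)
      · exact ⟨hx, rfl⟩
      · exact ⟨(hS _).2 ⟨neg_mem hx'.1, by rw [sqNorm_neg]; exact hx'.2⟩, cls_neg hx'.1⟩
  rw [e, Finset.card_pair]
  intro h
  apply hn0
  have h0 : x = 0 := funext fun i => by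
    have := congrFun h i
    simp only [Pi.neg_apply, Pi.zero_apply] at this ⊢
    omega
  rw [← hx'.2, h0]
  simp [sqNorm]

/-- a class of a norm-64 vector has exactly 48 vectors of norm 64 -/
theorem cross_card {x : GolayPt → ℤ} (hx : x ∈ leechLattice) (hn : sqNorm x = 64) :
    (cross x).ncard = 48 := by
  classical
  haveI := Fintype.ofFinite ModTwoSpace
  obtain ⟨S32, hS32⟩ : ∃ S, S = (normSet_finite (n := 32) (by norm_num)).toFinset := ⟨_, rfl⟩
  obtain ⟨S48, hS48⟩ : ∃ S, S = (normSet_finite (n := 48) (by norm_num)).toFinset := ⟨_, rfl⟩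
  obtain ⟨S64, hS64⟩ : ∃ S, S = (normSet_finite (n := 64) (by norm_num)).toFinset := ⟨_, rfl⟩
  have m32 : ∀ y, y ∈ S32 ↔ y ∈ normSet 32 := fun y => by rw [hS32, Set.Finite.mem_toFinset]
  have m48 : ∀ y, y ∈ S48 ↔ y ∈ normSet 48 := fun y => by rw [hS48, Set.Finite.mem_toFinset]
  have m64 : ∀ y, y ∈ S64 ↔ y ∈ normSet 64 := fun y => by rw [hS64, Set.Finite.mem_toFinset]
  have c32 : S32.card = 196560 := by
    rw [hS32, ← Set.ncard_eq_toFinset_card _ (normSet_finite (by norm_num))]; exact count_32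
  have c48 : S48.card = 16773120 := by
    rw [hS48, ← Set.ncard_eq_toFinset_card _ (normSet_finite (by norm_num))]; exact count_48
  have c64 : S64.card = 398034000 := by
    rw [hS64, ← Set.ncard_eq_toFinset_card _ (normSet_finite (by norm_num))]; exact count_64
  have i32 := image_pairs (by norm_num) (by norm_num) S32 m32
  have i48 := image_pairs (by norm_num) (by norm_num) S48 m48
  have hfib : ∀ y ∈ S64, (S64.filter fun z => cls z = cls y).card ≤ 48 := by
    intro y hy
    refine bessel (fun z hz => ((m64 z).1 (Finset.mem_filter.1 hz).1).2) (fun z hz => ?_) ?_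
    · obtain ⟨h1, h2⟩ := Finset.mem_filter.1 hz
      have h1' := (m64 z).1 h1
      exact Finset.mem_filter.2 ⟨(m64 _).2 ⟨neg_mem h1'.1, by rw [sqNorm_neg]; exact h1'.2⟩,
        (cls_neg h1'.1).trans h2⟩
    · intro z hz z' hz' hne hne'
      obtain ⟨h1, h2⟩ := Finset.mem_filter.1 hz
      obtain ⟨h1', h2'⟩ := Finset.mem_filter.1 hz'
      have g1 := (m64 z).1 h1
      have g1' := (m64 z').1 h1'
      rcases cong_short g1'.1 (Ne.symm hne) (le_of_eq g1.2) (le_of_eq g1'.2)
        ((cls_eq_iff g1.1 g1'.1).1 (h2.trans h2'.symm)) with e | ⟨-, -, e⟩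
      · exact absurd (by rw [e, neg_neg]) hne'
      · exact e
  have hdis : ∀ (a b : ℤ) (Sa Sb : Finset (GolayPt → ℤ)), a ≤ 64 → b ≤ 64 → a ≠ b →
      (∀ y, y ∈ Sa ↔ y ∈ normSet a) → (∀ y, y ∈ Sb ↔ y ∈ normSet b) →
      Disjoint (Sa.image cls) (Sb.image cls) := by
    intro a b Sa Sb ha hb hab hma hmb
    rw [Finset.disjoint_left]
    rintro _ hc hc'
    obtain ⟨y, hy, rfl⟩ := Finset.mem_image.1 hc
    obtain ⟨y', hy', e⟩ := Finset.mem_image.1 hc'
    exact hab (norm_cls ha hb ((hma y).1 hy) ((hmb y').1 hy') e.symm)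
  have hbound : (S32.image cls).card + (S48.image cls).card + (S64.image cls).card + 1 ≤ 2 ^ 24 := by
    rw [← card_quot, Nat.card_eq_fintype_card,
      ← Finset.card_union_of_disjoint (hdis 32 48 _ _ (by norm_num) (by norm_num) (by norm_num) m32 m48),
      ← Finset.card_union_of_disjoint (Finset.disjoint_union_left.2
        ⟨hdis 32 64 _ _ (by norm_num) le_rfl (by norm_num) m32 m64,
          hdis 48 64 _ _ (by norm_num) le_rfl (by norm_num) m48 m64⟩),
      ← Finset.card_insert_of_notMem (a := cls 0)]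
    · exact Finset.card_le_univ _
    · simp only [Finset.mem_union, Finset.mem_image, m32, m48, m64]
      have hne : ∀ (a : ℤ), 0 < a → a ≤ 64 → ∀ y ∈ normSet a, cls y ≠ cls 0 := fun a h0 ha y hy =>
        zero_cls hy.1 (fun h => by
          have := hy.2; rw [h] at this; simp [sqNorm] at this; omega) (hy.2 ▸ ha)
      rintro ((⟨y, hy, e⟩ | ⟨y, hy, e⟩) | ⟨y, hy, e⟩)
      · exact hne 32 (by norm_num) (by norm_num) y hy e
      · exact hne 48 (by norm_num) (by norm_num) y hy e
      · exact hne 64 (by norm_num) le_rfl y hy e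
  have hsum := Finset.card_eq_sum_card_image cls S64
  have hle48 : ∀ c ∈ S64.image cls, (S64.filter fun z => cls z = c).card ≤ 48 := fun c hc => by
    obtain ⟨y, hy, rfl⟩ := Finset.mem_image.1 hc; exact hfib y hy
  have hxS : x ∈ S64 := (m64 x).2 ⟨hx, hn⟩
  have hge := Finset.sum_le_sum hle48
  rw [Finset.sum_const, smul_eq_mul] at hge
  have heq : (S64.filter fun z => cls z = cls x).card = 48 := by
    by_contra hne
    have hlt : ∑ c ∈ S64.image cls, (S64.filter fun z => cls z = c).card <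
        ∑ _c ∈ S64.image cls, 48 :=
      Finset.sum_lt_sum hle48
        ⟨cls x, Finset.mem_image_of_mem _ hxS, lt_of_le_of_ne (hfib x hxS) hne⟩
    rw [Finset.sum_const, smul_eq_mul] at hlt
    norm_num at hbound
    omega
  have hset : cross x = ↑(S64.filter fun z => cls z = cls x) := by
    ext y
    simp only [Finset.coe_filter, Set.mem_setOf_eq, cross, m64, normSet]
    constructor
    · rintro ⟨hy, hyn, z, hz, e⟩
      exact ⟨⟨hy, hyn.trans hn⟩, ((cls_eq_iff hx hy).2 ⟨z, hz, e⟩).symm⟩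
    · rintro ⟨⟨hy, hyn⟩, e⟩
      exact ⟨hy, hyn.trans hn.symm, (cls_eq_iff hx hy).1 e.symm⟩
  rw [hset, Set.ncard_coe_finset, heq]

end CfsgLib.Leech
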