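import Cfsg.Agent.Lib.Leech.Gen
import Cfsg.Agent.Lib.Golay.Transitive
import Cfsg.Agent.Lib.Golay.Cosets

/-! Every class of the lattice modulo 2 has a vector of sum of squares at most 64. -/
set_option autoImplicit false
set_option linter.all false
set_option maxRecDepth 8000

namespace CfsgLib.Leech

open Cfsg CfsgLib.Golay
open scoped symmDiff Pointwise

/-- some octad through the points `i, j, k` meets the standard octad in four points -/
noncomputable def tripleOk (i j k : ℕ) : Bool :=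
  octO.testBit i || octO.testBit j || octO.testBit k || decide (i = j) || decide (i = k) ||
    decide (j = k) || octList.any (fun b => b.testBit i && b.testBit j && b.testBit k &&
      (pc (b &&& octO) == 4))

theorem triple_check : (List.range 24).all (fun i => (List.range 24).all fun j =>
    decide (j ≤ i) || (List.range 24).all fun k => decide (k ≤ j) || tripleOk i j k) = true := by
  decide +kernel

/-- some octad through the points `i, j` meets the standard dodecad in six points -/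
noncomputable def pairOk (i j : ℕ) : Bool :=
  dodD.testBit i || dodD.testBit j || decide (i = j) || octList.any (fun b => b.testBit i &&
    b.testBit j && (pc (b &&& dodD) == 6))

theorem pair_check : (List.range 24).all (fun i => (List.range 24).all fun j =>
    decide (j ≤ i) || pairOk i j) = true := by
  decide +kernel

theorem oct_isW {b : Finset GolayPt} (hb : b ∈ octads) : IsW b ∧ b.card = 8 := hb

theorem smul_card' (a : Equiv.Perm GolayPt) (s : Finset GolayPt) : (a • s).card = s.card :=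
  Finset.card_smul_finset a s

theorem octad_three {o : Finset GolayPt} (ho : o ∈ octads) {p : Finset GolayPt} (hp : p.card = 3)
    (hpo : Disjoint p o) : ∃ b, IsW b ∧ p ⊆ b ∧ b.card = 8 ∧ (b ∩ o).card = 4 := by
  obtain ⟨a, ha, hao⟩ := exists_octO ho
  have hq : (a⁻¹ • p).card = 3 := by rw [smul_card', hp]
  have hqo : Disjoint (a⁻¹ • p) (toSet octO) := by
    rw [Finset.disjoint_left]
    intro x hx hx'
    rw [Finset.mem_inv_smul_finset_iff] at hx
    have : a • x ∈ o := hao ▸ Finset.smul_mem_smul_finset hx'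
    exact Finset.disjoint_left.1 hpo hx this
  have hqp : a • (a⁻¹ • p) = p := smul_inv_smul a p
  generalize a⁻¹ • p = q at hq hqo hqp
  obtain ⟨x, y, z, hxy, hxz, hyz, rfl⟩ := Finset.card_eq_three.1 hq
  have nm : ∀ w ∈ ({x, y, z} : Finset GolayPt), octO.testBit (idx w) = false := fun w hw => by
    have := Finset.disjoint_left.1 hqo hw
    rw [mem_toSet] at this
    simpa using this
  have fin : ∀ i j k : GolayPt, idx i < idx j → idx j < idx k →
      ({i, j, k} : Finset GolayPt) = {x, y, z} →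
      ∃ b, IsW b ∧ p ⊆ b ∧ b.card = 8 ∧ (b ∩ o).card = 4 := by
    intro i j k hij hjk heq
    have h := List.all_eq_true.1 (List.all_eq_true.1 triple_check (idx i)
      (List.mem_range.2 (idx_lt i))) (idx j) (List.mem_range.2 (idx_lt j))
    rw [decide_eq_false (by omega : ¬ idx j ≤ idx i), Bool.false_or] at h
    have h := List.all_eq_true.1 h (idx k) (List.mem_range.2 (idx_lt k))
    rw [decide_eq_false (by omega : ¬ idx k ≤ idx j), Bool.false_or] at h
    simp only [tripleOk, nm i (heq ▸ by simp), nm j (heq ▸ by simp), nm k (heq ▸ by simp),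
      decide_eq_false (by omega : ¬ idx i = idx j), decide_eq_false (by omega : ¬ idx i = idx k),
      decide_eq_false (by omega : ¬ idx j = idx k), Bool.false_or, List.any_eq_true,
      Bool.and_eq_true, beq_iff_eq] at h
    obtain ⟨b, hb, ⟨⟨hbi, hbj⟩, hbk⟩, hb4⟩ := h
    obtain ⟨hW, h8⟩ := oct_isW (toSet_mem_octads hb)
    refine ⟨a • toSet b, isW_smul ha hW, ?_, ?_, ?_⟩
    · rw [← hqp, ← heq]
      refine Finset.smul_finset_subset_smul_finset ?_
      intro w hw
      simp only [Finset.mem_insert, Finset.mem_singleton] at hw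
      rw [mem_toSet]
      rcases hw with rfl | rfl | rfl <;> assumption
    · rw [smul_card', h8]
    · rw [← hao, ← Finset.smul_finset_inter, smul_card', ← toSet_and, card_toSet, hb4]
  have n1 : idx x ≠ idx y := fun h => hxy (idx_inj.1 h)
  have n2 : idx x ≠ idx z := fun h => hxz (idx_inj.1 h)
  have n3 : idx y ≠ idx z := fun h => hyz (idx_inj.1 h)
  rcases Nat.lt_or_gt_of_ne n1 with h | h <;> rcases Nat.lt_or_gt_of_ne n2 with h' | h' <;>
    rcases Nat.lt_or_gt_of_ne n3 with h'' | h''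
  all_goals first
    | exact fin x y z (by omega) (by omega) rfl
    | exact fin x z y (by omega) (by omega) (by ext w; simp; tauto)
    | exact fin y x z (by omega) (by omega) (by ext w; simp; tauto)
    | exact fin y z x (by omega) (by omega) (by ext w; simp; tauto)
    | exact fin z x y (by omega) (by omega) (by ext w; simp; tauto)
    | exact fin z y x (by omega) (by omega) (by ext w; simp; tauto)
    | omega

theorem octad_two {d : Finset GolayPt} (hd : d ∈ dodecads) {p : Finset GolayPt} (hp : p.card = 2)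
    (hpd : Disjoint p d) : ∃ b, IsW b ∧ p ⊆ b ∧ b.card = 8 ∧ (b ∩ d).card = 6 := by
  obtain ⟨a, ha, had⟩ := exists_dodD hd
  have hq : (a⁻¹ • p).card = 2 := by rw [smul_card', hp]
  have hqd : Disjoint (a⁻¹ • p) (toSet dodD) := by
    rw [Finset.disjoint_left]
    intro x hx hx'
    rw [Finset.mem_inv_smul_finset_iff] at hx
    have : a • x ∈ d := had ▸ Finset.smul_mem_smul_finset hx'
    exact Finset.disjoint_left.1 hpd hx this
  have hqp : a • (a⁻¹ • p) = p := smul_inv_smul a p
  generalize a⁻¹ • p = q at hq hqd hqp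
  obtain ⟨x, y, hxy, rfl⟩ := Finset.card_eq_two.1 hq
  have nm : ∀ w ∈ ({x, y} : Finset GolayPt), dodD.testBit (idx w) = false := fun w hw => by
    have := Finset.disjoint_left.1 hqd hw
    rw [mem_toSet] at this
    simpa using this
  have fin : ∀ i j : GolayPt, idx i < idx j → ({i, j} : Finset GolayPt) = {x, y} →
      ∃ b, IsW b ∧ p ⊆ b ∧ b.card = 8 ∧ (b ∩ d).card = 6 := by
    intro i j hij heq
    have h := List.all_eq_true.1 (List.all_eq_true.1 pair_check (idx i)
      (List.mem_range.2 (idx_lt i))) (idx j) (List.mem_range.2 (idx_lt j))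
    rw [decide_eq_false (by omega : ¬ idx j ≤ idx i), Bool.false_or] at h
    simp only [pairOk, nm i (heq ▸ by simp), nm j (heq ▸ by simp),
      decide_eq_false (by omega : ¬ idx i = idx j), Bool.false_or, List.any_eq_true,
      Bool.and_eq_true, beq_iff_eq] at h
    obtain ⟨b, hb, ⟨hbi, hbj⟩, hb6⟩ := h
    obtain ⟨hW, h8⟩ := oct_isW (toSet_mem_octads hb)
    refine ⟨a • toSet b, isW_smul ha hW, ?_, ?_, ?_⟩
    · rw [← hqp, ← heq]
      refine Finset.smul_finset_subset_smul_finset ?_
      intro w hw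
      simp only [Finset.mem_insert, Finset.mem_singleton] at hw
      rw [mem_toSet]
      rcases hw with rfl | rfl <;> assumption
    · rw [smul_card', h8]
    · rw [← had, ← Finset.smul_finset_inter, smul_card', ← toSet_and, card_toSet, hb6]
  rcases Nat.lt_or_gt_of_ne (fun h => hxy (idx_inj.1 h) : idx x ≠ idx y) with h | h
  · exact fin x y h rfl
  · exact fin y x h (Finset.pair_comm y x)

theorem sdiff_symmDiff_card (T b s : Finset GolayPt) :
    ((T ∆ b) \ s).card + 2 * ((T ∩ b) \ s).card = (T \ s).card + (b \ s).card := by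
  have e : (T ∆ b) \ s = ((T \ s) \ (b \ s)) ∪ ((b \ s) \ (T \ s)) := by
    ext x; simp [Finset.mem_symmDiff]; tauto
  have e' : (T ∩ b) \ s = (T \ s) ∩ (b \ s) := by
    ext x; simp; tauto
  rw [e, e', Finset.card_union_of_disjoint disjoint_sdiff_sdiff]
  have h1 := Finset.card_sdiff_add_card_inter (T \ s) (b \ s)
  have h2 := Finset.card_sdiff_add_card_inter (b \ s) (T \ s)
  rw [Finset.inter_comm (b \ s)] at h2
  omega

theorem reduce_oct {o : Finset GolayPt} (ho : o ∈ octads) (T : Finset GolayPt) :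
    ∃ D, IsW D ∧ ((T ∆ D) \ o).card ≤ 2 := by
  induction hn : (T \ o).card using Nat.strong_induction_on generalizing T with
  | _ n ih =>
    by_cases h2 : n ≤ 2
    · exact ⟨∅, isW_empty, by rw [show (∅ : Finset GolayPt) = ⊥ from rfl, symmDiff_bot, hn]; exact h2⟩
    · obtain ⟨p, hp, hp3⟩ := Finset.exists_subset_card_eq (s := T \ o) (n := 3) (by omega)
      obtain ⟨b, hbW, hpb, hb8, hb4⟩ := octad_three ho hp3
        (Finset.disjoint_left.2 fun x hx => (Finset.mem_sdiff.1 (hp hx)).2)
      have hge : 3 ≤ ((T ∩ b) \ o).card := hp3 ▸ Finset.card_le_card fun x hx => by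
        have := Finset.mem_sdiff.1 (hp hx)
        simp [hpb hx, this.1, this.2]
      have hbo := Finset.card_sdiff_add_card_inter b o
      have h := sdiff_symmDiff_card T b o
      obtain ⟨D, hD, hcard⟩ := ih _ (by omega) (T ∆ b) rfl
      exact ⟨b ∆ D, isW_symmDiff hbW hD, by rwa [← symmDiff_assoc]⟩

theorem reduce_dod {d : Finset GolayPt} (hd : d ∈ dodecads) (T : Finset GolayPt) :
    ∃ D, IsW D ∧ ((T ∆ D) \ d).card ≤ 1 ∧ (2 ∣ (T \ d).card → ((T ∆ D) \ d).card = 0) := by
  induction hn : (T \ d).card using Nat.strong_induction_on generalizing T with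
  | _ n ih =>
    by_cases h2 : n ≤ 1
    · refine ⟨∅, isW_empty, ?_⟩
      rw [show (∅ : Finset GolayPt) = ⊥ from rfl, symmDiff_bot, hn]
      exact ⟨h2, fun h => by omega⟩
    · obtain ⟨p, hp, hp2⟩ := Finset.exists_subset_card_eq (s := T \ d) (n := 2) (by omega)
      obtain ⟨b, hbW, hpb, hb8, hb6⟩ := octad_two hd hp2
        (Finset.disjoint_left.2 fun x hx => (Finset.mem_sdiff.1 (hp hx)).2)
      have hge : 2 ≤ ((T ∩ b) \ d).card := hp2 ▸ Finset.card_le_card fun x hx => by
        have := Finset.mem_sdiff.1 (hp hx)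
        simp [hpb hx, this.1, this.2]
      have hle : ((T ∩ b) \ d).card ≤ (b \ d).card :=
        Finset.card_le_card fun x hx => by simp at hx ⊢; tauto
      have hbd := Finset.card_sdiff_add_card_inter b d
      have h := sdiff_symmDiff_card T b d
      obtain ⟨D, hD, hcard, heven⟩ := ih _ (by omega) (T ∆ b) rfl
      refine ⟨b ∆ D, isW_symmDiff hbW hD, ?_, fun he => ?_⟩
      · rwa [← symmDiff_assoc]
      · rw [← symmDiff_assoc]
        exact heven (by omega)

/-- congruence modulo twice the lattice -/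
def Cong (x y : GolayPt → ℤ) : Prop := ∃ z ∈ leechLattice, x - y = 2 • z

/-- the shapes produced by the reduction -/
def Nice (y : GolayPt → ℤ) : Prop :=
  sqNorm y < 64 ∨ ((2 : ℤ) ∣ y none ∧ (Finset.univ.filter fun i => y i % 4 = 2).card ≤ 12) ∨
    ∃ i, y i = 5 ∨ y i = -5

/-- a congruent vector of sum of squares at most 64 and of nice shape exists -/
def Short (x : GolayPt → ℤ) : Prop :=
  ∃ y ∈ leechLattice, sqNorm y ≤ 64 ∧ Nice y ∧ Cong x y

theorem nice_flip {c : Finset GolayPt} {y : GolayPt → ℤ} (h : Nice y) : Nice (flipOn c y) := by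
  rcases h with h | ⟨h, hc⟩ | ⟨i, hi⟩
  · exact Or.inl (by rwa [sqNorm_flipOn])
  · refine Or.inr (Or.inl ⟨?_, ?_⟩)
    · simp only [flipOn]; split_ifs <;> omega
    · convert hc using 3
      rename_i i
      simp only [flipOn]
      split_ifs <;> omega
  · refine Or.inr (Or.inr ⟨i, ?_⟩)
    simp only [flipOn]; split_ifs <;> omega

theorem Cong.short {x x' : GolayPt → ℤ} (h : Cong x x') (h' : Short x') : Short x := by
  obtain ⟨z, hz, e⟩ := h
  obtain ⟨y, hy, hn, hni, w, hw, e'⟩ := h'
  exact ⟨y, hy, hn, hni, z + w, add_mem hz hw, by rw [smul_add, ← e, ← e']; abel⟩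

theorem cong_add {x w : GolayPt → ℤ} (hw : w ∈ leechLattice) : Cong x (x + 2 • w) :=
  ⟨-w, neg_mem hw, by rw [smul_neg]; abel⟩

theorem mem_of_cong {x y : GolayPt → ℤ} (hx : x ∈ leechLattice) (h : Cong x y) :
    y ∈ leechLattice := by
  obtain ⟨z, hz, e⟩ := h
  rw [show y = x - 2 • z by rw [← e]; abel]
  exact sub_mem hx (nsmul_mem hz 2)

theorem four_vec_mem {v : GolayPt → ℤ} (hv : (2 : ℤ) ∣ ∑ i, v i) :
    (fun i => 4 * v i) ∈ leechLattice := minGrp_eq ▸ four_mem hv

theorem word_mem {D : Finset GolayPt} (hD : IsW D) :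
    (fun i => if i ∈ D then (2 : ℤ) else 0) ∈ leechLattice := by
  refine rep_mem (m := 0) (u := fun i => if i ∈ D then 1 else 0) ⟨fun i => ?_, ?_, ?_⟩
  · dsimp only; split_ifs <;> norm_num
  · rw [show odds (fun i => if i ∈ D then (1 : ℤ) else 0) = D by
      ext i; rw [mem_odds]; split_ifs with h <;> simp [h]]
    exact hD
  · simp only [Finset.sum_ite_mem, Finset.univ_inter, Finset.sum_const, nsmul_eq_mul, mul_one]
    obtain ⟨k, hk⟩ := isW_four_dvd hD
    rw [hk]
    exact ⟨k, by push_cast; ring⟩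

theorem short_flip {c : Finset GolayPt} (hc : IsW c) {x : GolayPt → ℤ}
    (h : Short (flipOn c x)) : Short x := by
  obtain ⟨y, hy, hn, hni, z, hz, e⟩ := h
  refine ⟨flipOn c y, flipOn_mem hc hy, by rwa [sqNorm_flipOn], nice_flip hni, flipOn c z, flipOn_mem hc hz, ?_⟩
  funext i
  have := congrFun e i
  simp only [Pi.sub_apply, Pi.smul_apply, flipOn, nsmul_eq_mul] at this ⊢
  split_ifs at this ⊢ <;> linarith

/-- two vectors congruent mod 8, of which one or a one-coordinate change works -/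
theorem short_of_mod8 {x z : GolayPt → ℤ} (hx : x ∈ leechLattice) (h : ∀ i, (8 : ℤ) ∣ x i - z i)
    (hn : sqNorm z ≤ 64) (hni : Nice z)
    (halt : ∀ v : GolayPt → ℤ, (∀ i, x i - z i = 8 * v i) → ¬ (2 : ℤ) ∣ ∑ i, v i → Short x) :
    Short x := by
  choose v hv using h
  by_cases he : (2 : ℤ) ∣ ∑ i, v i
  · have hc : Cong x z := ⟨_, four_vec_mem he, funext fun i => by
      simp only [Pi.sub_apply, Pi.smul_apply, nsmul_eq_mul, hv i]; push_cast; ring⟩
    exact ⟨z, mem_of_cong hx hc, hn, hni, hc⟩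
  · exact halt v hv he

theorem short_change {x z : GolayPt → ℤ} (hx : x ∈ leechLattice) {v : GolayPt → ℤ}
    (hv : ∀ i, x i - z i = 8 * v i) (ho : ¬ (2 : ℤ) ∣ ∑ i, v i) (j : GolayPt) (s : ℤ)
    (hs : s = 1 ∨ s = -1) (hn : sqNorm z + (z j + 8 * s) ^ 2 - z j ^ 2 ≤ 64)
    (hni : Nice (z + (Pi.single j (8 * s) : GolayPt → ℤ))) : Short x := by
  refine short_of_mod8 hx (z := z + (Pi.single j (8 * s) : GolayPt → ℤ)) (fun i => ?_) ?_ hni fun v' hv' ho' => ?_
  · refine ⟨v i - (Pi.single j s : GolayPt → ℤ) i, ?_⟩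
    simp only [Pi.add_apply, Pi.single_apply]
    have := hv i
    split_ifs <;> linarith
  · have e : ∀ i, (z + Pi.single j (8 * s) : GolayPt → ℤ) i ^ 2 =
        z i ^ 2 + if i = j then (z j + 8 * s) ^ 2 - z j ^ 2 else 0 := fun i => by
      simp only [Pi.add_apply, Pi.single_apply]
      split_ifs with h
      · subst h; ring
      · ring
    unfold sqNorm at hn ⊢
    simp only [e, Finset.sum_add_distrib, Finset.sum_ite_eq', Finset.mem_univ, if_true]
    linarith
  · exfalso
    have e : ∀ i, v' i = v i - (Pi.single j s : GolayPt → ℤ) i := fun i => by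
      have h1 := hv' i
      have h2 := hv i
      simp only [Pi.add_apply, Pi.single_apply] at h1 ⊢
      split_ifs at h1 ⊢ <;> linarith
    simp only [e, Finset.sum_sub_distrib, Finset.sum_pi_single', Finset.mem_univ, if_true] at ho'
    omega

/-- balanced residue modulo 8 -/
def res8 (a : ℤ) : ℤ := (a + 3) % 8 - 3

theorem dvd_res8 (a : ℤ) : (8 : ℤ) ∣ a - res8 a := by unfold res8; omega

theorem res8_odd {a : ℤ} (h : a % 4 = 1) :
    (a % 8 = 1 ∧ res8 a = 1) ∨ (a % 8 = 5 ∧ res8 a = -3) := by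
  unfold res8; omega

theorem short_odd {x : GolayPt → ℤ} {m : ℤ} {u : GolayPt → ℤ} (h : IsRep x m u)
    (hm : ¬ (2 : ℤ) ∣ m) : Short x := by
  obtain ⟨h1, h2, h3⟩ := h
  have hS : IsW (Finset.univ.filter fun i => x i % 4 = 3) := by
    obtain ⟨_, -, -, hres⟩ := mem_lattice_iff_set.1 (rep_mem ⟨h1, h2, h3⟩)
    exact hres 3
  refine short_flip hS ?_
  obtain ⟨x', hx'd⟩ : ∃ x', x' = flipOn (Finset.univ.filter fun i => x i % 4 = 3) x := ⟨_, rfl⟩
  rw [← hx'd]
  have hx' : x' ∈ leechLattice := hx'd ▸ flipOn_mem hS (rep_mem ⟨h1, h2, h3⟩)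
  have h4 : ∀ i, x' i % 4 = 1 := fun i => by
    rw [hx'd]
    simp only [flipOn, Finset.mem_filter, Finset.mem_univ, true_and]
    have := h1 i
    split_ifs <;> omega
  clear h1 h2 h3 hS hx'd
  obtain ⟨m', u', g1, g2, g3⟩ := mem_leechLattice.1 hx'
  obtain ⟨T, hT⟩ : ∃ T : Finset GolayPt, T = Finset.univ.filter fun i => x' i % 8 = 5 := ⟨_, rfl⟩
  have hTodd : ¬ 2 ∣ T.card := by
    have hm' : ¬ (2 : ℤ) ∣ m' := by have := h4 none; have := g1 none; omega
    have hsum := sum_rep g1
    have e : (8 : ℤ) ∣ ∑ i, (x' i - 1 - if i ∈ T then (4 : ℤ) else 0) := by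
      refine Finset.dvd_sum fun i _ => ?_
      have := h4 i
      simp only [hT, Finset.mem_filter, Finset.mem_univ, true_and]
      split_ifs <;> omega
    simp only [Finset.sum_sub_distrib, Finset.sum_ite_mem, Finset.univ_inter, Finset.sum_const,
      Finset.card_univ, card_pt, nsmul_eq_mul] at e
    omega
  obtain ⟨L, hL, hLpc, hLc⟩ := exists_leader (toMask_lt T)
  obtain ⟨D, hD⟩ : ∃ D : Finset GolayPt, D = T ∆ toSet L := ⟨_, rfl⟩
  have hDW : IsW D := by
    rw [isW_iff, hD, toMask_symmDiff, toMask_toSet hL]; exact hLc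
  refine Cong.short (cong_add (word_mem hDW)) ?_
  obtain ⟨y, hy⟩ : ∃ y, y = x' + 2 • (fun i => if i ∈ D then (2 : ℤ) else 0) := ⟨_, rfl⟩
  rw [← hy]
  have hyL : y ∈ leechLattice := hy ▸ mem_of_cong hx' (cong_add (word_mem hDW))
  have hyv : ∀ i, (i ∈ toSet L ∧ res8 (y i) = -3) ∨ (i ∉ toSet L ∧ res8 (y i) = 1) := fun i => by
    have := h4 i
    have hyi : y i = x' i + if i ∈ D then 4 else 0 := by
      rw [hy]; by_cases hh : i ∈ D <;> simp [hh]
    have hiD : i ∈ D ↔ ¬ (i ∈ T ↔ i ∈ toSet L) := by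
      rw [hD, Finset.mem_symmDiff]; tauto
    have hiT : i ∈ T ↔ x' i % 8 = 5 := by simp [hT]
    by_cases hL' : i ∈ toSet L <;> by_cases hTi : i ∈ T
    · refine Or.inl ⟨hL', ?_⟩
      rw [if_neg (by rw [hiD]; simp [hL', hTi])] at hyi
      have := hiT.1 hTi; unfold res8; omega
    · refine Or.inl ⟨hL', ?_⟩
      rw [if_pos (hiD.2 (by simp [hL', hTi]))] at hyi
      have : ¬ x' i % 8 = 5 := fun h => hTi (hiT.2 h)
      unfold res8; omega
    · refine Or.inr ⟨hL', ?_⟩
      rw [if_pos (hiD.2 (by simp [hL', hTi]))] at hyi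
      have := hiT.1 hTi; unfold res8; omega
    · refine Or.inr ⟨hL', ?_⟩
      rw [if_neg (by rw [hiD]; simp [hL', hTi])] at hyi
      have : ¬ x' i % 8 = 5 := fun h => hTi (hiT.2 h)
      unfold res8; omega
  have hcard : (toSet L).card = 1 ∨ (toSet L).card = 3 := by
    have h4d := isW_four_dvd hDW
    have := sdiff_symmDiff_card T (toSet L) ∅
    simp only [Finset.sdiff_empty] at this
    rw [← hD] at this
    have : (toSet L).card ≤ 4 := by rw [card_toSet]; exact hLpc
    omega
  have hnorm : sqNorm (fun i => res8 (y i)) = 24 + 8 * ((toSet L).card : ℤ) := by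
    have e : ∀ i, res8 (y i) ^ 2 = 1 + if i ∈ toSet L then (8 : ℤ) else 0 := fun i => by
      rcases hyv i with ⟨h, e⟩ | ⟨h, e⟩ <;> simp [h, e]
    simp only [sqNorm, e, Finset.sum_add_distrib, Finset.sum_ite_mem, Finset.univ_inter,
      Finset.sum_const, Finset.card_univ, card_pt, nsmul_eq_mul]
    push_cast
    ring
  refine short_of_mod8 hyL (z := fun i => res8 (y i)) (fun i => dvd_res8 (y i))
    (by rw [hnorm]; omega) (Or.inl (by rw [hnorm]; omega)) fun v hv ho => ?_
  obtain ⟨j, hj⟩ := Finset.card_pos.1 (by omega : 0 < (toSet L).card)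
  have hjv : res8 (y j) = -3 := by
    rcases hyv j with ⟨h, e⟩ | ⟨h, e⟩
    · exact e
    · exact absurd hj h
  refine short_change hyL hv ho j 1 (Or.inl rfl) ?_ (Or.inr (Or.inr ⟨j, Or.inl ?_⟩))
  · show _ + (res8 (y j) + 8 * 1) ^ 2 - res8 (y j) ^ 2 ≤ _
    rw [hnorm, hjv]
    omega
  · simp [Pi.add_apply, hjv]

theorem res8_even {a : ℤ} (h : (2 : ℤ) ∣ a) :
    (a % 8 = 0 ∧ res8 a = 0) ∨ (a % 8 = 4 ∧ res8 a = 4) ∨
      (a % 4 = 2 ∧ (res8 a = 2 ∨ res8 a = -2)) := by
  unfold res8; omega

/-- the dodecad case with a wrong parity: pass to the complementary dodecad -/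
theorem short_special {x z : GolayPt → ℤ} (hx : x ∈ leechLattice) {d : Finset GolayPt}
    (hd : d ∈ dodecads) (hz : ∀ i, (i ∈ d ∧ (z i = 2 ∨ z i = -2)) ∨ (i ∉ d ∧ z i = 0))
    {v : GolayPt → ℤ} (hv : ∀ i, x i - z i = 8 * v i) (ho : ¬ (2 : ℤ) ∣ ∑ i, v i) : Short x := by
  obtain ⟨P, hP⟩ : ∃ P : Finset GolayPt, P = d.filter fun i => z i = 2 := ⟨_, rfl⟩
  have hPeven : 2 ∣ P.card := by
    obtain ⟨m, u, h1, h2, h3⟩ := mem_leechLattice.1 hx
    have hs := sum_rep h1
    have hm : (2 : ℤ) ∣ m := by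
      have := hv none; have := h1 none
      rcases hz none with ⟨-, h⟩ | ⟨-, h⟩ <;> omega
    have e1 : ∀ i, x i = 8 * v i + (if i ∈ P then (4 : ℤ) else 0) - if i ∈ d then 2 else 0 := by
      intro i
      have := hv i
      simp only [hP, Finset.mem_filter]
      rcases hz i with ⟨hi, h | h⟩ | ⟨hi, h⟩ <;> simp [hi, h] <;> linarith
    have hd12 : d.card = 12 := hd.2
    simp only [e1, Finset.sum_sub_distrib, Finset.sum_add_distrib, ← Finset.mul_sum,
      Finset.sum_ite_mem, Finset.univ_inter, Finset.sum_const, nsmul_eq_mul, hd12,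
      Nat.cast_ofNat] at hs
    omega
  obtain ⟨D0, hD0, -, heven⟩ := reduce_dod (compl_dodecad hd) P
  have hsub : ∀ i ∈ d, (i ∈ P ↔ i ∈ D0) := by
    intro i hi
    have h0 := heven (by
      rwa [Finset.sdiff_eq_self_iff_disjoint.2 (Finset.disjoint_left.2 fun x hx hx' => by
        rw [hP] at hx; exact Finset.mem_compl.1 hx' (Finset.mem_filter.1 hx).1)])
    rw [Finset.card_eq_zero] at h0
    have : i ∉ (P ∆ D0) \ dᶜ := by rw [h0]; exact Finset.notMem_empty i
    simp [Finset.mem_symmDiff, hi] at this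
    tauto
  obtain ⟨j, hj⟩ := Finset.card_pos.1 (by rw [Finset.card_compl, card_pt, hd.2]; norm_num :
    0 < dᶜ.card)
  obtain ⟨w, hw⟩ : ∃ w : GolayPt → ℤ, ∀ i, w i = 1 - 2 * (if i ∈ D0 then 1 else 0) :=
    ⟨_, fun _ => rfl⟩
  obtain ⟨k, hk⟩ := isW_four_dvd hD0
  have hwL : w + Pi.single j 4 ∈ leechLattice := by
    refine rep_mem (m := 1) (u := fun i => (if i = j then 2 else 0) - if i ∈ D0 then 1 else 0)
      ⟨fun i => ?_, ?_, ?_⟩
    · simp only [Pi.add_apply, Pi.single_apply, hw i]
      split_ifs <;> norm_num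
    · rw [show odds (fun i => (if i = j then (2 : ℤ) else 0) - if i ∈ D0 then 1 else 0) = D0 by
        ext i; rw [mem_odds]; split_ifs with h h' h' <;> simp [h']]
      exact hD0
    · simp only [Finset.sum_sub_distrib, Finset.sum_ite_mem, Finset.univ_inter, Finset.sum_const,
        Finset.sum_ite_eq', Finset.mem_univ, if_true, nsmul_eq_mul, mul_one, hk]
      exact ⟨-k, by push_cast; ring⟩
  have hvj : (2 : ℤ) ∣ ∑ i, (v + Pi.single j 1 : GolayPt → ℤ) i := by
    simp only [Pi.add_apply, Finset.sum_add_distrib, Finset.sum_pi_single', Finset.mem_univ,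
      if_true]
    omega
  have hc : Cong x (fun i => z i + 2 * w i) := by
    refine ⟨_, sub_mem (four_vec_mem hvj) hwL, funext fun i => ?_⟩
    have := hv i
    simp only [Pi.sub_apply, Pi.add_apply, Pi.smul_apply, nsmul_eq_mul, Pi.single_apply]
    push_cast
    split_ifs <;> linarith
  suffices h48 : sqNorm (fun i => z i + 2 * w i) < 64 from
    ⟨_, mem_of_cong hx hc, h48.le, Or.inl h48, hc⟩
  have e : ∀ i, (z i + 2 * w i) ^ 2 = if i ∈ d then (0 : ℤ) else 4 := by
    intro i
    rw [hw i]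
    rcases hz i with ⟨hi, h⟩ | ⟨hi, h⟩
    · have := hsub i hi
      simp only [hP, Finset.mem_filter, hi, true_and] at this
      rcases h with h | h <;> rw [h] at this ⊢
      · rw [if_pos (this.1 rfl), if_pos hi]; norm_num
      · rw [if_neg (fun h' => by have := this.2 h'; norm_num at this), if_pos hi]; norm_num
    · rw [h, if_neg hi]
      split_ifs <;> norm_num
  have e2 : ∑ i, (if i ∈ d then (0 : ℤ) else 4) = ∑ i ∈ dᶜ, (4 : ℤ) := by
    rw [← Finset.sum_compl_add_sum d]
    rw [Finset.sum_eq_zero (s := d) (fun i hi => if_pos hi), add_zero]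
    exact Finset.sum_congr rfl fun i hi => if_neg (Finset.mem_compl.1 hi)
  show ∑ i, (z i + 2 * w i) ^ 2 < 64
  simp only [e, e2, Finset.sum_const, Finset.card_compl, card_pt, hd.2, nsmul_eq_mul]
  norm_num

/-- the case of small odd part -/
theorem short_small {x : GolayPt → ℤ} {u : GolayPt → ℤ} (h : IsRep x 0 u)
    (hC : (odds u).card ≤ 12) : Short x := by
  obtain ⟨h1, h2, h3⟩ := h
  obtain ⟨C, hCd⟩ : ∃ C, C = odds u := ⟨_, rfl⟩
  rw [← hCd] at h2 hC
  obtain ⟨T, hT⟩ : ∃ T : Finset GolayPt, T = Finset.univ.filter fun i => x i % 8 = 4 := ⟨_, rfl⟩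
  have hmemC : ∀ i, i ∈ C ↔ x i % 4 = 2 := fun i => by
    rw [hCd, mem_odds, h1 i]; constructor <;> intro h <;> omega
  have hTeven : C = ∅ → 2 ∣ T.card := by
    intro hC0
    have e : (8 : ℤ) ∣ ∑ i, (x i - if i ∈ T then (4 : ℤ) else 0) := by
      refine Finset.dvd_sum fun i _ => ?_
      have := h1 i
      have : x i % 4 ≠ 2 := fun hh => by simpa [hC0] using (hmemC i).2 hh
      simp only [hT, Finset.mem_filter, Finset.mem_univ, true_and]
      split_ifs <;> omega
    simp only [Finset.sum_sub_distrib, Finset.sum_ite_mem, Finset.univ_inter, Finset.sum_const,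
      nsmul_eq_mul] at e
    have := sum_rep h1
    omega
  obtain ⟨D, hDW, hbd, hpar⟩ : ∃ D, IsW D ∧ C.card + 4 * ((T ∆ D) \ C).card ≤ 16 ∧
      (C = ∅ → 2 ∣ ((T ∆ D) \ C).card) := by
    rcases isW_card h2 with h | h | h | h | h
    · obtain ⟨L, hL, hLpc, hLc⟩ := exists_leader (toMask_lt T)
      have hW : IsW (T ∆ toSet L) := by
        rw [isW_iff, toMask_symmDiff, toMask_toSet hL]; exact hLc
      rw [Finset.card_eq_zero] at h
      subst h
      refine ⟨_, hW, ?_, fun _ => ?_⟩ <;>
        rw [Finset.sdiff_empty, ← symmDiff_assoc, symmDiff_self, bot_symmDiff]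
      · rw [card_toSet, Finset.card_empty]; omega
      · have h4 := isW_four_dvd hW
        have := sdiff_symmDiff_card T (toSet L) ∅
        simp only [Finset.sdiff_empty] at this
        have := hTeven rfl
        omega
    · obtain ⟨D, hD, hle⟩ := reduce_oct (o := C) ⟨h2, h⟩ T
      exact ⟨D, hD, by omega, fun hc => by simp [hc] at h⟩
    · obtain ⟨D, hD, hle, -⟩ := reduce_dod (d := C) ⟨h2, h⟩ T
      exact ⟨D, hD, by omega, fun hc => by simp [hc] at h⟩
    · omega
    · omega
  have hxL := rep_mem ⟨h1, hCd ▸ h2, h3⟩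
  refine Cong.short (cong_add (word_mem hDW)) ?_
  obtain ⟨y, hy⟩ : ∃ y, y = x + 2 • (fun i => if i ∈ D then (2 : ℤ) else 0) := ⟨_, rfl⟩
  rw [← hy]
  have hyL : y ∈ leechLattice := hy ▸ mem_of_cong hxL (cong_add (word_mem hDW))
  obtain ⟨R, hR⟩ : ∃ R, R = (T ∆ D) \ C := ⟨_, rfl⟩
  rw [← hR] at hbd hpar
  have hyv : ∀ i, (i ∈ C ∧ i ∉ R ∧ (res8 (y i) = 2 ∨ res8 (y i) = -2)) ∨
      (i ∉ C ∧ i ∈ R ∧ res8 (y i) = 4) ∨ (i ∉ C ∧ i ∉ R ∧ res8 (y i) = 0) := fun i => by
    have hyi : y i = x i + if i ∈ D then 4 else 0 := by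
      rw [hy]; by_cases hh : i ∈ D <;> simp [hh]
    have h2i : (2 : ℤ) ∣ x i := ⟨u i, by rw [h1 i]; ring⟩
    have hiT : i ∈ T ↔ x i % 8 = 4 := by simp [hT]
    have hiR : i ∈ R ↔ i ∉ C ∧ ¬ (i ∈ T ↔ i ∈ D) := by
      rw [hR, Finset.mem_sdiff, Finset.mem_symmDiff]; tauto
    have hiC := hmemC i
    by_cases hiD : i ∈ D <;> by_cases hTi : i ∈ T <;> by_cases hCi : i ∈ C <;>
      simp only [hiD, hTi, hCi, if_true, if_false, iff_true, true_iff, iff_self, not_true,
        not_false_iff, and_true, and_false, false_iff, iff_false, true_and, false_and, or_false,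
        false_or] at hyi hiT hiR hiC ⊢ <;>
      simp only [hiR, not_false_eq_true, not_true_eq_false, true_and, false_and, and_true, false_or, or_false] <;>
      unfold res8 <;> omega
  have hnorm : sqNorm (fun i => res8 (y i)) = 4 * (C.card : ℤ) + 16 * (R.card : ℤ) := by
    have e : ∀ i, res8 (y i) ^ 2 =
        (if i ∈ C then (4 : ℤ) else 0) + if i ∈ R then 16 else 0 := fun i => by
      rcases hyv i with ⟨a, b, e | e⟩ | ⟨a, b, e⟩ | ⟨a, b, e⟩ <;> simp [a, b, e]
    simp only [sqNorm, e, Finset.sum_add_distrib, Finset.sum_ite_mem, Finset.univ_inter,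
      Finset.sum_const, nsmul_eq_mul]
    ring
  have hnice : ∀ z : GolayPt → ℤ, (∀ i, (z i - res8 (y i)) % 8 = 0) → Nice z := by
    intro z hz
    refine Or.inr (Or.inl ⟨?_, ?_⟩)
    · have := hz none
      rcases hyv none with ⟨-, -, e | e⟩ | ⟨-, -, e⟩ | ⟨-, -, e⟩ <;> omega
    · refine le_trans (Finset.card_le_card fun i hi => ?_) hC
      simp only [Finset.mem_filter, Finset.mem_univ, true_and] at hi
      have := hz i
      rcases hyv i with ⟨a, -, -⟩ | ⟨-, -, e⟩ | ⟨-, -, e⟩
      · exact a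
      · omega
      · omega
  have hnice8 : ∀ (j : GolayPt) (t : ℤ), Nice ((fun i => res8 (y i)) + Pi.single j (8 * t)) := by
    intro j t
    refine hnice _ fun i => ?_
    simp only [Pi.add_apply, Pi.single_apply]
    split_ifs <;> omega
  refine short_of_mod8 hyL (z := fun i => res8 (y i)) (fun i => dvd_res8 (y i))
    (by rw [hnorm]; omega) (hnice _ fun i => by simp) fun v hv ho => ?_
  rcases Finset.eq_empty_or_nonempty R with hR0 | ⟨j, hj⟩
  · rcases isW_card h2 with h | h | h | h | h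
    · refine short_change hyL hv ho none 1 (Or.inl rfl) ?_ (hnice8 _ _)
      have h0 : res8 (y none) = 0 := by
        rcases hyv none with ⟨a, -⟩ | ⟨-, b, -⟩ | ⟨-, -, c⟩
        · rw [Finset.card_eq_zero] at h; simp [h] at a
        · simp [hR0] at b
        · exact c
      show _ + (res8 (y none) + 8 * 1) ^ 2 - res8 (y none) ^ 2 ≤ _
      rw [hnorm, h0, hR0, h]; norm_num
    · obtain ⟨j, hj⟩ := Finset.card_pos.1 (by omega : 0 < C.card)
      rcases hyv j with ⟨-, -, e | e⟩ | ⟨a, -⟩ | ⟨a, -⟩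
      · refine short_change hyL hv ho j (-1) (Or.inr rfl) ?_ (hnice8 _ _)
        show _ + (res8 (y j) + 8 * -1) ^ 2 - res8 (y j) ^ 2 ≤ _
        rw [hnorm, e, hR0, h]; norm_num
      · refine short_change hyL hv ho j 1 (Or.inl rfl) ?_ (hnice8 _ _)
        show _ + (res8 (y j) + 8 * 1) ^ 2 - res8 (y j) ^ 2 ≤ _
        rw [hnorm, e, hR0, h]; norm_num
      · exact absurd hj a
      · exact absurd hj a
    · refine short_special hyL (d := C) ⟨h2, h⟩ (fun i => ?_) hv ho
      rcases hyv i with ⟨a, -, e⟩ | ⟨-, b, -⟩ | ⟨a, -, e⟩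
      · exact Or.inl ⟨a, e⟩
      · simp [hR0] at b
      · exact Or.inr ⟨a, e⟩
    · omega
    · omega
  · refine short_change hyL hv ho j (-1) (Or.inr rfl) ?_ (hnice8 _ _)
    have hjv : res8 (y j) = 4 := by
      rcases hyv j with ⟨-, b, -⟩ | ⟨-, -, c⟩ | ⟨-, b, -⟩
      · exact absurd hj b
      · exact c
      · exact absurd hj b
    show _ + (res8 (y j) + 8 * -1) ^ 2 - res8 (y j) ^ 2 ≤ _
    rw [hnorm, hjv]
    norm_num
    omega

/-- every class modulo 2 contains a vector of sum of squares at most 64 -/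
theorem short_all {x : GolayPt → ℤ} (hx : x ∈ leechLattice) : Short x := by
  obtain ⟨m, u, h1, h2, h3⟩ := mem_leechLattice.1 hx
  by_cases hm : (2 : ℤ) ∣ m
  · obtain ⟨k, rfl⟩ := hm
    have hrep : IsRep x 0 (fun i => u i + k) := by
      refine ⟨fun i => by rw [h1 i]; ring, ?_, ?_⟩
      · by_cases hk : (2 : ℤ) ∣ k
        · rw [show odds (fun i => u i + k) = odds u by ext i; simp only [mem_odds]; omega]
          exact h2
        · rw [show odds (fun i => u i + k) = (odds u)ᶜ by
            ext i; simp only [Finset.mem_compl, mem_odds]; omega]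
          exact isW_compl h2
      · simp only [Finset.sum_add_distrib, Finset.sum_const, Finset.card_univ, card_pt,
          nsmul_eq_mul, Nat.cast_ofNat]
        omega
    obtain ⟨u', hu'⟩ : ∃ u', u' = fun i => u i + k := ⟨_, rfl⟩
    rw [← hu'] at hrep
    by_cases hc : (odds u').card ≤ 12
    · exact short_small hrep hc
    · refine Cong.short (cong_add omegaVec_mem.1) (short_small (u := u' + omegaVec) ⟨fun i => ?_, ?_, ?_⟩ ?_)
      · simp only [Pi.add_apply, Pi.smul_apply, hrep.1 i]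
        rw [nsmul_eq_mul]; push_cast; ring
      · rw [odds_add, show odds omegaVec = Finset.univ by decide,
          show (Finset.univ : Finset GolayPt) = ⊤ from rfl, symmDiff_top]
        exact isW_compl hrep.2.1
      · rw [show ∑ i, (u' + omegaVec) i = (∑ i, u' i) + 20 by
          simp only [Pi.add_apply, Finset.sum_add_distrib]; rfl]
        have := hrep.2.2
        omega
      · rw [odds_add, show odds omegaVec = Finset.univ by decide,
          show (Finset.univ : Finset GolayPt) = ⊤ from rfl, symmDiff_top, hnot_eq_compl, Finset.card_compl, card_pt]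
        omega
  · exact short_odd ⟨h1, h2, h3⟩ hm

end CfsgLib.Leech
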