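import Cfsg.Agent.Lib.Leech.Trans

/-! The stabiliser of the standard cross, the centre, and the order of the automorphism group. -/
set_option autoImplicit false
set_option linter.all false
set_option maxRecDepth 20000

namespace CfsgLib.Leech

open Cfsg CfsgLib.Golay
open scoped Pointwise symmDiff

/-- `8` times a coordinate vector, in the lattice -/
def axis (i : GolayPt) : GolayPt → ℤ := Pi.single i 8

theorem axis_mem (i : GolayPt) : axis i ∈ leechLattice := by
  refine rep_mem (m := 0) (u := Pi.single i 4) ⟨fun k => ?_, ?_, ?_⟩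
  · simp only [axis, Pi.single_apply]; split_ifs <;> norm_num
  · rw [show odds (Pi.single i (4 : ℤ)) = ∅ by
      ext k; simp only [mem_odds, Pi.single_apply]; split_ifs <;> simp]
    exact isW_empty
  · simp [Finset.sum_pi_single']

/-- the same as an element -/
def axisL (i : GolayPt) : leechLattice := ⟨axis i, axis_mem i⟩

theorem sqNorm_axis (i : GolayPt) : sqNorm (axis i) = 64 := by
  unfold sqNorm axis
  rw [Finset.sum_eq_single i (fun j _ h => by simp [h]) (fun h => absurd (Finset.mem_univ i) h)]
  simp

theorem mem_stdCross {y : GolayPt → ℤ} : y ∈ stdCross ↔ ∃ i, y = axis i ∨ y = -axis i := by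
  constructor
  · rintro ⟨i, s, rfl | rfl, rfl⟩
    · exact ⟨i, Or.inl rfl⟩
    · exact ⟨i, Or.inr (by rw [axis, ← Pi.single_neg])⟩
  · rintro ⟨i, rfl | rfl⟩
    · exact ⟨i, 8, Or.inl rfl, rfl⟩
    · exact ⟨i, -8, Or.inr rfl, by rw [axis, ← Pi.single_neg]⟩

/-- preservation of the standard cross -/
def StabCross (g : Co0) : Prop :=
  ∀ v : leechLattice, (v : GolayPt → ℤ) ∈ stdCross → ((g • v : leechLattice) : GolayPt → ℤ) ∈ stdCross

theorem axis_inj {i j : GolayPt} (h : axis i = axis j ∨ axis i = -axis j) : i = j := by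
  by_contra hne
  rcases h with h | h <;> have := congrFun h i <;>
    simp [axis, hne] at this

/-- the coordinatewise action on the lattice is additive -/
def co0Hom (g : Co0) : leechLattice →+ leechLattice := AddMonoidHom.mk' (fun v => g • v) (co0_add g)

theorem coe_co0Hom (g : Co0) (v : leechLattice) : co0Hom g v = g • v := rfl

theorem eight_smul_eq (v : leechLattice) :
    (8 : ℤ) • v = ∑ i, ((v : GolayPt → ℤ) i) • axisL i := by
  apply Subtype.ext
  rw [AddSubgroup.coe_zsmul, AddSubgroup.val_finsetSum]
  funext k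
  simp only [axisL, AddSubgroup.coe_zsmul, Pi.smul_apply, Finset.sum_apply, axis, Pi.single_apply,
    smul_eq_mul, mul_ite, mul_zero, Finset.sum_ite_eq, Finset.mem_univ, if_true]
  ring

theorem stab_form {g : Co0} (h : StabCross g) :
    ∃ σ : Equiv.Perm GolayPt, ∃ c : Finset GolayPt, σ ∈ M24 ∧ IsW c ∧
      ∀ v : leechLattice, ((g • v : leechLattice) : GolayPt → ℤ) = flipOn c (permMap σ v) := by
  classical
  have h1 : ∀ i, ∃ j, ((g • axisL i : leechLattice) : GolayPt → ℤ) = axis j ∨
      ((g • axisL i : leechLattice) : GolayPt → ℤ) = -axis j :=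
    fun i => mem_stdCross.1 (h _ (mem_stdCross.2 ⟨i, Or.inl rfl⟩))
  choose τ hτ using h1
  have hinj : Function.Injective τ := by
    intro i j e
    apply axis_inj
    have hi := hτ i
    rw [e] at hi
    have hneg : ∀ v : leechLattice, g • (-v) = -(g • v) := fun v => (co0Hom g).map_neg v
    rcases hi with hi | hi <;> rcases hτ j with hj | hj
    · exact Or.inl (congrArg Subtype.val (MulAction.injective g (Subtype.ext (hi.trans hj.symm))))
    · exact Or.inr (congrArg Subtype.val (MulAction.injective g (show g • axisL i = g • (-axisL j) by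
        rw [hneg]; exact Subtype.ext (by rw [AddSubgroup.coe_neg, hj, neg_neg, hi]))))
    · exact Or.inr (congrArg Subtype.val (MulAction.injective g (show g • axisL i = g • (-axisL j) by
        rw [hneg]; exact Subtype.ext (by rw [AddSubgroup.coe_neg, hj, hi]))))
    · exact Or.inl (congrArg Subtype.val (MulAction.injective g (Subtype.ext (hi.trans hj.symm))))
  obtain ⟨σ, hσ⟩ : ∃ σ : Equiv.Perm GolayPt, ∀ i, σ i = τ i :=
    ⟨Equiv.ofBijective τ (Finite.injective_iff_bijective.1 hinj), fun i => rfl⟩
  obtain ⟨c, hc⟩ : ∃ c : Finset GolayPt, c = Finset.univ.filter fun j =>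
      ((g • axisL (σ.symm j) : leechLattice) : GolayPt → ℤ) = -axis j := ⟨_, rfl⟩
  have hax : ∀ i, ((g • axisL i : leechLattice) : GolayPt → ℤ) =
      if σ i ∈ c then -axis (σ i) else axis (σ i) := fun i => by
    simp only [hc, Finset.mem_filter, Finset.mem_univ, true_and, Equiv.symm_apply_apply]
    have := hτ i
    rw [← hσ i] at this
    split_ifs with hh
    · exact hh
    · exact this.resolve_right hh
  have hform : ∀ v : leechLattice,
      ((g • v : leechLattice) : GolayPt → ℤ) = flipOn c (permMap σ v) := by
    intro v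
    have e := congrArg (fun w : leechLattice => (w : GolayPt → ℤ)) (congrArg (co0Hom g) (eight_smul_eq v))
    simp only [map_zsmul, map_sum] at e
    rw [AddSubgroup.coe_zsmul, AddSubgroup.val_finsetSum] at e
    funext j
    have := congrFun e j
    simp only [coe_co0Hom, AddSubgroup.coe_zsmul, Pi.smul_apply, Finset.sum_apply, smul_eq_mul,
      hax] at this
    rw [Finset.sum_eq_single (σ.symm j) (fun i _ hi => ?_)
      (fun hh => absurd (Finset.mem_univ _) hh)] at this
    · simp only [Equiv.apply_symm_apply] at this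
      simp only [flipOn, permMap]
      split_ifs at this ⊢ <;> simp [axis] at this <;> linarith
    · have : σ i ≠ j := fun hh => hi (by rw [← hh, Equiv.symm_apply_apply])
      split_ifs <;> simp [axis, this.symm]
  have hσM : σ ∈ M24 := by
    rw [MulAction.mem_stabilizer_iff]
    refine Set.eq_of_subset_of_ncard_le ?_ (by rw [Set.ncard_smul_set]) (Set.toFinite _)
    rintro _ ⟨D, hD, rfl⟩
    have hm := (g • (⟨_, word_mem (D := D) hD⟩ : leechLattice)).2
    rw [hform] at hm
    have hcore := core_isW hm
    suffices e : σ • D = core (flipOn c (permMap σ (fun i => if i ∈ D then 2 else 0))) by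
      show IsW (σ • D)
      rw [e]; exact hcore
    ext j
    unfold core
    rw [Finset.mem_filter]
    simp only [Finset.mem_univ, true_and, flipOn, permMap]
    rw [← Finset.inv_smul_mem_iff, Equiv.Perm.smul_def, show σ⁻¹ j = σ.symm j from rfl]
    by_cases hjD : σ.symm j ∈ D <;> simp only [hjD, if_true, if_false] <;>
      split_ifs <;> norm_num
  refine ⟨σ, c, hσM, ?_, hform⟩
  have hm := (g • (⟨omegaVec, omegaVec_mem.1⟩ : leechLattice)).2
  rw [hform] at hm
  obtain ⟨_, -, -, hres⟩ := mem_lattice_iff_set.1 hm
  have := hres 3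
  suffices e : c = Finset.univ.filter fun i =>
      flipOn c (permMap σ omegaVec) i ≡ 3 [ZMOD 4] by
    unfold IsW
    rw [e]; exact this
  ext j
  rw [Finset.mem_filter]
  simp only [Finset.mem_univ, true_and, flipOn, permMap, Int.ModEq, omegaVec]
  by_cases hj : j ∈ c <;> simp only [hj, if_true, if_false, true_iff, false_iff] <;>
    split_ifs <;> norm_num

/-- the sign change by a word, as an automorphism -/
def flipA {c : Finset GolayPt} (hc : IsW c) : Co0 := mkAuto (flipOn_data hc)

/-- a code permutation, as an automorphism -/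
def permA {σ : Equiv.Perm GolayPt} (hσ : σ ∈ M24) : Co0 := mkAuto (permMap_data hσ)

theorem mono_apply {σ : Equiv.Perm GolayPt} (hσ : σ ∈ M24) {c : Finset GolayPt} (hc : IsW c)
    (v : leechLattice) :
    (((flipA hc * permA hσ) • v : leechLattice) : GolayPt → ℤ) = flipOn c (permMap σ v) := by
  rw [mul_smul, flipA, coe_mkAuto, permA, coe_mkAuto]

theorem mono_axis (σ : Equiv.Perm GolayPt) (c : Finset GolayPt) (i : GolayPt) :
    flipOn c (permMap σ (axis i)) = if σ i ∈ c then -axis (σ i) else axis (σ i) := by
  funext j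
  simp only [flipOn, permMap, axis, Pi.single_apply]
  by_cases hj : j = σ i
  · subst hj
    split_ifs <;> simp_all
  · have : σ.symm j ≠ i := fun h => hj (by rw [← h, Equiv.apply_symm_apply])
    split_ifs <;> simp_all

theorem mono_stab {σ : Equiv.Perm GolayPt} (hσ : σ ∈ M24) {c : Finset GolayPt} (hc : IsW c) :
    StabCross (flipA hc * permA hσ) := by
  intro v hv
  obtain ⟨i, hi⟩ := mem_stdCross.1 hv
  rw [mono_apply]
  refine mem_stdCross.2 ⟨σ i, ?_⟩
  rcases hi with hi | hi <;> rw [hi]
  · rw [mono_axis]; split_ifs <;> simp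
  · rw [show flipOn c (permMap σ (-axis i)) = -flipOn c (permMap σ (axis i)) by
      funext j; simp only [flipOn, permMap, Pi.neg_apply]; split_ifs <;> rfl, mono_axis]
    split_ifs <;> simp

theorem co0_ext {g h : Co0} (e : ∀ v : leechLattice,
    ((g • v : leechLattice) : GolayPt → ℤ) = ((h • v : leechLattice) : GolayPt → ℤ)) : g = h :=
  Subtype.ext (Equiv.ext fun v => Subtype.ext (e v))

theorem card_words : words.card = 4096 := by
  rw [Finset.card_eq_sum_ones, sum_words (fun _ => 1), sum_by_weight (fun _ => 1)]

theorem card_stabCross : Nat.card {g : Co0 // StabCross g} = 4096 * 244823040 := by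
  classical
  let f : {c // c ∈ words} × M24 → {g : Co0 // StabCross g} := fun p =>
    ⟨flipA (mem_words.1 p.1.2) * permA p.2.2, mono_stab p.2.2 (mem_words.1 p.1.2)⟩
  have hf : Function.Bijective f := by
    constructor
    · rintro ⟨⟨c, hc⟩, ⟨σ, hσ⟩⟩ ⟨⟨c', hc'⟩, ⟨σ', hσ'⟩⟩ h
      have key : ∀ i, (if σ i ∈ c then -axis (σ i) else axis (σ i)) =
          if σ' i ∈ c' then -axis (σ' i) else axis (σ' i) := fun i => by
        have := congrArg (fun g : {g : Co0 // StabCross g} =>
          ((g.1 • axisL i : leechLattice) : GolayPt → ℤ)) h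
        simp only [f, mono_apply, axisL] at this
        rwa [mono_axis, mono_axis] at this
      have hσσ : σ = σ' := Equiv.ext fun i => by
        apply axis_inj
        have := key i
        split_ifs at this
        · exact Or.inl (neg_injective this)
        · exact Or.inr (neg_eq_iff_eq_neg.1 this)
        · exact Or.inr this
        · exact Or.inl this
      subst hσσ
      have hcc : c = c' := by
        ext j
        have := key (σ.symm j)
        simp only [Equiv.apply_symm_apply] at this
        split_ifs at this with h1 h2 h2 <;> simp_all <;>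
          (have := congrFun this j; simp [axis] at this)
      subst hcc
      rfl
    · rintro ⟨g, hg⟩
      obtain ⟨σ, c, hσ, hc, e⟩ := stab_form hg
      exact ⟨(⟨c, mem_words.2 hc⟩, ⟨σ, hσ⟩), Subtype.ext (co0_ext fun v => by rw [mono_apply, e])⟩
  rw [← Nat.card_eq_of_bijective f hf, Nat.card_prod, Nat.card_eq_fintype_card (α := {c // c ∈ words}),
    Fintype.card_coe, card_words, card_M24]

theorem stdCross_ncard : stdCross.ncard = 48 := by
  classical
  obtain ⟨F, hF⟩ : ∃ F : GolayPt × Bool → GolayPt → ℤ,
      F = fun p => if p.2 then axis p.1 else -axis p.1 := ⟨_, rfl⟩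
  have e : stdCross = Set.range F := by
    ext y
    rw [mem_stdCross, hF]
    constructor
    · rintro ⟨i, rfl | rfl⟩
      · exact ⟨(i, true), rfl⟩
      · exact ⟨(i, false), rfl⟩
    · rintro ⟨⟨i, b⟩, rfl⟩
      cases b
      · exact ⟨i, Or.inr rfl⟩
      · exact ⟨i, Or.inl rfl⟩
  have hFi : Function.Injective F := by
    rintro ⟨i, b⟩ ⟨j, b'⟩ h
    have hij : i = j := by
      apply axis_inj
      rw [hF] at h
      cases b <;> cases b' <;> simp only [Bool.false_eq_true, if_false, if_true] at h
      · exact Or.inl (neg_injective h)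
      · exact Or.inr (neg_eq_iff_eq_neg.1 h)
      · exact Or.inr h
      · exact Or.inl h
    subst hij
    have := congrFun h i
    rw [hF] at this
    cases b <;> cases b' <;> simp [axis] at this ⊢
  rw [e, Set.ncard_range_of_injective hFi, Nat.card_eq_fintype_card]
  rfl

theorem axis_cong (i j : GolayPt) : Cong (axis i) (axis j) ∧ Cong (axis i) (-axis j) := by
  constructor
  · refine ⟨fun k => 4 * ((if k = i then 1 else 0) - if k = j then 1 else 0),
      four_vec_mem (by simp [Finset.sum_sub_distrib]), funext fun k => ?_⟩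
    simp only [axis, Pi.sub_apply, Pi.single_apply, Pi.smul_apply, nsmul_eq_mul]
    split_ifs <;> norm_num
  · refine ⟨fun k => 4 * ((if k = i then 1 else 0) + if k = j then 1 else 0),
      four_vec_mem (by simp [Finset.sum_add_distrib]), funext fun k => ?_⟩
    simp only [axis, Pi.sub_apply, Pi.neg_apply, Pi.single_apply, Pi.smul_apply, nsmul_eq_mul]
    split_ifs <;> norm_num

theorem cross_axis : cross (axis none) = stdCross := by
  have hsub : stdCross ⊆ cross (axis none) := by
    intro y hy
    obtain ⟨i, rfl | rfl⟩ := mem_stdCross.1 hy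
    · exact ⟨axis_mem i, by rw [sqNorm_axis, sqNorm_axis], (axis_cong none i).1⟩
    · exact ⟨neg_mem (axis_mem i), by rw [sqNorm_neg, sqNorm_axis, sqNorm_axis],
        (axis_cong none i).2⟩
  refine (Set.eq_of_subset_of_ncard_le hsub ?_ (Set.finite_of_ncard_ne_zero ?_)).symm
  · rw [cross_card (axis_mem none) (sqNorm_axis none), stdCross_ncard]
  · rw [cross_card (axis_mem none) (sqNorm_axis none)]; norm_num

theorem co0_cong (g : Co0) {v w : leechLattice} (h : Cong (v : GolayPt → ℤ) w) :
    Cong ((g • v : leechLattice) : GolayPt → ℤ) ((g • w : leechLattice) : GolayPt → ℤ) := by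
  obtain ⟨z, hz, e⟩ := h
  refine ⟨((g • (⟨z, hz⟩ : leechLattice) : leechLattice) : GolayPt → ℤ), SetLike.coe_mem _, ?_⟩
  have hv : v = w + 2 • (⟨z, hz⟩ : leechLattice) := Subtype.ext (by push_cast; rw [← e]; abel)
  rw [hv, co0_add, co0_two_smul, AddSubgroup.coe_add, AddSubmonoidClass.coe_nsmul]
  abel

/-- the class of the image of the standard axis -/
noncomputable def crossOf (g : Co0) : ModTwoSpace :=
  cls ((g • axisL none : leechLattice) : GolayPt → ℤ)

theorem crossOf_eq_iff (g : Co0) :
    crossOf g = cls (axis none) ↔ StabCross g := by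
  rw [crossOf, cls_eq_iff (SetLike.coe_mem _) (axis_mem none)]
  constructor
  · intro h v hv
    rw [← cross_axis] at hv ⊢
    obtain ⟨-, hn, z, hz, e⟩ := hv
    refine ⟨SetLike.coe_mem _, by rw [co0_norm, hn], ?_⟩
    obtain ⟨z1, hz1, e1⟩ := h
    obtain ⟨z2, hz2, e2⟩ := co0_cong g (v := axisL none) (w := v) ⟨z, hz, e⟩
    exact ⟨z2 - z1, sub_mem hz2 hz1, by rw [smul_sub, ← e1, ← e2]; abel⟩
  · intro h
    have := h (axisL none) (mem_stdCross.2 ⟨none, Or.inl rfl⟩)
    rw [← cross_axis] at this
    obtain ⟨-, -, z, hz, e⟩ := this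
    exact ⟨-z, neg_mem hz, by rw [smul_neg, ← e]; abel⟩

theorem card_crosses [DecidableEq ModTwoSpace] (S : Finset (GolayPt → ℤ))
    (hS : ∀ x, x ∈ S ↔ x ∈ normSet 64) :
    48 * (S.image cls).card = 398034000 := by
  classical
  have hc : S.card = 398034000 := by
    rw [← count_64, ← Set.ncard_coe_finset]
    congr 1
    ext x
    exact hS x
  rw [← hc, Finset.card_eq_sum_card_image cls S]
  rw [Finset.sum_congr rfl (fun c hcm => show _ = 48 from ?_), Finset.sum_const, smul_eq_mul,
    mul_comm]
  obtain ⟨y, hy, rfl⟩ := Finset.mem_image.1 hcm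
  have hy' := (hS y).1 hy
  rw [← cross_card hy'.1 hy'.2, ← Set.ncard_coe_finset]
  congr 1
  ext z
  simp only [Finset.coe_filter, Set.mem_setOf_eq, cross, hS, normSet]
  constructor
  · rintro ⟨⟨hz, hzn⟩, e⟩
    exact ⟨hz, hzn.trans hy'.2.symm, (cls_eq_iff hy'.1 hz).1 e.symm⟩
  · rintro ⟨hz, hzn, h⟩
    exact ⟨⟨hz, hzn.trans hy'.2⟩, ((cls_eq_iff hy'.1 hz).2 h).symm⟩

theorem card_co0 : Nat.card Co0 = 8315553613086720000 := by
  classical
  obtain ⟨S, hS⟩ : ∃ S : Finset (GolayPt → ℤ), ∀ x, x ∈ S ↔ x ∈ normSet 64 :=
    ⟨(normSet_finite (n := 64) le_rfl).toFinset, fun x => Set.Finite.mem_toFinset _⟩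
  obtain ⟨H, hH⟩ : ∃ H : Subgroup Co0, ∀ g, g ∈ H ↔ StabCross g := by
    refine ⟨{ carrier := {g | StabCross g}, one_mem' := fun v hv => by rwa [one_smul],
              mul_mem' := fun {a b} ha hb v hv => by rw [mul_smul]; exact ha _ (hb _ hv),
              inv_mem' := fun {a} ha v hv => ?_ }, fun g => Iff.rfl⟩
    obtain ⟨σ, c, hσ, hc, e⟩ := stab_form ha
    obtain ⟨i, hi⟩ := mem_stdCross.1 hv
    have e2 : ∀ w : leechLattice, ((a⁻¹ • w : leechLattice) : GolayPt → ℤ) =
        permMap σ⁻¹ (flipOn c w) := fun w => by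
      have h1 := e (a⁻¹ • w)
      rw [smul_inv_smul] at h1
      rw [h1, flipOn_flipOn]
      exact funext fun i => (congrArg _ (σ.symm_apply_apply i)).symm
    rw [e2]
    refine mem_stdCross.2 ⟨σ.symm i, ?_⟩
    have key : ∀ s : ℤ, permMap σ⁻¹ (flipOn c (fun k => s * axis i k)) =
        fun k => (if i ∈ c then -s else s) * axis (σ.symm i) k := fun s => by
      funext k
      show flipOn c _ (σ k) = _
      simp only [flipOn, axis, Pi.single_apply]
      by_cases hk : k = σ.symm i
      · subst hk
        simp only [Equiv.apply_symm_apply, if_true]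
        split_ifs <;> ring
      · have hk' : σ k ≠ i := fun h => hk (by rw [← h, Equiv.symm_apply_apply])
        simp only [hk, hk', if_false]
        split_ifs <;> ring
    rcases hi with hi | hi <;> rw [hi]
    · rw [show axis i = fun k => (1 : ℤ) * axis i k from funext fun k => (one_mul _).symm, key 1]
      split_ifs
      · right; funext k; simp
      · left; funext k; simp
    · rw [show -axis i = fun k => (-1 : ℤ) * axis i k from funext fun k => by simp, key (-1)]
      split_ifs
      · left; funext k; simp
      · right; funext k; simp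
  have hrange : Set.range crossOf = ↑(S.image cls) := by
    ext c
    simp only [Set.mem_range, Finset.coe_image, Set.mem_image, Finset.mem_coe, hS, crossOf]
    constructor
    · rintro ⟨g, rfl⟩
      exact ⟨_, ⟨SetLike.coe_mem _, by rw [co0_norm]; exact sqNorm_axis none⟩, rfl⟩
    · rintro ⟨y, ⟨hy, hyn⟩, rfl⟩
      obtain ⟨g, z, hz, e⟩ := crosses_transitive (axisL none) ⟨y, hy⟩ (sqNorm_axis none) hyn
      exact ⟨g, (cls_eq_iff (SetLike.coe_mem _) hy).2 ⟨z, hz, e⟩⟩
  have hiff : ∀ g h : Co0, crossOf g = crossOf h ↔ g⁻¹ * h ∈ H := by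
    intro g h
    rw [hH, ← crossOf_eq_iff, crossOf, crossOf, crossOf,
      cls_eq_iff (SetLike.coe_mem _) (SetLike.coe_mem _),
      cls_eq_iff (SetLike.coe_mem _) (axis_mem none)]
    constructor
    · intro hh
      obtain ⟨z, hz, e⟩ := co0_cong g⁻¹ (v := g • axisL none) (w := h • axisL none) hh
      refine ⟨-z, neg_mem hz, ?_⟩
      rw [smul_neg, ← e, inv_smul_smul, mul_smul, neg_sub]
      rfl
    · intro hh
      obtain ⟨z, hz, e⟩ := co0_cong g (v := (g⁻¹ * h) • axisL none) (w := axisL none) hh
      refine ⟨-z, neg_mem hz, ?_⟩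
      rw [smul_neg, ← e, mul_smul, smul_inv_smul, neg_sub]
  have hidx : H.index = (Set.range crossOf).ncard := by
    rw [Subgroup.index, ← Nat.card_coe_set_eq]
    refine Nat.card_eq_of_bijective (fun q => Quotient.liftOn' q (fun g => (⟨crossOf g, g, rfl⟩ :
      Set.range crossOf)) fun a b hab => Subtype.ext ((hiff a b).2
        (QuotientGroup.leftRel_apply.1 hab))) ⟨?_, ?_⟩
    · intro a b
      induction a using Quotient.inductionOn'
      induction b using Quotient.inductionOn'
      intro hab
      exact Quotient.sound' (QuotientGroup.leftRel_apply.2 ((hiff _ _).1 (congrArg Subtype.val hab)))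
    · rintro ⟨c, g, rfl⟩
      exact ⟨QuotientGroup.mk g, rfl⟩
  have hcard : Nat.card H = 4096 * 244823040 := by
    rw [← card_stabCross]
    exact Nat.card_congr (Equiv.subtypeEquivRight hH)
  rw [← H.card_mul_index, hcard, hidx, hrange, Set.ncard_coe_finset]
  have := card_crosses S hS
  omega

/-- negation of all coordinates -/
def negA : Co0 := flipA isW_univ

theorem negA_apply (v : leechLattice) :
    ((negA • v : leechLattice) : GolayPt → ℤ) = -(v : GolayPt → ℤ) := by
  rw [negA, flipA, coe_mkAuto]
  funext i
  simp [flipOn]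

theorem separate : ∀ i j : GolayPt, i ≠ j →
    ∃ g ∈ gens, g.testBit (idx i) ≠ g.testBit (idx j) := by decide +kernel

theorem gens_isW {g : ℕ} (hg : g ∈ gens) : IsW (toSet g) := by
  have h := List.all_eq_true.1 gens_ok g hg
  simp only [Bool.and_eq_true] at h
  rw [isW_iff, toMask_toSet (lt_of_inCode h.1)]
  exact h.1

theorem negA_ne : negA ≠ 1 := by
  intro h
  have := negA_apply (axisL none)
  rw [h, one_smul] at this
  have := congrFun this none
  simp [axisL, axis] at this

theorem center_eq : ∀ g : Co0, g ∈ Subgroup.center Co0 ↔ g = 1 ∨ g = negA := by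
  intro g
  constructor
  · intro hg
    rw [Subgroup.mem_center_iff] at hg
    have hax : ∀ i, ((g • axisL i : leechLattice) : GolayPt → ℤ) = axis i ∨
        ((g • axisL i : leechLattice) : GolayPt → ℤ) = -axis i := by
      intro i
      obtain ⟨y, hy⟩ : ∃ y, y = ((g • axisL i : leechLattice) : GolayPt → ℤ) := ⟨_, rfl⟩
      have hfl : ∀ (c : Finset GolayPt), IsW c → flipOn c y = if i ∈ c then -y else y := by
        intro c hc
        have h1 := congrArg (fun h : Co0 => ((h • axisL i : leechLattice) : GolayPt → ℤ)) (hg (flipA hc))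
        simp only [mul_smul, flipA, coe_mkAuto] at h1
        rw [← hy] at h1
        rw [h1]
        split_ifs with hi
        · have : mkAuto (flipOn_data hc) • axisL i = -axisL i := Subtype.ext (by
            rw [coe_mkAuto, AddSubgroup.coe_neg]
            funext k
            simp only [axisL, flipOn, axis, Pi.neg_apply, Pi.single_apply]
            split_ifs <;> simp_all)
          rw [this, ← coe_co0Hom, map_neg, coe_co0Hom, AddSubgroup.coe_neg, hy]
        · have : mkAuto (flipOn_data hc) • axisL i = axisL i := Subtype.ext (by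
            rw [coe_mkAuto]
            funext k
            simp only [axisL, flipOn, axis, Pi.single_apply]
            split_ifs <;> simp_all)
          rw [this, hy]
      have hsupp : ∀ j, j ≠ i → y j = 0 := by
        intro j hj
        obtain ⟨m, hm, hne⟩ := separate i j hj.symm
        have h2 := congrFun (hfl _ (gens_isW hm)) j
        simp only [flipOn, mem_toSet] at h2
        cases hi : m.testBit (idx i) <;> cases hj' : m.testBit (idx j) <;>
          simp [hi, hj'] at hne h2 <;> omega
      have hn : sqNorm y = 64 := by rw [hy, co0_norm]; exact sqNorm_axis i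
      rw [sqNorm, Finset.sum_eq_single i (fun j _ hj => by rw [hsupp j hj]; ring)
        (fun hh => absurd (Finset.mem_univ i) hh)] at hn
      have hyi : y i = 8 ∨ y i = -8 := by
        have : y i ≤ 8 ∧ -8 ≤ y i := ⟨by nlinarith, by nlinarith⟩
        obtain ⟨h1, h2⟩ := this
        interval_cases hk : y i <;> simp at hn ⊢
      rcases hyi with h8 | h8
      · left; rw [← hy]; funext k
        by_cases hk : k = i
        · subst hk; simpa [axis] using h8
        · simp [axis, hk, hsupp k hk]
      · right; rw [← hy]; funext k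
        by_cases hk : k = i
        · subst hk; simpa [axis] using h8
        · simp [axis, hk, hsupp k hk]
    have hsame : ∀ i, (((g • axisL i : leechLattice) : GolayPt → ℤ) = axis i ↔
        ((g • axisL none : leechLattice) : GolayPt → ℤ) = axis none) := by
      intro i
      obtain ⟨σ, hσ, e⟩ := map_one i
      obtain ⟨τ, hτ, e'⟩ := map_one none
      obtain ⟨π, hπ, hπi⟩ : ∃ π ∈ M24, π none = i :=
        ⟨σ * τ⁻¹, mul_mem hσ (inv_mem hτ), by
          rw [Equiv.Perm.mul_apply, Equiv.Perm.inv_eq_iff_eq.2 e'.symm, e]⟩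
      have hax' : permA hπ • axisL none = axisL i := Subtype.ext (by
        rw [permA, coe_mkAuto]
        funext k
        show axis none (π.symm k) = axis i k
        simp only [axis, Pi.single_apply]
        have : π.symm k = none ↔ k = i := by
          rw [Equiv.symm_apply_eq, hπi]
        split_ifs <;> simp_all)
      have h1 := congrArg (fun h : Co0 => h • axisL none) (hg (permA hπ))
      simp only [mul_smul, hax'] at h1
      constructor
      · intro h
        have h2 : g • axisL i = axisL i := Subtype.ext h
        rw [h2, ← hax'] at h1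
        exact congrArg Subtype.val (MulAction.injective _ h1)
      · intro h
        have h2 : g • axisL none = axisL none := Subtype.ext h
        rw [h2, hax'] at h1
        exact congrArg Subtype.val h1.symm
    have hsc : StabCross g := by
      intro v hv
      obtain ⟨i, hi⟩ := mem_stdCross.1 hv
      refine mem_stdCross.2 ⟨i, ?_⟩
      rcases hi with hi | hi
      · rw [show v = axisL i from Subtype.ext hi]; exact hax i
      · rw [show v = -axisL i from Subtype.ext hi, ← coe_co0Hom, map_neg, coe_co0Hom,
          AddSubgroup.coe_neg]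
        rcases hax i with h | h <;> rw [h] <;> simp
    obtain ⟨σ, c, hσ, hc, e⟩ := stab_form hsc
    have hσ1 : ∀ i, σ i = i := fun i => by
      have h1 := e (axisL i)
      simp only [axisL] at h1
      rw [mono_axis] at h1
      apply axis_inj
      rcases hax i with h | h <;> simp only [axisL] at h <;> rw [h] at h1 <;> split_ifs at h1
      · exact Or.inr (neg_eq_iff_eq_neg.1 h1.symm)
      · exact Or.inl h1.symm
      · exact Or.inl (neg_injective h1.symm)
      · exact Or.inr h1.symm
    have hcs : ∀ i, (((g • axisL i : leechLattice) : GolayPt → ℤ) = axis i ↔ i ∉ c) := fun i => by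
      rw [e]
      simp only [axisL, mono_axis, hσ1 i]
      by_cases hi : i ∈ c <;> simp only [hi, if_true, if_false, not_true, not_false_iff, iff_false,
        iff_true]
      intro hh
      have := congrFun hh i
      simp [axis] at this
    by_cases h0 : ((g • axisL none : leechLattice) : GolayPt → ℤ) = axis none
    · left
      refine co0_ext fun v => ?_
      rw [e, one_smul]
      funext k
      simp only [flipOn, permMap, show σ.symm k = k from σ.symm_apply_eq.2 (hσ1 k).symm]
      rw [if_neg ((hcs k).1 ((hsame k).2 h0))]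
    · right
      refine co0_ext fun v => ?_
      rw [e, negA_apply]
      funext k
      simp only [flipOn, permMap, Pi.neg_apply, show σ.symm k = k from σ.symm_apply_eq.2 (hσ1 k).symm]
      rw [if_pos (by by_contra hk; exact h0 ((hsame k).1 ((hcs k).2 hk)))]
  · rintro (rfl | rfl)
    · exact Subgroup.one_mem _
    · rw [Subgroup.mem_center_iff]
      intro h
      refine co0_ext fun v => ?_
      rw [mul_smul, mul_smul, negA_apply, show negA • v = -v from Subtype.ext (negA_apply v),
        ← coe_co0Hom, map_neg, coe_co0Hom, AddSubgroup.coe_neg]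

theorem card_center : Nat.card (Subgroup.center Co0) = 2 := by
  rw [Nat.card_eq_two_iff]
  refine ⟨⟨1, (center_eq 1).2 (Or.inl rfl)⟩, ⟨negA, (center_eq _).2 (Or.inr rfl)⟩,
    fun h => negA_ne (congrArg Subtype.val h).symm, Set.eq_univ_of_forall fun x => ?_⟩
  rcases (center_eq x.1).1 x.2 with h | h
  · exact Or.inl (Subtype.ext h)
  · exact Or.inr (Subtype.ext h)

theorem no_complement (K : Subgroup Co0) : ¬ (Subgroup.zpowers negA).IsComplement' K := by
  intro hK
  have hneg2 : negA * negA = 1 := co0_ext fun v => by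
    rw [mul_smul, negA_apply, negA_apply, neg_neg, one_smul]
  have hord : orderOf negA = 2 := orderOf_eq_prime (by rw [pow_two, hneg2]) negA_ne
  have hidx : K.index = 2 := by
    rw [hK.index_eq_card, Nat.card_zpowers, hord]
  obtain ⟨σ, hσ, e⟩ := dodecad_transitive toSet_dodD (compl_dodecad toSet_dodD)
  have hd : IsW (toSet dodD) := toSet_dodD.1
  have hmem : ∀ a b : Co0, a * b * a⁻¹ * b ∈ K := fun a b => by
    rw [Subgroup.mul_mem_iff_of_index_two hidx, Subgroup.mul_mem_iff_of_index_two hidx,
      Subgroup.mul_mem_iff_of_index_two hidx, inv_mem_iff]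
    tauto
  have hprod : permA hσ * flipA hd * (permA hσ)⁻¹ * flipA hd = negA := by
    have h1 : ∀ w : leechLattice, (((permA hσ)⁻¹ • w : leechLattice) : GolayPt → ℤ) =
        permMap σ⁻¹ w := fun w => by
      have h := permMap_data (inv_mem hσ)
      have : (permA hσ)⁻¹ = mkAuto h := by
        refine inv_eq_of_mul_eq_one_right (co0_ext fun v => ?_)
        rw [mul_smul, permA, coe_mkAuto, coe_mkAuto, one_smul]
        exact funext fun i => congrArg _ (σ.apply_symm_apply i)
      rw [this, coe_mkAuto]
    refine co0_ext fun v => ?_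
    rw [mul_smul, mul_smul, mul_smul, negA_apply, permA, coe_mkAuto, flipA, coe_mkAuto]
    rw [show ((mkAuto (permMap_data hσ))⁻¹ : Co0) = (permA hσ)⁻¹ from rfl, h1, coe_mkAuto]
    funext k
    have hk : σ.symm k ∈ toSet dodD ↔ k ∉ toSet dodD := by
      rw [← Finset.mem_compl, ← e, ← Finset.inv_smul_mem_iff]
      rfl
    show (if σ.symm k ∈ toSet dodD then -(permMap σ⁻¹ _ (σ.symm k)) else permMap σ⁻¹ _ (σ.symm k)) = _
    show (if σ.symm k ∈ toSet dodD then -(flipOn _ _ (σ (σ.symm k))) else flipOn _ _ (σ (σ.symm k))) = _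
    simp only [Equiv.apply_symm_apply, flipOn, Pi.neg_apply]
    split_ifs <;> simp_all
  have hnK : negA ∈ K := hprod ▸ hmem _ _
  have := Subgroup.disjoint_def.1 hK.disjoint (Subgroup.mem_zpowers negA) hnK
  exact negA_ne this

end CfsgLib.Leech
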