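import Cfsg.Prelude.Def_MonsterType
import Cfsg.Agent.Lib.Leech.QuadForm
import Cfsg.Agent.Lib.Leech.Index

/-! The extraspecial group of the Monster type is of plus type. -/
set_option autoImplicit false
set_option linter.all false

namespace CfsgLib.Leech

open Cfsg

theorem square_form {P : Type*} [Group P] (hZ : Nat.card (Subgroup.center P) = 2)
    (hab : ∀ a b : P, (QuotientGroup.mk a : P ⧸ Subgroup.center P) * QuotientGroup.mk b =
      QuotientGroup.mk b * QuotientGroup.mk a)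
    (hsq : ∀ a : P, a * a ∈ Subgroup.center P) :
    ∃ F : P → ZMod 2, (∀ a, F a = 0 ↔ a * a = 1) ∧
      (∀ a c, c ∈ Subgroup.center P → F (a * c) = F a) ∧
      ∀ a b c, F (a * b * c) + F a + F b + F c = F (a * b) + F (a * c) + F (b * c) := by
  obtain ⟨φ⟩ : Nonempty (Subgroup.center P ≃* Multiplicative (ZMod 2)) :=
    haveI : Fact (Nat.Prime 2) := ⟨Nat.prime_two⟩
    ⟨mulEquivOfPrimeCardEq hZ (by simp)⟩
  refine ⟨fun a => Multiplicative.toAdd (φ ⟨a * a, hsq a⟩), fun a => ?_, fun a c hc => ?_,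
    fun a b c => ?_⟩
  · rw [toAdd_eq_zero, MulEquiv.map_eq_one_iff, ← Subtype.coe_inj]
    rfl
  · have h2 : c * c = 1 := by
      have : (⟨c, hc⟩ : Subgroup.center P) ^ 2 = 1 := hZ ▸ pow_card_eq_one'
      rw [← pow_two]; exact congrArg Subtype.val this
    have e : a * c * (a * c) = a * a := by
      have := Subgroup.mem_center_iff.1 hc a
      rw [mul_assoc, ← mul_assoc c, ← this, mul_assoc, ← mul_assoc a a, h2, mul_one]
    simp only [e]
  · have comm : ∀ x y : P, ∃ k ∈ Subgroup.center P, y * x = x * y * k := fun x y =>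
      ⟨(x * y)⁻¹ * (y * x), QuotientGroup.eq.1 (by
        simp only [QuotientGroup.mk_mul]; exact hab x y), by group⟩
    obtain ⟨p, hp, ep⟩ := comm a b
    obtain ⟨q, hq, eq⟩ := comm a c
    obtain ⟨r, hr, er⟩ := comm b c
    have hc : ∀ {k : P}, k ∈ Subgroup.center P → ∀ x, x * k = k * x := fun hk x =>
      Subgroup.mem_center_iff.1 hk x
    have sq : ∀ x y k : P, k ∈ Subgroup.center P → y * x = x * y * k →
        x * y * (x * y) = x * x * (y * y) * k := fun x y k hk e => by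
      calc x * y * (x * y) = x * (y * x) * y := by group
        _ = x * (x * y * k) * y := by rw [e]
        _ = x * x * (y * (k * y)) := by group
        _ = x * x * (y * (y * k)) := by rw [hc hk y]
        _ = x * x * (y * y) * k := by group
    have e3 : c * (a * b) = a * b * c * (q * r) := by
      calc c * (a * b) = (c * a) * b := by group
        _ = a * c * (q * b) := by rw [eq]; group
        _ = a * c * (b * q) := by rw [hc hq b]
        _ = a * (c * b) * q := by group
        _ = a * b * c * (r * q) := by rw [er]; group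
        _ = a * b * c * (q * r) := by rw [hc hq r]
    have u1 : (⟨a * b * c * (a * b * c), hsq _⟩ : Subgroup.center P) =
        ⟨a * b * (a * b), hsq _⟩ * ⟨c * c, hsq _⟩ * (⟨q, hq⟩ * ⟨r, hr⟩) :=
      Subtype.ext (sq _ _ _ (mul_mem hq hr) e3)
    have u2 : (⟨a * b * (a * b), hsq _⟩ : Subgroup.center P) =
        ⟨a * a, hsq _⟩ * ⟨b * b, hsq _⟩ * ⟨p, hp⟩ := Subtype.ext (sq _ _ _ hp ep)
    have u3 : (⟨a * c * (a * c), hsq _⟩ : Subgroup.center P) =
        ⟨a * a, hsq _⟩ * ⟨c * c, hsq _⟩ * ⟨q, hq⟩ := Subtype.ext (sq _ _ _ hq eq)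
    have u4 : (⟨b * c * (b * c), hsq _⟩ : Subgroup.center P) =
        ⟨b * b, hsq _⟩ * ⟨c * c, hsq _⟩ * ⟨r, hr⟩ := Subtype.ext (sq _ _ _ hr er)
    simp only [u1, u3, u4, u2, map_mul, toAdd_mul]
    abel

theorem monster_plus {G : Type*} [Group G] (z : G)
    (Q : Subgroup (Subgroup.centralizer ({z} : Set G))) [Q.Normal] (hM : IsOfMonsterType z Q) :
    ∃ E : Subgroup Q, IsElementaryAbelian 2 E ∧ Nat.card E = 2 ^ 13 := by
  obtain ⟨⟨-, -, ⟨-, hZ⟩, hcard, -⟩, e, ψ, hadd, hsurj, hker, hconj⟩ := hM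
  obtain ⟨Ψ, hΨ⟩ : ∃ Ψ : Multiplicative leechLattice →* Q ⧸ Subgroup.center Q,
      ∀ v, Ψ (Multiplicative.ofAdd v) = ψ v :=
    ⟨MonoidHom.mk' (fun v => ψ v.toAdd) fun v w => hadd _ _, fun v => rfl⟩
  choose lift hlift using fun v => QuotientGroup.mk_surjective (ψ v)
  have hab : ∀ a b : Q, (QuotientGroup.mk a : Q ⧸ Subgroup.center Q) * QuotientGroup.mk b =
      QuotientGroup.mk b * QuotientGroup.mk a := fun a b => by
    obtain ⟨v, hv⟩ := hsurj (QuotientGroup.mk a)
    obtain ⟨w, hw⟩ := hsurj (QuotientGroup.mk b)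
    rw [← hv, ← hw, ← hadd, ← hadd, add_comm]
  have hsq : ∀ a : Q, a * a ∈ Subgroup.center Q := fun a => by
    obtain ⟨v, hv⟩ := hsurj (QuotientGroup.mk a)
    rw [← QuotientGroup.eq_one_iff, QuotientGroup.mk_mul, ← hv, ← hadd]
    exact (hker _).2 ⟨v, rfl⟩
  obtain ⟨F, hF0, hFc, hFq⟩ := square_form hZ hab hsq
  have hFmk : ∀ a b : Q, (QuotientGroup.mk a : Q ⧸ Subgroup.center Q) = QuotientGroup.mk b →
      F a = F b := fun a b h => by
    have hm := QuotientGroup.eq.1 h
    rw [← hFc a _ hm, mul_inv_cancel_left]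
  have hmul : ∀ v w, F (lift (v + w)) = F (lift v * lift w) := fun v w =>
    hFmk _ _ (by rw [QuotientGroup.mk_mul, hlift, hlift, hlift, hadd])
  obtain ⟨c, hc⟩ : ∃ c : ZMod 2, ∀ v, F (lift v) = c * nQ v := by
    refine invariant_quad (fun v => F (lift v)) ?_ ?_ ?_
    · intro v w
      refine hFmk _ _ ?_
      rw [hlift, hlift, hadd, (hker (w + w)).2 ⟨w, rfl⟩, mul_one]
    · intro u v w
      simp only [hmul]
      rw [← hFq (lift u) (lift v) (lift w)]
      congr 3
      exact hFmk _ _ (by simp only [QuotientGroup.mk_mul, hlift, hadd])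
    · intro g v
      obtain ⟨x, hx⟩ := e.surjective (QuotientGroup.mk g)
      obtain ⟨h, rfl⟩ := QuotientGroup.mk_surjective x
      have he := hconj h g hx.symm v (lift v) (hlift v).symm
      show F (lift (g • v)) = F (lift v)
      obtain ⟨q', hq'⟩ : ∃ q' : Q, q' = ⟨h * lift v * h⁻¹,
        (inferInstance : Q.Normal).conj_mem _ (lift v).2 h⟩ := ⟨_, rfl⟩
      rw [hFmk (lift (g • v)) q' (by rw [hlift, he, hq'])]
      have key : F q' = 0 ↔ F (lift v) = 0 := by
        rw [hF0, hF0, ← Subtype.coe_inj, ← Subtype.coe_inj (a := lift v * lift v)]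
        simp only [hq', Subgroup.coe_mul, OneMemClass.coe_one]
        rw [show (h * lift v * h⁻¹ : Subgroup.centralizer ({z} : Set G)) * (h * lift v * h⁻¹) =
          h * (lift v * lift v) * h⁻¹ by group, conj_eq_one_iff]
      generalize F q' = a at key ⊢
      generalize F (lift v) = b at key ⊢
      revert a b; decide
  obtain ⟨A, hAL, hA2, hAi, hA32⟩ := singular_sub
  obtain ⟨A', hA'⟩ : ∃ A' : AddSubgroup leechLattice, A' = A.addSubgroupOf leechLattice := ⟨_, rfl⟩
  obtain ⟨S, hS⟩ : ∃ S : Subgroup (Multiplicative leechLattice), S = AddSubgroup.toSubgroup A' :=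
    ⟨_, rfl⟩
  have hone : ∀ q : Q, (QuotientGroup.mk q) ∈ S.map Ψ → q * q = 1 := by
    rintro q ⟨v, hv, he⟩
    subst hS hA'
    have hv : ((v.toAdd : leechLattice) : GolayPt → ℤ) ∈ A := hv
    obtain ⟨k, hk⟩ := hA32 _ hv
    have : F (lift v.toAdd) = 0 := by
      have h := hc v.toAdd
      rw [h, nQ_of (k := 2 * k) (by rw [hk]; ring)]
      push_cast
      rw [show (2 : ZMod 2) = 0 from rfl, zero_mul, mul_zero]
    rw [← hF0, ← this]
    exact hFmk _ _ (by rw [hlift, ← hΨ, ofAdd_toAdd, he])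
  refine ⟨(S.map Ψ).comap (QuotientGroup.mk' _), ⟨⟨⟨?_⟩⟩, fun a ha => ?_⟩, ?_⟩
  · rintro ⟨a, ha⟩ ⟨b, hb⟩
    refine Subtype.ext ?_
    have h1 : a * a = 1 := hone a ha
    have h2 : b * b = 1 := hone b hb
    have h3 : a * b * (a * b) = 1 := hone _ (Subgroup.mul_mem _ ha hb :
      a * b ∈ (S.map Ψ).comap (QuotientGroup.mk' _))
    show a * b = b * a
    rw [eq_inv_of_mul_eq_one_left h3, mul_inv_rev, ← eq_inv_of_mul_eq_one_left h1,
      ← eq_inv_of_mul_eq_one_left h2]
  · rw [pow_two]; exact hone a ha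
  · have hidx : ((S.map Ψ).comap (QuotientGroup.mk' (Subgroup.center Q))).index = 2 ^ 12 := by
      rw [Subgroup.index_comap_of_surjective _ (QuotientGroup.mk'_surjective _)]
      have hS2 : S.index = 2 ^ 12 := by rw [hS, hA', ← hAi]; rfl
      rw [← hS2]
      refine Subgroup.index_map_eq _ (fun x => ?_) ?_
      · obtain ⟨v, hv⟩ := hsurj x
        exact ⟨_, (hΨ v).trans hv⟩
      · intro v hv
        obtain ⟨w, hw⟩ := (hker v.toAdd).1 (by rw [← hΨ, ofAdd_toAdd]; exact hv)
        rw [hS, hA']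
        show ((v.toAdd : leechLattice) : GolayPt → ℤ) ∈ A
        rw [hw, AddSubgroup.coe_add, ← two_zsmul]
        exact hA2 _ w.2
    have h := Subgroup.card_mul_index ((S.map Ψ).comap (QuotientGroup.mk' (Subgroup.center Q)))
    rw [hidx, hcard] at h
    generalize Nat.card ((S.map Ψ).comap (QuotientGroup.mk' (Subgroup.center Q))) = n at h ⊢
    norm_num at h ⊢
    omega

end CfsgLib.Leech
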