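import Cfsg.Agent.Lib.Leech.OrbitData
import Cfsg.Agent.Lib.Leech.ModTwo
import Cfsg.Agent.Lib.Leech.Counts
import Cfsg.Agent.Lib.Leech.Cross
import Cfsg.Agent.Lib.Golay.OctPts
import Cfsg.Agent.Lib.Golay.Compl
import Cfsg.Agent.Lib.Golay.Subsets

/-! The automorphism group is transitive on the vectors of norm 32 and 48 and on the crosses. -/
set_option autoImplicit false
set_option linter.all false
set_option maxRecDepth 20000

namespace CfsgLib.Leech

open Cfsg CfsgLib.Golay
open scoped Pointwise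

/-- positions of absolute value `k` -/
def lvl (x : GolayPt → ℤ) (k : ℕ) : Finset GolayPt := Finset.univ.filter fun i => (x i).natAbs = k

theorem mem_lvl {x : GolayPt → ℤ} {k : ℕ} {i : GolayPt} : i ∈ lvl x k ↔ (x i).natAbs = k := by
  simp [lvl]

/-- the numbers of coordinates of each absolute value -/
def shp (x : GolayPt → ℤ) : List ℕ := (List.range 9).map fun k => (lvl x k).card

theorem shp_card {x y : GolayPt → ℤ} (h : shp x = shp y) {k : ℕ} (hk : k < 9) :
    (lvl x k).card = (lvl y k).card :=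
  List.map_inj_left.1 h k (List.mem_range.2 hk)

theorem natAbs_lt_of_shp {x y : GolayPt → ℤ} (h : shp x = shp y) (hy : ∀ i, (y i).natAbs < 9)
    (i : GolayPt) : (x i).natAbs < 9 := by
  classical
  have e : ∀ z : GolayPt → ℤ, ((Finset.range 9).biUnion (lvl z)).card =
      ∑ k ∈ Finset.range 9, (lvl z k).card := fun z => by
    refine Finset.card_biUnion fun a _ b _ hab => ?_
    rw [Function.onFun, Finset.disjoint_left]
    intro t ha hb
    rw [mem_lvl] at ha hb
    exact hab (ha.symm.trans hb)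
  have e2 : (Finset.range 9).biUnion (lvl y) = Finset.univ := by
    ext t; simp [mem_lvl, hy t]
  have hc : ((Finset.range 9).biUnion (lvl x)).card = Fintype.card GolayPt := by
    rw [e, Finset.sum_congr rfl fun k hk => shp_card h (Finset.mem_range.1 hk), ← e, e2]
    rfl
  have := (Finset.card_eq_iff_eq_univ _).1 hc
  have hi := Finset.mem_univ i
  rw [← this, Finset.mem_biUnion] at hi
  obtain ⟨k, hk, hki⟩ := hi
  rw [mem_lvl] at hki
  rw [hki]
  exact Finset.mem_range.1 hk

theorem pattern {x s : GolayPt → ℤ} (h : shp x = shp s) (hs : ∀ i, (s i).natAbs < 9) {a : Equiv.Perm GolayPt} (r : ℕ)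
    (hk : ∀ k < 9, k ≠ r → (lvl s k).card ≠ 0 → a • lvl s k = lvl x k) :
    ∀ i, (x (a i)).natAbs = (s i).natAbs := by
  intro i
  by_cases hi : (s i).natAbs = r
  · by_contra hne
    obtain ⟨v, hv⟩ : ∃ v, v = (x (a i)).natAbs := ⟨_, rfl⟩
    have hv9 : v < 9 := hv ▸ natAbs_lt_of_shp h hs _
    have hvr : v ≠ r := fun e => hne (by rw [← hv, e, hi])
    have hmem : a i ∈ lvl x v := mem_lvl.2 hv.symm
    have hc : (lvl s v).card ≠ 0 := by
      rw [← shp_card h hv9]
      exact (Finset.card_pos.2 ⟨_, hmem⟩).ne'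
    rw [← hk v hv9 hvr hc, ← Equiv.Perm.smul_def, Finset.smul_mem_smul_finset_iff, mem_lvl] at hmem
    exact hvr (hmem.symm.trans hi)
  · have hmem : i ∈ lvl s (s i).natAbs := mem_lvl.2 rfl
    have := Finset.smul_mem_smul_finset (a := a) hmem
    rw [hk _ (hs i) hi (Finset.card_pos.2 ⟨_, hmem⟩).ne', mem_lvl, Equiv.Perm.smul_def] at this
    exact this

/-- all submasks of a list of points -/
def pows (pts : List ℕ) : List ℕ := pts.map (2 ^ ·)

theorem mem_submasks : ∀ (pts : List ℕ) (q : ℕ), (∀ i, q.testBit i = true → i ∈ pts) →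
    q ∈ spanList (pows pts)
  | [], q, h => by
    have : q = 0 := Nat.eq_of_testBit_eq fun i => by
      rw [Nat.zero_testBit]
      by_contra hh
      exact absurd (h i (by simpa using hh)) List.not_mem_nil
    simp [this, pows, spanList]
  | p :: pts, q, h => by
    simp only [pows, List.map_cons, spanList, List.mem_flatMap, List.mem_cons, List.not_mem_nil,
      or_false]
    by_cases hp : q.testBit p = true
    · refine ⟨2 ^ p ^^^ q, mem_submasks pts _ fun i hi => ?_, Or.inr ?_⟩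
      · rw [Nat.testBit_xor, Nat.testBit_two_pow] at hi
        by_cases hip : p = i
        · subst hip; simp [hp] at hi
        · simp [hip] at hi
          exact (List.mem_cons.1 (h i hi)).resolve_left (Ne.symm hip)
      · rw [← Nat.xor_assoc, Nat.xor_self, Nat.zero_xor]
    · refine ⟨q, mem_submasks pts _ fun i hi => ?_, Or.inl rfl⟩
      exact (List.mem_cons.1 (h i hi)).resolve_left fun e => hp (e ▸ hi)

/-- the word chosen for a pattern -/
def choose' (W : List (ℕ × ℕ)) (q : ℕ) : ℕ :=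
  W.foldr (fun e acc => if q.testBit e.1 then acc ^^^ e.2 else acc) 0

/-- every allowed pattern of signs on the support is cut out by a code word -/
def signChk (s core : ℕ) (W : List (ℕ × ℕ)) : Bool :=
  (spanList (pows ((List.range 24).filter fun i => s.testBit i))).all fun q =>
    !(pc (q &&& core) % 2 == 0) || (inCode (choose' W q) && choose' W q &&& s == q)

/-- the support of a vector as a mask -/
def suppM (x : GolayPt → ℤ) : ℕ :=
  ((List.range 24).filter fun i => x (pt i) != 0).foldr (fun i a => 2 ^ i ||| a) 0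

/-- the coordinates `2` mod `4` as a mask -/
def coreM (x : GolayPt → ℤ) : ℕ :=
  ((List.range 24).filter fun i => x (pt i) % 4 == 2).foldr (fun i a => 2 ^ i ||| a) 0

/-- the side conditions for a standard even vector -/
def EvenStd (s : GolayPt → ℤ) (W : List (ℕ × ℕ)) : Prop :=
  MemB s ∧ (∀ i, (2 : ℤ) ∣ s i ∧ (s i).natAbs < 9) ∧
    (∀ i, ((suppM s).testBit (idx i) = true ↔ s i ≠ 0) ∧
      ((coreM s).testBit (idx i) = true ↔ s i % 4 = 2)) ∧
    signChk (suppM s) (coreM s) W = true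

theorem signs_even {s : GolayPt → ℤ} {W : List (ℕ × ℕ)} (hS : EvenStd s W) {x : GolayPt → ℤ}
    (hx : x ∈ leechLattice) (h : ∀ i, (x i).natAbs = (s i).natAbs) : Equi x s := by
  obtain ⟨hsB, hs, hmask, hchk⟩ := hS
  obtain ⟨Q, hQ⟩ : ∃ Q : Finset GolayPt, Q = Finset.univ.filter fun i => x i ≠ s i := ⟨_, rfl⟩
  have hQsupp : ∀ i ∈ Q, s i ≠ 0 ∧ x i = -s i := fun i hi => by
    simp only [hQ, Finset.mem_filter, Finset.mem_univ, true_and] at hi
    have := h i
    omega
  have hpar : 2 ∣ (Q ∩ toSet (coreM s)).card := by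
    have hsum : ∀ z ∈ leechLattice, (2 : ℤ) ∣ z none → (8 : ℤ) ∣ ∑ i, z i := by
      intro z hz h2
      obtain ⟨m, u, g1, g2, g3⟩ := mem_leechLattice.1 hz
      rw [sum_rep g1]
      rw [g1 none] at h2
      omega
    have h8 : (8 : ℤ) ∣ ∑ i, (x i - s i) := by
      rw [Finset.sum_sub_distrib]
      exact dvd_sub (hsum x hx (by have := h none; have := (hs none).1; omega))
        (hsum s (mem_of_memB hsB) (hs none).1)
    have h4 : (8 : ℤ) ∣ ∑ i, (x i - s i - if i ∈ Q ∩ toSet (coreM s) then (4 : ℤ) else 0) := by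
      refine Finset.dvd_sum fun i _ => ?_
      have := (hs i).1
      by_cases hi : i ∈ Q
      · have := hQsupp i hi
        by_cases hc : s i % 4 = 2
        · rw [if_pos (Finset.mem_inter.2 ⟨hi, mem_toSet.2 ((hmask i).2.2 hc)⟩)]; omega
        · rw [if_neg fun h' => hc ((hmask i).2.1 (mem_toSet.1 (Finset.mem_inter.1 h').2))]; omega
      · rw [if_neg fun h' => hi (Finset.mem_inter.1 h').1]
        simp only [hQ, Finset.mem_filter, Finset.mem_univ, true_and, not_not] at hi
        omega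
    rw [Finset.sum_sub_distrib, Finset.sum_ite_mem, Finset.univ_inter, Finset.sum_const,
      nsmul_eq_mul] at h4
    omega
  have hsub : ∀ i, (toMask Q).testBit i = true →
      i ∈ (List.range 24).filter fun i => (suppM s).testBit i := by
    intro i hi
    have hi24 : i < 24 := by
      by_contra hh
      rw [Nat.testBit_lt_two_pow (lt_of_lt_of_le (toMask_lt Q)
        (Nat.pow_le_pow_right (by norm_num) (not_lt.1 hh) : 2 ^ 24 ≤ 2 ^ i))] at hi
      exact Bool.false_ne_true hi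
    rw [List.mem_filter]
    refine ⟨List.mem_range.2 hi24, ?_⟩
    have hm : pt i ∈ Q := by
      rw [← toSet_toMask Q, mem_toSet, idx_pt hi24]; exact hi
    have := (hmask (pt i)).1.2 (hQsupp _ hm).1
    rwa [idx_pt hi24] at this
  have := List.all_eq_true.1 hchk _ (mem_submasks _ _ hsub)
  have hev : pc (toMask Q &&& coreM s) % 2 = 0 := by
    rw [← card_toSet, toSet_and, toSet_toMask]
    omega
  simp only [hev, beq_self_eq_true, Bool.not_true, Bool.false_or, Bool.and_eq_true, beq_iff_eq] at this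
  obtain ⟨hc, hcs⟩ := this
  obtain ⟨c, hcd⟩ : ∃ c, c = toSet (choose' W (toMask Q)) := ⟨_, rfl⟩
  have hcW : IsW c := by
    rw [hcd, isW_iff, toMask_toSet (lt_of_inCode hc)]; exact hc
  have e : flipOn c x = s := by
    funext i
    have hiQ : s i ≠ 0 → (i ∈ c ↔ i ∈ Q) := fun hne => by
      conv_rhs => rw [← toSet_toMask Q, ← hcs, toSet_and]
      rw [Finset.mem_inter, hcd]
      exact ⟨fun h => ⟨h, mem_toSet.2 ((hmask i).1.2 hne)⟩, fun h => h.1⟩
    by_cases h0 : s i = 0
    · have : x i = 0 := by have := h i; omega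
      simp [flipOn, this, h0]
    · simp only [flipOn]
      by_cases hi : i ∈ Q
      · rw [if_pos ((hiQ h0).2 hi)]; have := hQsupp i hi; omega
      · rw [if_neg fun h' => hi ((hiQ h0).1 h')]
        simpa [hQ] using hi
  exact e ▸ equi_flip hcW hx

theorem signs_odd {s : GolayPt → ℤ} (hs : ∀ i, s i % 4 = 1) {x : GolayPt → ℤ}
    (hx : x ∈ leechLattice) (h : ∀ i, (x i).natAbs = (s i).natAbs) : Equi x s := by
  obtain ⟨c, hc⟩ : ∃ c : Finset GolayPt, c = Finset.univ.filter fun i => x i % 4 = 3 := ⟨_, rfl⟩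
  have hcW : IsW c := by
    obtain ⟨_, -, -, hres⟩ := mem_lattice_iff_set.1 hx
    rw [hc]
    exact hres 3
  have e : flipOn c x = s := by
    funext i
    have := h i
    have := hs i
    simp only [flipOn, hc, Finset.mem_filter, Finset.mem_univ, true_and]
    split_ifs <;> omega
  exact e ▸ equi_flip hcW hx

theorem to_even {s : GolayPt → ℤ} {W : List (ℕ × ℕ)} (hS : EvenStd s W) {x : GolayPt → ℤ}
    (hx : x ∈ leechLattice) (h : shp x = shp s) {a : Equiv.Perm GolayPt} (ha : a ∈ M24) (r : ℕ)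
    (hk : ∀ k < 9, k ≠ r → (lvl s k).card ≠ 0 → a • lvl s k = lvl x k) : Equi x s := by
  have hp := pattern h (fun i => (hS.2.1 i).2) r hk
  exact (equi_perm (inv_mem ha) hx).trans
    (signs_even hS (equi_perm (inv_mem ha) hx).mem fun i => hp i)

theorem to_odd {s : GolayPt → ℤ} (hs : ∀ i, s i % 4 = 1) (hb : ∀ i, (s i).natAbs < 9) {x : GolayPt → ℤ}
    (hx : x ∈ leechLattice) (h : shp x = shp s) {a : Equiv.Perm GolayPt} (ha : a ∈ M24) (r : ℕ)
    (hk : ∀ k < 9, k ≠ r → (lvl s k).card ≠ 0 → a • lvl s k = lvl x k) : Equi x s := by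
  have hp := pattern h hb r hk
  exact (equi_perm (inv_mem ha) hx).trans
    (signs_odd hs (equi_perm (inv_mem ha) hx).mem fun i => hp i)

theorem evenStds : EvenStd pairV wit_pairV ∧ EvenStd octV wit_octV ∧ EvenStd dodV wit_dodV ∧
    EvenStd fourV wit_fourV ∧ EvenStd eightV wit_eightV ∧ EvenStd tetV wit_tetV ∧
    EvenStd sixV wit_sixV ∧ EvenStd ppV wit_ppV ∧ EvenStd dfV wit_dfV := by
  refine ⟨?_, ?_, ?_, ?_, ?_, ?_, ?_, ?_, ?_⟩ <;>
    exact ⟨by decide +kernel, by decide +kernel, by decide +kernel, by decide +kernel⟩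

theorem oddStds : (∀ i, omegaV i % 4 = 1 ∧ (omegaV i).natAbs < 9) ∧
    (∀ i, threeV i % 4 = 1 ∧ (threeV i).natAbs < 9) ∧ (∀ i, fiveV i % 4 = 1 ∧ (fiveV i).natAbs < 9) ∧
    (∀ i, etV i % 4 = 1 ∧ (etV i).natAbs < 9) := by
  refine ⟨?_, ?_, ?_, ?_⟩ <;> decide +kernel

/-- residue `2` modulo `4` -/
def core (x : GolayPt → ℤ) : Finset GolayPt := Finset.univ.filter fun i => x i % 4 = 2

theorem core_isW {x : GolayPt → ℤ} (hx : x ∈ leechLattice) : IsW (core x) := by
  obtain ⟨_, -, -, hres⟩ := mem_lattice_iff_set.1 hx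
  exact hres 2

/-- the evenness of a vector with the given shape -/
theorem core_eq {x s : GolayPt → ℤ} (h : shp x = shp s) (hs : ∀ i, (2 : ℤ) ∣ s i ∧ (s i).natAbs < 9) :
    core x = lvl x 2 ∪ lvl x 6 := by
  ext i
  have hlt := natAbs_lt_of_shp h (fun i => (hs i).2) i
  have hev : ∀ k < 9, ¬ 2 ∣ k → (lvl x k).card = 0 := fun k hk h2 => by
    rw [shp_card h hk, Finset.card_eq_zero, Finset.eq_empty_iff_forall_notMem]
    intro j hj
    rw [mem_lvl] at hj
    have := (hs j).1
    omega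
  have hne : 2 ∣ (x i).natAbs := by
    by_contra hh
    have := hev _ hlt hh
    rw [Finset.card_eq_zero] at this
    have hm : i ∈ lvl x (x i).natAbs := mem_lvl.2 rfl
    rw [this] at hm
    exact absurd hm (Finset.notMem_empty i)
  simp only [core, Finset.mem_filter, Finset.mem_univ, true_and, Finset.mem_union, mem_lvl]
  omega

theorem std_levels :
    lvl pairV 4 = {bp 0, bp 1} ∧ lvl omegaV 3 = {bp 0} ∧ lvl fiveV 5 = {bp 0} ∧ lvl eightV 8 = {bp 0} ∧
    lvl threeV 3 = {bp 0, bp 1, bp 2} ∧ lvl etV 5 = {bp 0} ∧ lvl etV 3 = {bp 1, bp 2} ∧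
    lvl octV 2 = toSet octO ∧ lvl dodV 2 = toSet dodD ∧ lvl tetV 4 = toSet tet0 ∧
    lvl fourV 2 = toSet octO ∧ lvl fourV 4 = {bp 6} ∧
    lvl sixV 6 = {bp 0} ∧ lvl sixV 2 = toSet octO \ {bp 0} ∧
    lvl ppV 2 = toSet octO ∧ lvl ppV 4 = {bp 6, pt 6} ∧
    lvl dfV 2 = toSet dodD ∧ lvl dfV 4 = {pt 5} := by
  refine ⟨?_, ?_, ?_, ?_, ?_, ?_, ?_, ?_, ?_, ?_, ?_, ?_, ?_, ?_, ?_, ?_, ?_, ?_⟩ <;> decide +kernel

/-- the occurring values of a standard shape -/
def vals (s : GolayPt → ℤ) : List ℕ := (List.range 9).filter fun k => (lvl s k).card != 0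

theorem vals_std : vals pairV = [0, 4] ∧ vals omegaV = [1, 3] ∧ vals fiveV = [1, 5] ∧
    vals eightV = [0, 8] ∧ vals threeV = [1, 3] ∧ vals etV = [1, 3, 5] ∧ vals octV = [0, 2] ∧
    vals dodV = [0, 2] ∧ vals tetV = [0, 4] ∧ vals fourV = [0, 2, 4] ∧ vals sixV = [0, 2, 6] ∧
    vals ppV = [0, 2, 4] ∧ vals dfV = [0, 2, 4] := by
  refine ⟨?_, ?_, ?_, ?_, ?_, ?_, ?_, ?_, ?_, ?_, ?_, ?_, ?_⟩ <;> decide +kernel

theorem mem_vals {s : GolayPt → ℤ} {k : ℕ} (hk : k < 9) (h : (lvl s k).card ≠ 0) : k ∈ vals s :=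
  List.mem_filter.2 ⟨List.mem_range.2 hk, by simp [h]⟩

theorem one_level {s x : GolayPt → ℤ} {r k0 : ℕ} (hv : vals s = [r, k0]) {a : Equiv.Perm GolayPt}
    (h : a • lvl s k0 = lvl x k0) :
    ∀ k < 9, k ≠ r → (lvl s k).card ≠ 0 → a • lvl s k = lvl x k := by
  intro k hk hr hc
  have := mem_vals hk hc
  rw [hv] at this
  simp only [List.mem_cons, List.not_mem_nil, or_false] at this
  rw [this.resolve_left hr]
  exact h

theorem two_levels {s x : GolayPt → ℤ} {r k0 k1 : ℕ} (hv : vals s = [r, k0, k1])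
    {a : Equiv.Perm GolayPt} (h : a • lvl s k0 = lvl x k0) (h' : a • lvl s k1 = lvl x k1) :
    ∀ k < 9, k ≠ r → (lvl s k).card ≠ 0 → a • lvl s k = lvl x k := by
  intro k hk hr hc
  have := mem_vals hk hc
  rw [hv] at this
  simp only [List.mem_cons, List.not_mem_nil, or_false] at this
  rcases this.resolve_left hr with rfl | rfl
  · exact h
  · exact h'

theorem smul_pair (a : Equiv.Perm GolayPt) (p q : GolayPt) :
    a • ({p, q} : Finset GolayPt) = {a p, a q} := by
  simp [Finset.smul_finset_def]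

theorem smul_single (a : Equiv.Perm GolayPt) (p : GolayPt) :
    a • ({p} : Finset GolayPt) = {a p} := by
  simp [Finset.smul_finset_def]

theorem map_one (p : GolayPt) : ∃ a ∈ M24, a (bp 0) = p := by
  obtain ⟨a, ha, h⟩ := exists_to_base 1 (by norm_num) ⟨fun _ => p, fun i j _ => Subsingleton.elim i j⟩
  exact ⟨a⁻¹, inv_mem ha, Equiv.Perm.inv_eq_iff_eq.2 (h 0).symm⟩

theorem map_two {p q : GolayPt} (h : p ≠ q) : ∃ a ∈ M24, a (bp 0) = p ∧ a (bp 1) = q := by
  have hinj : Function.Injective ![p, q] := by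
    intro i j
    fin_cases i <;> fin_cases j <;> simp [h, Ne.symm h]
  obtain ⟨a, ha, e⟩ := exists_to_base 2 (by norm_num) ⟨![p, q], hinj⟩
  exact ⟨a⁻¹, inv_mem ha, Equiv.Perm.inv_eq_iff_eq.2 (e 0).symm,
    Equiv.Perm.inv_eq_iff_eq.2 (e 1).symm⟩

theorem map_three {p q r : GolayPt} (h : p ≠ q) (h' : p ≠ r) (h'' : q ≠ r) :
    ∃ a ∈ M24, a (bp 0) = p ∧ a (bp 1) = q ∧ a (bp 2) = r := by
  have hinj : Function.Injective ![p, q, r] := by
    intro i j
    fin_cases i <;> fin_cases j <;> simp [h, h', h'', Ne.symm h, Ne.symm h', Ne.symm h'']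
  obtain ⟨a, ha, e⟩ := exists_to_base 3 (by norm_num) ⟨![p, q, r], hinj⟩
  exact ⟨a⁻¹, inv_mem ha, Equiv.Perm.inv_eq_iff_eq.2 (e 0).symm,
    Equiv.Perm.inv_eq_iff_eq.2 (e 1).symm, Equiv.Perm.inv_eq_iff_eq.2 (e 2).symm⟩

theorem fam_omega {x : GolayPt → ℤ} (hx : x ∈ leechLattice) (h : shp x = shp omegaV) :
    Equi x omegaV := by
  obtain ⟨p, hp⟩ := Finset.card_eq_one.1 ((shp_card h (by norm_num)).trans
    (by rw [std_levels.2.1]; rfl) : (lvl x 3).card = 1)
  obtain ⟨a, ha, e⟩ := map_one p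
  exact to_odd (fun i => (oddStds.1 i).1) (fun i => (oddStds.1 i).2) hx h ha 1
    (one_level vals_std.2.1 (by rw [std_levels.2.1, hp, smul_single, e]))

theorem fam_five {x : GolayPt → ℤ} (hx : x ∈ leechLattice) (h : shp x = shp fiveV) :
    Equi x fiveV := by
  obtain ⟨p, hp⟩ := Finset.card_eq_one.1 ((shp_card h (by norm_num)).trans
    (by rw [std_levels.2.2.1]; rfl) : (lvl x 5).card = 1)
  obtain ⟨a, ha, e⟩ := map_one p
  exact to_odd (fun i => (oddStds.2.2.1 i).1) (fun i => (oddStds.2.2.1 i).2) hx h ha 1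
    (one_level vals_std.2.2.1 (by rw [std_levels.2.2.1, hp, smul_single, e]))

theorem fam_eight {x : GolayPt → ℤ} (hx : x ∈ leechLattice) (h : shp x = shp eightV) :
    Equi x eightV := by
  obtain ⟨p, hp⟩ := Finset.card_eq_one.1 ((shp_card h (by norm_num)).trans
    (by rw [std_levels.2.2.2.1]; rfl) : (lvl x 8).card = 1)
  obtain ⟨a, ha, e⟩ := map_one p
  exact to_even evenStds.2.2.2.2.1 hx h ha 0
    (one_level vals_std.2.2.2.1 (by rw [std_levels.2.2.2.1, hp, smul_single, e]))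

theorem fam_pair {x : GolayPt → ℤ} (hx : x ∈ leechLattice) (h : shp x = shp pairV) :
    Equi x pairV := by
  obtain ⟨p, q, hpq, hp⟩ := Finset.card_eq_two.1 ((shp_card h (by norm_num)).trans
    (by rw [std_levels.1]; exact Finset.card_pair (by decide)) : (lvl x 4).card = 2)
  obtain ⟨a, ha, e, e'⟩ := map_two hpq
  exact to_even evenStds.1 hx h ha 0
    (one_level vals_std.1 (by rw [std_levels.1, hp, smul_pair, e, e']))

theorem fam_three {x : GolayPt → ℤ} (hx : x ∈ leechLattice) (h : shp x = shp threeV) :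
    Equi x threeV := by
  have hl := std_levels.2.2.2.2.1
  obtain ⟨p, q, r, h1, h2, h3, hp⟩ := Finset.card_eq_three.1 ((shp_card h (by norm_num)).trans
    (by rw [hl]; exact Finset.card_eq_three.2 ⟨_, _, _, by decide, by decide, by decide, rfl⟩) :
      (lvl x 3).card = 3)
  obtain ⟨a, ha, e, e', e''⟩ := map_three h1 h2 h3
  exact to_odd (fun i => (oddStds.2.1 i).1) (fun i => (oddStds.2.1 i).2) hx h ha 1
    (one_level vals_std.2.2.2.2.1 (by
      rw [hl, hp, Finset.smul_finset_def, Finset.image_insert, Finset.image_insert,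
        Finset.image_singleton, Equiv.Perm.smul_def, Equiv.Perm.smul_def, Equiv.Perm.smul_def, e, e',
        e'']))

theorem fam_et {x : GolayPt → ℤ} (hx : x ∈ leechLattice) (h : shp x = shp etV) :
    Equi x etV := by
  obtain ⟨-, -, -, -, -, h5, h3, -⟩ := std_levels
  obtain ⟨p, hp⟩ := Finset.card_eq_one.1 ((shp_card h (by norm_num)).trans
    (by rw [h5]; rfl) : (lvl x 5).card = 1)
  obtain ⟨q, r, hqr, hq⟩ := Finset.card_eq_two.1 ((shp_card h (by norm_num)).trans
    (by rw [h3]; exact Finset.card_pair (by decide)) : (lvl x 3).card = 2)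
  have hne : ∀ t ∈ lvl x 3, p ≠ t := fun t ht e => by
    have : p ∈ lvl x 5 := by rw [hp]; exact Finset.mem_singleton_self p
    rw [mem_lvl] at this ht
    rw [e] at this
    omega
  obtain ⟨a, ha, e, e', e''⟩ := map_three (hne q (by rw [hq]; simp)) (hne r (by rw [hq]; simp)) hqr
  exact to_odd (fun i => (oddStds.2.2.2 i).1) (fun i => (oddStds.2.2.2 i).2) hx h ha 1
    (two_levels vals_std.2.2.2.2.2.1 (by rw [h3, hq, smul_pair, e', e''])
      (by rw [h5, hp, smul_single, e]))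

theorem fam_oct {x : GolayPt → ℤ} (hx : x ∈ leechLattice) (h : shp x = shp octV) :
    Equi x octV := by
  obtain ⟨-, -, -, -, -, -, -, hl, -⟩ := std_levels
  have h6 : lvl x 6 = ∅ := Finset.card_eq_zero.1 ((shp_card h (by norm_num)).trans (by decide +kernel))
  have hc := core_eq h evenStds.2.1.2.1
  rw [h6, Finset.union_empty] at hc
  have ho : lvl x 2 ∈ octads := ⟨hc ▸ core_isW hx, (shp_card h (by norm_num)).trans (by
    rw [hl]; decide +kernel)⟩
  obtain ⟨a, ha, e⟩ := exists_octO ho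
  exact to_even evenStds.2.1 hx h ha 0 (one_level vals_std.2.2.2.2.2.2.1 (by rw [hl, e]))

theorem fam_dod {x : GolayPt → ℤ} (hx : x ∈ leechLattice) (h : shp x = shp dodV) :
    Equi x dodV := by
  obtain ⟨-, -, -, -, -, -, -, -, hl, -⟩ := std_levels
  have h6 : lvl x 6 = ∅ := Finset.card_eq_zero.1 ((shp_card h (by norm_num)).trans (by decide +kernel))
  have hc := core_eq h evenStds.2.2.1.2.1
  rw [h6, Finset.union_empty] at hc
  have ho : lvl x 2 ∈ dodecads := ⟨hc ▸ core_isW hx, (shp_card h (by norm_num)).trans (by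
    rw [hl]; decide +kernel)⟩
  obtain ⟨a, ha, e⟩ := exists_dodD ho
  exact to_even evenStds.2.2.1 hx h ha 0 (one_level vals_std.2.2.2.2.2.2.2.1 (by rw [hl, e]))

theorem fam_tet {x : GolayPt → ℤ} (hx : x ∈ leechLattice) (h : shp x = shp tetV) :
    Equi x tetV := by
  obtain ⟨-, -, -, -, -, -, -, -, -, hl, -⟩ := std_levels
  obtain ⟨a, ha, e⟩ := exists_smul_tet0 ((shp_card h (by norm_num)).trans
    (by rw [hl]; decide +kernel) : (lvl x 4).card = 4)
  exact to_even evenStds.2.2.2.2.2.1 hx h ha 0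
    (one_level vals_std.2.2.2.2.2.2.2.2.1 (by rw [hl, e]))

theorem fam_four {x : GolayPt → ℤ} (hx : x ∈ leechLattice) (h : shp x = shp fourV) :
    Equi x fourV := by
  obtain ⟨-, -, -, -, -, -, -, -, -, -, hl, hl4, -⟩ := std_levels
  have h6 : lvl x 6 = ∅ := Finset.card_eq_zero.1 ((shp_card h (by norm_num)).trans (by decide +kernel))
  have hc := core_eq h evenStds.2.2.2.1.2.1
  rw [h6, Finset.union_empty] at hc
  have ho : lvl x 2 ∈ octads := ⟨hc ▸ core_isW hx, (shp_card h (by norm_num)).trans (by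
    rw [hl]; decide +kernel)⟩
  obtain ⟨q, hq⟩ := Finset.card_eq_one.1 ((shp_card h (by norm_num)).trans
    (by rw [hl4]; rfl) : (lvl x 4).card = 1)
  obtain ⟨p, hp⟩ := Finset.card_pos.1 (by rw [ho.2]; norm_num : 0 < (lvl x 2).card)
  obtain ⟨a, ha, e, -, e'⟩ := exists_octad_in_out ho hp (q := q) (fun hm => by
    have : q ∈ lvl x 4 := by rw [hq]; exact Finset.mem_singleton_self q
    rw [mem_lvl] at this hm
    omega)
  exact to_even evenStds.2.2.2.1 hx h ha 0 (two_levels vals_std.2.2.2.2.2.2.2.2.2.1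
    (by rw [hl, e]) (by rw [hl4, hq, smul_single, e']))

theorem fam_six {x : GolayPt → ℤ} (hx : x ∈ leechLattice) (h : shp x = shp sixV) :
    Equi x sixV := by
  obtain ⟨-, -, -, -, -, -, -, -, -, -, -, -, hl6, hl2, -⟩ := std_levels
  obtain ⟨p, hp⟩ := Finset.card_eq_one.1 ((shp_card h (by norm_num)).trans
    (by rw [hl6]; rfl) : (lvl x 6).card = 1)
  have hc := core_eq h evenStds.2.2.2.2.2.2.1.2.1
  have hdis : Disjoint (lvl x 2) (lvl x 6) := Finset.disjoint_left.2 fun t h1 h2 => by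
    rw [mem_lvl] at h1 h2; omega
  have ho : core x ∈ octads := ⟨core_isW hx, by
    rw [hc, Finset.card_union_of_disjoint hdis, shp_card h (show 2 < 9 by norm_num),
      shp_card h (show 6 < 9 by norm_num)]
    decide +kernel⟩
  obtain ⟨q, hq⟩ := Finset.card_pos.1 (by
    rw [Finset.card_compl, card_pt, ho.2]; norm_num : 0 < (core x)ᶜ.card)
  obtain ⟨a, ha, e, e', -⟩ := exists_octad_in_out ho (p := p)
    (by rw [hc, hp]; exact Finset.mem_union_right _ (Finset.mem_singleton_self p))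
    (Finset.mem_compl.1 hq)
  refine to_even evenStds.2.2.2.2.2.2.1 hx h ha 0 (two_levels vals_std.2.2.2.2.2.2.2.2.2.2.1 ?_
    (by rw [hl6, hp, smul_single, e']))
  rw [hl2, Finset.smul_finset_sdiff, e, smul_single, e', hc, ← hp, Finset.union_sdiff_right,
    sdiff_eq_left.2 hdis]

theorem outPerms_check : (outPerms.all fun p => inM24 p && pmask p octO == octO && img p 4 == 4) = true ∧
    ∀ q : GolayPt, q ∉ toSet octO → q ≠ bp 6 → outPerms.any (fun p => pt (img p 6) == q) = true := by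
  constructor <;> decide +kernel

theorem fam_pp {x : GolayPt → ℤ} (hx : x ∈ leechLattice) (h : shp x = shp ppV) :
    Equi x ppV := by
  obtain ⟨-, -, -, -, -, -, -, -, -, -, -, -, -, -, hl, hl4, -⟩ := std_levels
  have h6 : lvl x 6 = ∅ := Finset.card_eq_zero.1 ((shp_card h (by norm_num)).trans (by decide +kernel))
  have hc := core_eq h evenStds.2.2.2.2.2.2.2.1.2.1
  rw [h6, Finset.union_empty] at hc
  have ho : lvl x 2 ∈ octads := ⟨hc ▸ core_isW hx, (shp_card h (by norm_num)).trans (by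
    rw [hl]; decide +kernel)⟩
  obtain ⟨q, q', hqq, hq⟩ := Finset.card_eq_two.1 ((shp_card h (by norm_num)).trans
    (by rw [hl4]; exact Finset.card_pair (by decide)) : (lvl x 4).card = 2)
  have hout : ∀ t ∈ lvl x 4, t ∉ lvl x 2 := fun t h1 h2 => by rw [mem_lvl] at h1 h2; omega
  obtain ⟨p, hp⟩ := Finset.card_pos.1 (by rw [ho.2]; norm_num : 0 < (lvl x 2).card)
  obtain ⟨a, ha, e, -, e'⟩ := exists_octad_in_out ho hp (q := q) (hout q (by rw [hq]; simp))
  have h1 : a⁻¹ q' ∉ toSet octO := fun hm => hout q' (by rw [hq]; simp) (by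
    rw [← e]
    have := Finset.smul_mem_smul_finset (a := a) hm
    simpa using this)
  have h2 : a⁻¹ q' ≠ bp 6 := fun hm => hqq (by rw [← e', ← hm]; simp)
  obtain ⟨c, hcL, hc6⟩ := List.any_eq_true.1 (outPerms_check.2 _ h1 h2)
  have hchk := List.all_eq_true.1 outPerms_check.1 c hcL
  simp only [Bool.and_eq_true, beq_iff_eq] at hchk hc6
  have hok : okPerm c = true := okPerm_of_inM24 hchk.1.1
  have hc4 : toPerm c (bp 6) = bp 6 := by
    rw [toPerm_apply hok]
    show pt (img c (idx (bp 6))) = bp 6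
    rw [show idx (bp 6) = 4 by decide, hchk.2]; decide
  have hcq : toPerm c (pt 6) = a⁻¹ q' := by
    rw [toPerm_apply hok]
    show pt (img c (idx (pt 6))) = a⁻¹ q'
    rw [show idx (pt 6) = 6 by decide, hc6]
  refine to_even evenStds.2.2.2.2.2.2.2.1 hx h (mul_mem ha (toPerm_mem_M24 hchk.1.1)) 0
    (two_levels vals_std.2.2.2.2.2.2.2.2.2.2.2.1 ?_ ?_)
  · rw [hl, mul_smul, smul_toSet hok, hchk.1.2, e]
  · rw [hl4, smul_pair, Equiv.Perm.mul_apply, Equiv.Perm.mul_apply, hc4, hcq, hq, e']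
    simp

theorem fam_df {x : GolayPt → ℤ} (hx : x ∈ leechLattice) (h : shp x = shp dfV) :
    Equi x dfV := by
  obtain ⟨-, -, -, -, -, -, -, -, -, -, -, -, -, -, -, -, hl, hl4⟩ := std_levels
  have h6 : lvl x 6 = ∅ := Finset.card_eq_zero.1 ((shp_card h (by norm_num)).trans (by decide +kernel))
  have hc := core_eq h evenStds.2.2.2.2.2.2.2.2.2.1
  rw [h6, Finset.union_empty] at hc
  have ho : lvl x 2 ∈ dodecads := ⟨hc ▸ core_isW hx, (shp_card h (by norm_num)).trans (by
    rw [hl]; decide +kernel)⟩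
  obtain ⟨q, hq⟩ := Finset.card_eq_one.1 ((shp_card h (by norm_num)).trans
    (by rw [hl4]; rfl) : (lvl x 4).card = 1)
  obtain ⟨a, ha, e⟩ := exists_dodD ho
  have h1 : a⁻¹ q ∉ toSet dodD := fun hm => by
    have := Finset.smul_mem_smul_finset (a := a) hm
    rw [e, Equiv.Perm.smul_def] at this
    rw [show a (a⁻¹ q) = q from a.apply_symm_apply q] at this
    have h4 : q ∈ lvl x 4 := by rw [hq]; exact Finset.mem_singleton_self q
    rw [mem_lvl] at this h4
    omega
  obtain ⟨g, hg, eg⟩ := S3pt_trans (show pt 5 ∉ toSet dodD by decide +kernel) h1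
  refine to_even evenStds.2.2.2.2.2.2.2.2 hx h (mul_mem ha (S3pt_le hg)) 0
    (two_levels vals_std.2.2.2.2.2.2.2.2.2.2.2.2 ?_ ?_)
  · rw [hl, mul_smul, MulAction.mem_stabilizer_iff.1 (mem_S3pt.1 hg).1.2, e]
  · rw [hl4, smul_single, Equiv.Perm.mul_apply, eg, hq]
    simp

end CfsgLib.Leech
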