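import Cfsg.Agent.Lib.Leech.Counts

/-! The shapes of the lattice vectors of sum of squares 48. -/
set_option autoImplicit false
set_option linter.all false

namespace CfsgLib.Leech

open Cfsg

theorem evenSet_sub' {B : List ℤ} (hB : ∀ b ∈ B, b ∈ allB) (n : ℕ) :
    evenSet allA B n ⊆ evenSet allA allB n := fun x ⟨u, h1, h2, h3⟩ => by
  refine ⟨u, h1, fun i => ?_, h3⟩
  have := h2 i
  split_ifs at this ⊢ with hi
  · exact this
  · exact hB _ this

theorem oddSet_sub' {A : List ℤ} (hA : ∀ a ∈ A, a ∈ allO) (n : ℕ) :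
    oddSet A n ⊆ oddSet allO n := fun x ⟨h1, h2, h3⟩ =>
  ⟨h1, fun i => by obtain ⟨a, ha, e⟩ := h2 i; exact ⟨a, hA a ha, e⟩, h3⟩

theorem fin_even (n : ℕ) (hn : n ≤ 16) (A B : List ℤ) : (evenSet A B n).Finite :=
  bounded_finite fun x hx => by rw [(evenSet_sub hx).2.1]; omega

theorem shape_values :
    evenTab [1, -1] [0] 12 0 + 759 * evenTab [1, -1] [0] 12 8 + 2576 * evenTab [1, -1] [0] 12 12 +
      759 * evenTab [1, -1] [0] 12 16 + evenTab [1, -1] [0] 12 24 = 5275648 ∧
    4096 * oddTab [1, -3] 3 = 8290304 ∧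
    evenTab allA allB 12 0 + 759 * evenTab allA allB 12 8 + 2576 * evenTab allA allB 12 12 +
      759 * evenTab allA allB 12 16 + evenTab allA allB 12 24 -
      (evenTab allA [0, 4, -4] 12 0 + 759 * evenTab allA [0, 4, -4] 12 8 +
      2576 * evenTab allA [0, 4, -4] 12 12 + 759 * evenTab allA [0, 4, -4] 12 16 +
      evenTab allA [0, 4, -4] 12 24) = 3108864 ∧
    4096 * oddTab allO 3 - 4096 * oddTab [1, -3, -7] 3 = 98304 := by
  refine ⟨?_, ?_, ?_, ?_⟩ <;> decide +kernel

theorem none_odd {x : GolayPt → ℤ} (hx : x ∈ leechLattice) {i : GolayPt} :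
    (2 : ℤ) ∣ x none ↔ (2 : ℤ) ∣ x i := by
  obtain ⟨m, u, h, -, -⟩ := mem_leechLattice.1 hx
  rw [h none, h i]
  omega

theorem shapes :
    {x : GolayPt → ℤ | x ∈ leechLattice ∧ sqNorm x = 48 ∧ ∀ i, x i = 0 ∨ x i = 2 ∨ x i = -2}.ncard
      = 5275648 ∧
    {x : GolayPt → ℤ | x ∈ leechLattice ∧ sqNorm x = 48 ∧
      ∃ i j k, i ≠ j ∧ j ≠ k ∧ i ≠ k ∧ |x i| = 3 ∧ |x j| = 3 ∧ |x k| = 3}.ncard = 8290304 ∧
    {x : GolayPt → ℤ | x ∈ leechLattice ∧ sqNorm x = 48 ∧ ∃ i, |x i| = 4}.ncard = 3108864 ∧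
    {x : GolayPt → ℤ | x ∈ leechLattice ∧ sqNorm x = 48 ∧ ∃ i, |x i| = 5}.ncard = 98304 := by
  obtain ⟨v1, v2, v3, v4⟩ := shape_values
  have e48 : (48 : ℤ) = 4 * ((12 : ℕ) : ℤ) := rfl
  have o48 : (48 : ℤ) = 24 + 8 * ((3 : ℕ) : ℤ) := rfl
  refine ⟨?_, ?_, ?_, ?_⟩
  · rw [← v1, ← ncard_evenSet (by decide) (by decide) (by decide) (by decide) (by norm_num)]
    congr 1
    ext x
    constructor
    · rintro ⟨hx, hn, hv⟩
      obtain ⟨u, h1, h2, h3⟩ := even_mem_evenSet hx (by have := hv none; omega) (by norm_num)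
        (hn.trans e48)
      refine ⟨u, h1, fun i => ?_, h3⟩
      have := h2 i
      have := hv i
      have hx2 := h1.1 i
      split_ifs at * with hi <;> simp [allA, allB] at * <;> omega
    · intro h
      obtain ⟨h1, h2, -⟩ := evenSet_sub h
      obtain ⟨u, g1, g2, -⟩ := h
      refine ⟨h1, h2.trans e48.symm, fun i => ?_⟩
      have := g2 i
      have := g1.1 i
      split_ifs at * with hi <;> simp at * <;> omega
  · rw [← v2, ← ncard_oddSet (by decide) (by decide) (by norm_num)]
    congr 1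
    ext x
    constructor
    · rintro ⟨hx, hn, i, j, k, hij, hjk, hik, hi, hj, hk⟩
      have ho : ¬ (2 : ℤ) ∣ x none := by rw [none_odd hx (i := i)]; (have := (abs_eq (by norm_num : (0 : ℤ) ≤ 3)).1 hi; omega)
      obtain ⟨h1, h2, h3⟩ := odd_mem_oddSet hx ho (by norm_num) (hn.trans o48)
      refine ⟨h1, fun l => ?_, h3⟩
      obtain ⟨a, ha, e⟩ := h2 l
      refine ⟨a, ?_, e⟩
      simp [allO] at ha
      rcases ha with rfl | rfl | ha
      · simp
      · simp
      · exfalso
        have hli : l ≠ i := fun h => by subst h; (have := (abs_eq (by norm_num : (0 : ℤ) ≤ 3)).1 hi; omega)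
        have hlj : l ≠ j := fun h => by subst h; (have := (abs_eq (by norm_num : (0 : ℤ) ≤ 3)).1 hj; omega)
        have hlk : l ≠ k := fun h => by subst h; (have := (abs_eq (by norm_num : (0 : ℤ) ≤ 3)).1 hk; omega)
        have h4 := Finset.sum_le_sum_of_subset (Finset.subset_univ ({i, j, k, l} : Finset GolayPt))
          (f := fun t => wOdd (x t))
        rw [h3, Finset.sum_insert (by simp [hij, hik, hli.symm]),
          Finset.sum_insert (by simp [hjk, hlj.symm]), Finset.sum_insert (by simp [hlk.symm]),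
          Finset.sum_singleton] at h4
        have w3 : ∀ y : ℤ, |y| = 3 → wOdd y = 1 := fun y hy => by
          rcases (abs_eq (by norm_num : (0 : ℤ) ≤ 3)).1 hy with rfl | rfl <;> rfl
        rw [w3 _ hi, w3 _ hj, w3 _ hk] at h4
        rcases ha with rfl | rfl <;> rcases e with e | e <;> rw [e] at h4 <;>
          simp [wOdd] at h4
    · intro h
      obtain ⟨h1, h2, h3⟩ := oddSet_sub (by decide) h
      obtain ⟨-, hv, hw⟩ := h
      obtain ⟨S, hS⟩ : ∃ S : Finset GolayPt, S = Finset.univ.filter fun i => |x i| = 3 := ⟨_, rfl⟩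
      have hcard : S.card = 3 := by
        rw [hS, Finset.card_filter]
        refine Eq.trans (Finset.sum_congr rfl fun i _ => ?_) hw
        obtain ⟨a, ha, e⟩ := hv i
        simp at ha
        rcases ha with rfl | rfl <;> rcases e with e | e <;> rw [e] <;> rfl
      obtain ⟨i, j, k, hij, hik, hjk, e⟩ := Finset.card_eq_three.1 hcard
      have hm : ∀ t ∈ ({i, j, k} : Finset GolayPt), |x t| = 3 := fun t ht => by
        rw [← e, hS] at ht; simpa using ht
      exact ⟨h1, h2.trans o48.symm, i, j, k, hij, hjk, hik, hm i (by simp), hm j (by simp),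
        hm k (by simp)⟩
  · rw [← v3, ← ncard_evenSet (by decide) (by decide) (by decide) (by decide) (by norm_num),
      ← ncard_evenSet (by decide) (by decide) (by decide) (by decide) (by norm_num),
      ← Set.ncard_sdiff (evenSet_sub' (by decide) _) (fin_even 12 (by norm_num) _ _)]
    congr 1
    ext x
    constructor
    · rintro ⟨hx, hn, i, hi⟩
      refine ⟨even_mem_evenSet hx ((none_odd hx (i := i)).2 ?_) (by norm_num) (hn.trans e48), ?_⟩
      · (have := (abs_eq (by norm_num : (0 : ℤ) ≤ 4)).1 hi; omega)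
      · rintro ⟨u, h1, h2, -⟩
        have := h2 i
        have := h1.1 i
        rcases (abs_eq (by norm_num : (0 : ℤ) ≤ 4)).1 hi with e | e <;>
          split_ifs at * with h <;> simp [allA] at * <;> omega
    · rintro ⟨h, hnot⟩
      obtain ⟨h1, h2, -⟩ := evenSet_sub h
      obtain ⟨u, g1, g2, g3⟩ := h
      refine ⟨h1, h2.trans e48.symm, ?_⟩
      by_contra hcon
      push Not at hcon
      refine hnot ⟨u, g1, fun i => ?_, g3⟩
      have := g2 i
      have := g1.1 i
      have := hcon i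
      split_ifs at * with h
      · assumption
      · simp [allB] at *
        have : x i ≠ 4 ∧ x i ≠ -4 := ⟨fun e => hcon i (by rw [e]; rfl), fun e => hcon i (by rw [e]; rfl)⟩
        omega
  · rw [← v4, ← ncard_oddSet (by decide) allO_mod (by norm_num),
      ← ncard_oddSet (by decide) (by decide) (by norm_num),
      ← Set.ncard_sdiff (oddSet_sub' (by decide) _)
        (bounded_finite fun x hx => by rw [(oddSet_sub (by decide) hx).2.1]; omega)]
    congr 1
    ext x
    constructor
    · rintro ⟨hx, hn, i, hi⟩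
      have ho : ¬ (2 : ℤ) ∣ x none := by rw [none_odd hx (i := i)]; (have := (abs_eq (by norm_num : (0 : ℤ) ≤ 5)).1 hi; omega)
      refine ⟨odd_mem_oddSet hx ho (by norm_num) (hn.trans o48), ?_⟩
      rintro ⟨-, hv, -⟩
      obtain ⟨a, ha, e⟩ := hv i
      simp at ha
      rcases ha with rfl | rfl | rfl <;> rcases e with e | e <;> rw [e] at hi <;> norm_num at hi
    · rintro ⟨h, hnot⟩
      obtain ⟨h1, h2, -⟩ := oddSet_sub allO_mod h
      obtain ⟨g1, g2, g3⟩ := h
      refine ⟨h1, h2.trans o48.symm, ?_⟩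
      by_contra hcon
      push Not at hcon
      refine hnot ⟨g1, fun i => ?_, g3⟩
      obtain ⟨a, ha, e⟩ := g2 i
      refine ⟨a, ?_, e⟩
      simp [allO] at ha ⊢
      rcases ha with rfl | rfl | rfl | rfl
      · simp
      · simp
      · exfalso; rcases e with e | e <;> exact hcon i (by rw [e]; rfl)
      · simp

end CfsgLib.Leech
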