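import Cfsg.Agent.Lib.Leech.Orbits

/-! Transitivity of the automorphism group on short vectors and on crosses. -/
set_option autoImplicit false
set_option linter.all false
set_option maxRecDepth 20000
set_option maxHeartbeats 1000000

namespace CfsgLib.Leech

open Cfsg CfsgLib.Golay
open scoped Pointwise

/-- the image of a vector under a link -/
def linkImg (l : ℕ × ℕ) (x : GolayPt → ℤ) : GolayPt → ℤ :=
  xi (flipOn (toSet l.2) fun i => x (pfun l.1 i))

/-- the conditions on a link -/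
def LinkOk (l : ℕ × ℕ) (x y : GolayPt → ℤ) : Prop :=
  MemB x ∧ inM24 l.1 = true ∧ inCode l.2 = true ∧ shp (linkImg l x) = shp y

theorem link_equi {l : ℕ × ℕ} {x y : GolayPt → ℤ} (h : LinkOk l x y)
    (hfam : ∀ z ∈ leechLattice, shp z = shp y → Equi z y) : Equi x y := by
  obtain ⟨hxB, hM, hC, hs⟩ := h
  have hok : okPerm l.1 = true := okPerm_of_inM24 hM
  have hcW : IsW (toSet l.2) := by
    rw [isW_iff, toMask_toSet (lt_of_inCode hC)]; exact hC
  have h1 : Equi x (fun i => x (pfun l.1 i)) := by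
    have := equi_perm (inv_mem (toPerm_mem_M24 hM)) (mem_of_memB hxB)
    have e : permMap (toPerm l.1)⁻¹ x = fun i => x (pfun l.1 i) := by
      funext i
      show x (toPerm l.1 i) = _
      rw [toPerm_apply hok]
      rfl
    rwa [e] at this
  have h2 := h1.trans (equi_flip hcW h1.mem)
  have h3 := h2.trans (equi_xi h2.mem)
  exact h3.trans (hfam _ h3.mem hs)

theorem links_ok : LinkOk link_pairV pairV octV ∧ LinkOk link_octV octV omegaV ∧
    LinkOk link_dodV dodV threeV ∧ LinkOk link_fourV fourV threeV ∧ LinkOk link_fiveV fiveV fourV ∧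
    LinkOk link_tetV tetV eightV ∧ LinkOk link_sixV sixV tetV ∧ LinkOk link_ppV ppV tetV ∧
    LinkOk link_dfV dfV ppV ∧ LinkOk link_etV etV sixV := by
  refine ⟨?_, ?_, ?_, ?_, ?_, ?_, ?_, ?_, ?_, ?_⟩ <;>
    exact ⟨by decide +kernel, by decide +kernel, by decide +kernel, by decide +kernel⟩

theorem shp_std : shp pairV = [22, 0, 0, 0, 2, 0, 0, 0, 0] ∧ shp octV = [16, 0, 8, 0, 0, 0, 0, 0, 0] ∧
    shp omegaV = [0, 23, 0, 1, 0, 0, 0, 0, 0] ∧ shp dodV = [12, 0, 12, 0, 0, 0, 0, 0, 0] ∧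
    shp fourV = [15, 0, 8, 0, 1, 0, 0, 0, 0] ∧ shp threeV = [0, 21, 0, 3, 0, 0, 0, 0, 0] ∧
    shp fiveV = [0, 23, 0, 0, 0, 1, 0, 0, 0] ∧ shp eightV = [23, 0, 0, 0, 0, 0, 0, 0, 1] ∧
    shp tetV = [20, 0, 0, 0, 4, 0, 0, 0, 0] ∧ shp sixV = [16, 0, 7, 0, 0, 0, 1, 0, 0] ∧
    shp ppV = [14, 0, 8, 0, 2, 0, 0, 0, 0] ∧ shp dfV = [11, 0, 12, 0, 1, 0, 0, 0, 0] ∧
    shp etV = [0, 21, 0, 2, 0, 1, 0, 0, 0] := by
  refine ⟨?_, ?_, ?_, ?_, ?_, ?_, ?_, ?_, ?_, ?_, ?_, ?_, ?_⟩ <;> decide +kernel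

theorem level_facts {x : GolayPt → ℤ} (hn : sqNorm x ≤ 64) :
    ∃ c : ℕ → ℕ, shp x = [c 0, c 1, c 2, c 3, c 4, c 5, c 6, c 7, c 8] ∧ (∀ k, c k = (lvl x k).card) ∧
      c 0 + c 1 + c 2 + c 3 + c 4 + c 5 + c 6 + c 7 + c 8 = 24 ∧
      sqNorm x = c 1 + 4 * c 2 + 9 * c 3 + 16 * c 4 + 25 * c 5 + 36 * c 6 + 49 * c 7 + 64 * c 8 := by
  refine ⟨fun k => (lvl x k).card, rfl, fun _ => rfl, ?_, ?_⟩ <;>
    have hlt : ∀ i : GolayPt, i ∈ (Finset.univ : Finset GolayPt) → (x i).natAbs ∈ Finset.range 9 :=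
      fun i _ => Finset.mem_range.2 (by
        have hb := sq_bound (u := x) hn i
        have : -8 ≤ x i ∧ x i ≤ 8 := ⟨by nlinarith, by nlinarith⟩
        omega)
  · have h : ∑ k ∈ Finset.range 9, (lvl x k).card = 24 := by
      have hh := Finset.card_eq_sum_card_fiberwise hlt
      rw [Finset.card_univ, card_pt] at hh
      exact hh.symm
    simp only [Finset.sum_range_succ, Finset.sum_range_zero, zero_add] at h
    exact h
  · have h : sqNorm x = ∑ k ∈ Finset.range 9, ((k : ℤ) ^ 2) * ((lvl x k).card : ℤ) := by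
      rw [sqNorm, ← Finset.sum_fiberwise_of_maps_to hlt]
      unfold lvl
      refine Finset.sum_congr rfl fun k _ => ?_
      rw [Finset.sum_congr rfl (g := fun _ => (k : ℤ) ^ 2) (fun i hi => by
        rw [Finset.mem_filter] at hi
        rw [← hi.2, sq_eq_natAbs]
        push_cast
        rfl), Finset.sum_const, nsmul_eq_mul, mul_comm]
    simp only [Finset.sum_range_succ, Finset.sum_range_zero, zero_add] at h
    rw [h]
    push_cast
    ring

theorem even_facts {x : GolayPt → ℤ} (hx : x ∈ leechLattice) (h2 : (2 : ℤ) ∣ x none)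
    (hn : sqNorm x ≤ 64) :
    (∀ k, ¬ 2 ∣ k → (lvl x k).card = 0) ∧
      ((lvl x 2).card + (lvl x 6).card = (core x).card) ∧
      ((core x).card = 0 → 2 ∣ (lvl x 4).card) := by
  obtain ⟨m, u, g1, g2, g3⟩ := mem_leechLattice.1 hx
  have hev : ∀ i, (2 : ℤ) ∣ x i := fun i => by have := g1 i; have := g1 none; omega
  have hb : ∀ i, -8 ≤ x i ∧ x i ≤ 8 := fun i => by
    have hb := sq_bound (u := x) hn i
    exact ⟨by nlinarith, by nlinarith⟩
  refine ⟨fun k hk => ?_, ?_, fun h0 => ?_⟩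
  · rw [Finset.card_eq_zero, Finset.eq_empty_iff_forall_notMem]
    intro i hi
    rw [mem_lvl] at hi
    have := hev i
    omega
  · rw [← Finset.card_union_of_disjoint (Finset.disjoint_left.2 fun t h1 h2 => by
      rw [mem_lvl] at h1 h2; omega)]
    congr 1
    ext i
    have := hev i
    have := hb i
    simp only [core, Finset.mem_filter, Finset.mem_univ, true_and, Finset.mem_union, mem_lvl]
    omega
  · rw [Finset.card_eq_zero] at h0
    have h8 : (8 : ℤ) ∣ ∑ i, (x i - if i ∈ lvl x 4 then (4 : ℤ) else 0) := by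
      refine Finset.dvd_sum fun i _ => ?_
      have := hev i
      have := hb i
      have hc : x i % 4 ≠ 2 := fun h => by
        have : i ∈ core x := by simp [core, h]
        rw [h0] at this
        exact absurd this (Finset.notMem_empty i)
      by_cases hi : i ∈ lvl x 4
      · rw [if_pos hi]; rw [mem_lvl] at hi; omega
      · rw [if_neg hi]; rw [mem_lvl] at hi; omega
    rw [Finset.sum_sub_distrib, Finset.sum_ite_mem, Finset.univ_inter, Finset.sum_const,
      nsmul_eq_mul, sum_rep g1] at h8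
    have := g1 none
    omega

theorem odd_facts {x : GolayPt → ℤ} (hx : x ∈ leechLattice) (h2 : ¬ (2 : ℤ) ∣ x none) :
    ∀ k, 2 ∣ k → (lvl x k).card = 0 := by
  obtain ⟨m, u, g1, g2, g3⟩ := mem_leechLattice.1 hx
  intro k hk
  rw [Finset.card_eq_zero, Finset.eq_empty_iff_forall_notMem]
  intro i hi
  rw [mem_lvl] at hi
  have := g1 i
  have := g1 none
  omega

theorem classify {x : GolayPt → ℤ} (hx : x ∈ leechLattice) :
    (sqNorm x = 32 → shp x = shp pairV ∨ shp x = shp octV ∨ shp x = shp omegaV) ∧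
    (sqNorm x = 48 → shp x = shp dodV ∨ shp x = shp fourV ∨ shp x = shp threeV ∨ shp x = shp fiveV) ∧
    (sqNorm x = 64 → Nice x → shp x = shp eightV ∨ shp x = shp tetV ∨ shp x = shp sixV ∨
      shp x = shp ppV ∨ shp x = shp dfV ∨ shp x = shp etV) := by
  obtain ⟨s1, s2, s3, s4, s5, s6, s7, s8, s9, s10, s11, s12, s13⟩ := shp_std
  rw [s1, s2, s3, s4, s5, s6, s7, s8, s9, s10, s11, s12, s13]
  have hW := isW_card (core_isW hx)
  refine ⟨fun hN => ?_, fun hN => ?_, fun hN hnice => ?_⟩ <;>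
    obtain ⟨c, hs, hc, hsum, hsq⟩ := level_facts (x := x) (by omega) <;>
    rw [hs] <;> simp only [List.cons.injEq, and_true] <;> rw [hN] at hsq
  · by_cases h2 : (2 : ℤ) ∣ x none
    · obtain ⟨he, hcore, hpar⟩ := even_facts hx h2 (by omega)
      obtain ⟨k, hk⟩ : ∃ k, (core x).card = k := ⟨_, rfl⟩
      rw [hk] at hcore hpar hW
      rw [← hc 2, ← hc 6] at hcore
      rw [← hc 4] at hpar
      have e1 : c 1 = 0 := (hc 1).trans (he 1 (by norm_num))
      have e3 : c 3 = 0 := (hc 3).trans (he 3 (by norm_num))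
      have e5 : c 5 = 0 := (hc 5).trans (he 5 (by norm_num))
      have e7 : c 7 = 0 := (hc 7).trans (he 7 (by norm_num))
      clear hs hc he hk
      have h4b : c 4 ≤ 4 := by omega
      have h8b : c 8 ≤ 1 := by omega
      rcases hW with h | h | h | h | h <;> subst h <;> interval_cases h4 : c 4 <;>
      first
        | (exfalso; omega)
        | (left; refine ⟨?_, ?_, ?_, ?_, ?_, ?_, ?_, ?_, ?_⟩ <;> omega)
        | (right; left; refine ⟨?_, ?_, ?_, ?_, ?_, ?_, ?_, ?_, ?_⟩ <;> omega)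
        | (right; right; refine ⟨?_, ?_, ?_, ?_, ?_, ?_, ?_, ?_, ?_⟩ <;> omega)
    · have ho := odd_facts hx h2
      have e0 : c 0 = 0 := (hc 0).trans (ho 0 (by norm_num))
      have e2 : c 2 = 0 := (hc 2).trans (ho 2 (by norm_num))
      have e4 : c 4 = 0 := (hc 4).trans (ho 4 (by norm_num))
      have e6 : c 6 = 0 := (hc 6).trans (ho 6 (by norm_num))
      have e8 : c 8 = 0 := (hc 8).trans (ho 8 (by norm_num))
      clear hs hc ho
      have h5b : c 5 ≤ 1 := by omega
      interval_cases h5' : c 5 <;>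
      first
        | (exfalso; omega)
        | (left; refine ⟨?_, ?_, ?_, ?_, ?_, ?_, ?_, ?_, ?_⟩ <;> omega)
        | (right; left; refine ⟨?_, ?_, ?_, ?_, ?_, ?_, ?_, ?_, ?_⟩ <;> omega)
        | (right; right; refine ⟨?_, ?_, ?_, ?_, ?_, ?_, ?_, ?_, ?_⟩ <;> omega)
  · by_cases h2 : (2 : ℤ) ∣ x none
    · obtain ⟨he, hcore, hpar⟩ := even_facts hx h2 (by omega)
      obtain ⟨k, hk⟩ : ∃ k, (core x).card = k := ⟨_, rfl⟩
      rw [hk] at hcore hpar hW
      rw [← hc 2, ← hc 6] at hcore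
      rw [← hc 4] at hpar
      have e1 : c 1 = 0 := (hc 1).trans (he 1 (by norm_num))
      have e3 : c 3 = 0 := (hc 3).trans (he 3 (by norm_num))
      have e5 : c 5 = 0 := (hc 5).trans (he 5 (by norm_num))
      have e7 : c 7 = 0 := (hc 7).trans (he 7 (by norm_num))
      clear hs hc he hk
      have h4b : c 4 ≤ 4 := by omega
      have h8b : c 8 ≤ 1 := by omega
      rcases hW with h | h | h | h | h <;> subst h <;> interval_cases h4 : c 4 <;>
      first
        | (exfalso; omega)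
        | (left; refine ⟨?_, ?_, ?_, ?_, ?_, ?_, ?_, ?_, ?_⟩ <;> omega)
        | (right; left; refine ⟨?_, ?_, ?_, ?_, ?_, ?_, ?_, ?_, ?_⟩ <;> omega)
        | (right; right; left; refine ⟨?_, ?_, ?_, ?_, ?_, ?_, ?_, ?_, ?_⟩ <;> omega)
        | (right; right; right; refine ⟨?_, ?_, ?_, ?_, ?_, ?_, ?_, ?_, ?_⟩ <;> omega)
    · have ho := odd_facts hx h2
      have e0 : c 0 = 0 := (hc 0).trans (ho 0 (by norm_num))
      have e2 : c 2 = 0 := (hc 2).trans (ho 2 (by norm_num))
      have e4 : c 4 = 0 := (hc 4).trans (ho 4 (by norm_num))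
      have e6 : c 6 = 0 := (hc 6).trans (ho 6 (by norm_num))
      have e8 : c 8 = 0 := (hc 8).trans (ho 8 (by norm_num))
      clear hs hc ho
      have h5b : c 5 ≤ 1 := by omega
      interval_cases h5' : c 5 <;>
      first
        | (exfalso; omega)
        | (left; refine ⟨?_, ?_, ?_, ?_, ?_, ?_, ?_, ?_, ?_⟩ <;> omega)
        | (right; left; refine ⟨?_, ?_, ?_, ?_, ?_, ?_, ?_, ?_, ?_⟩ <;> omega)
        | (right; right; left; refine ⟨?_, ?_, ?_, ?_, ?_, ?_, ?_, ?_, ?_⟩ <;> omega)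
        | (right; right; right; refine ⟨?_, ?_, ?_, ?_, ?_, ?_, ?_, ?_, ?_⟩ <;> omega)
  · by_cases h2 : (2 : ℤ) ∣ x none
    · obtain ⟨he, hcore, hpar⟩ := even_facts hx h2 (by omega)
      obtain ⟨k, hk⟩ : ∃ k, (core x).card = k := ⟨_, rfl⟩
      rw [hk] at hcore hpar hW
      have hle : k ≤ 12 := by
        rw [← hk]
        rcases hnice with h | ⟨-, h⟩ | ⟨i, hi⟩
        · omega
        · exact h
        · exfalso
          have : i ∈ lvl x 5 := mem_lvl.2 (by omega)
          have := Finset.card_pos.2 ⟨i, this⟩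
          rw [he 5 (by norm_num)] at this
          omega
      rw [← hc 2, ← hc 6] at hcore
      rw [← hc 4] at hpar
      have e1 : c 1 = 0 := (hc 1).trans (he 1 (by norm_num))
      have e3 : c 3 = 0 := (hc 3).trans (he 3 (by norm_num))
      have e5 : c 5 = 0 := (hc 5).trans (he 5 (by norm_num))
      have e7 : c 7 = 0 := (hc 7).trans (he 7 (by norm_num))
      clear hs hc he hk
      have h4b : c 4 ≤ 4 := by omega
      have h8b : c 8 ≤ 1 := by omega
      rcases hW with h | h | h | h | h <;> subst h <;> interval_cases h4 : c 4 <;>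
      first
        | (exfalso; omega)
        | (left; refine ⟨?_, ?_, ?_, ?_, ?_, ?_, ?_, ?_, ?_⟩ <;> omega)
        | (right; left; refine ⟨?_, ?_, ?_, ?_, ?_, ?_, ?_, ?_, ?_⟩ <;> omega)
        | (right; right; left; refine ⟨?_, ?_, ?_, ?_, ?_, ?_, ?_, ?_, ?_⟩ <;> omega)
        | (right; right; right; left; refine ⟨?_, ?_, ?_, ?_, ?_, ?_, ?_, ?_, ?_⟩ <;> omega)
        | (right; right; right; right; left; refine ⟨?_, ?_, ?_, ?_, ?_, ?_, ?_, ?_, ?_⟩ <;> omega)
        | (right; right; right; right; right; refine ⟨?_, ?_, ?_, ?_, ?_, ?_, ?_, ?_, ?_⟩ <;> omega)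
    · have ho := odd_facts hx h2
      have h5 : 0 < c 5 := by
        rw [hc 5]
        rcases hnice with h | ⟨h, -⟩ | ⟨i, hi⟩
        · omega
        · exact absurd h h2
        · exact Finset.card_pos.2 ⟨i, mem_lvl.2 (by omega)⟩
      have e0 : c 0 = 0 := (hc 0).trans (ho 0 (by norm_num))
      have e2 : c 2 = 0 := (hc 2).trans (ho 2 (by norm_num))
      have e4 : c 4 = 0 := (hc 4).trans (ho 4 (by norm_num))
      have e6 : c 6 = 0 := (hc 6).trans (ho 6 (by norm_num))
      have e8 : c 8 = 0 := (hc 8).trans (ho 8 (by norm_num))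
      clear hs hc ho
      have h5b : c 5 ≤ 1 := by omega
      interval_cases h5' : c 5 <;>
      first
        | (exfalso; omega)
        | (left; refine ⟨?_, ?_, ?_, ?_, ?_, ?_, ?_, ?_, ?_⟩ <;> omega)
        | (right; left; refine ⟨?_, ?_, ?_, ?_, ?_, ?_, ?_, ?_, ?_⟩ <;> omega)
        | (right; right; left; refine ⟨?_, ?_, ?_, ?_, ?_, ?_, ?_, ?_, ?_⟩ <;> omega)
        | (right; right; right; left; refine ⟨?_, ?_, ?_, ?_, ?_, ?_, ?_, ?_, ?_⟩ <;> omega)
        | (right; right; right; right; left; refine ⟨?_, ?_, ?_, ?_, ?_, ?_, ?_, ?_, ?_⟩ <;> omega)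
        | (right; right; right; right; right; refine ⟨?_, ?_, ?_, ?_, ?_, ?_, ?_, ?_, ?_⟩ <;> omega)

theorem equi_omega {x : GolayPt → ℤ} (hx : x ∈ leechLattice) (hn : sqNorm x = 32) :
    Equi x omegaV := by
  obtain ⟨l1, l2, -⟩ := links_ok
  have ho := link_equi l2 fun z hz h => fam_omega hz h
  rcases (classify hx).1 hn with h | h | h
  · exact ((fam_pair hx h).trans (link_equi l1 fun z hz h => fam_oct hz h)).trans ho
  · exact (fam_oct hx h).trans ho
  · exact fam_omega hx h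

theorem equi_three {x : GolayPt → ℤ} (hx : x ∈ leechLattice) (hn : sqNorm x = 48) :
    Equi x threeV := by
  obtain ⟨-, -, l3, l4, l5, -⟩ := links_ok
  have h4 := link_equi l4 fun z hz h => fam_three hz h
  rcases (classify hx).2.1 hn with h | h | h | h
  · exact (fam_dod hx h).trans (link_equi l3 fun z hz h => fam_three hz h)
  · exact (fam_four hx h).trans h4
  · exact fam_three hx h
  · exact ((fam_five hx h).trans (link_equi l5 fun z hz h => fam_four hz h)).trans h4

theorem equi_nice {x : GolayPt → ℤ} (hx : x ∈ leechLattice) (hn : sqNorm x = 64) (hnice : Nice x) :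
    Equi x eightV := by
  obtain ⟨-, -, -, -, -, l6, l7, l8, l9, l10⟩ := links_ok
  have ht := link_equi l6 fun z hz h => fam_eight hz h
  have hs := (link_equi l7 fun z hz h => fam_tet hz h).trans ht
  have hp := (link_equi l8 fun z hz h => fam_tet hz h).trans ht
  rcases (classify hx).2.2 hn hnice with h | h | h | h | h | h
  · exact fam_eight hx h
  · exact (fam_tet hx h).trans ht
  · exact (fam_six hx h).trans hs
  · exact (fam_pp hx h).trans hp
  · exact ((fam_df hx h).trans (link_equi l9 fun z hz h => fam_pp hz h)).trans hp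
  · exact ((fam_et hx h).trans (link_equi l10 fun z hz h => fam_six hz h)).trans hs

theorem to_co0 {v w : leechLattice} (h : Equi (v : GolayPt → ℤ) w) : ∃ g : Co0, g • v = w := by
  obtain ⟨g, hx, e⟩ := h
  exact ⟨g, Subtype.ext e⟩

theorem co0_two_smul (g : Co0) (z : leechLattice) : g • (2 • z) = 2 • (g • z) := by
  rw [two_nsmul, two_nsmul, co0_add]

/-- every norm-64 class is carried to the class of `8 e` -/
theorem cross_to_eight (v : leechLattice) (hv : sqNorm (v : GolayPt → ℤ) = 64) :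
    ∃ g : Co0, Cong ((g • v : leechLattice) : GolayPt → ℤ) eightV := by
  obtain ⟨y, hy, hyn, hnice, hc⟩ := short_all v.2
  have hy64 : sqNorm y = 64 := by
    by_cases hvy : (v : GolayPt → ℤ) = y
    · rw [← hvy, hv]
    rcases cong_short hy hvy hv.le hyn hc with e | ⟨-, e, -⟩
    · rw [← hv, e, sqNorm_neg]
    · exact e
  obtain ⟨g, hg, e⟩ := equi_nice hy hy64 hnice
  obtain ⟨z, hz, ez⟩ := hc
  refine ⟨g, ((g • (⟨z, hz⟩ : leechLattice) : leechLattice) : GolayPt → ℤ), SetLike.coe_mem _, ?_⟩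
  have hv' : v = ⟨y, hg⟩ + 2 • (⟨z, hz⟩ : leechLattice) := by
    apply Subtype.ext
    push_cast
    rw [← ez]; abel
  rw [hv', co0_add, co0_two_smul, AddSubgroup.coe_add, AddSubmonoidClass.coe_nsmul, e]
  abel

theorem crosses_transitive (v w : leechLattice) (hv : sqNorm (v : GolayPt → ℤ) = 64)
    (hw : sqNorm (w : GolayPt → ℤ) = 64) :
    ∃ g : Co0, ∃ z ∈ leechLattice,
      ((g • v : leechLattice) : GolayPt → ℤ) - (w : GolayPt → ℤ) = 2 • z := by
  obtain ⟨g, zg, hzg, eg⟩ := cross_to_eight v hv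
  obtain ⟨k, zk, hzk, ek⟩ := cross_to_eight w hw
  obtain ⟨d, hd⟩ : ∃ d : leechLattice, g • v = k • w + 2 • d :=
    ⟨⟨zg, hzg⟩ - ⟨zk, hzk⟩, Subtype.ext (by
      push_cast
      rw [smul_sub, ← eg, ← ek]; abel)⟩
  refine ⟨k⁻¹ * g, ((k⁻¹ • d : leechLattice) : GolayPt → ℤ), SetLike.coe_mem _, ?_⟩
  rw [mul_smul, hd, co0_add, inv_smul_smul, co0_two_smul, AddSubgroup.coe_add,
    AddSubmonoidClass.coe_nsmul]
  abel

end CfsgLib.Leech
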